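import Cfsg.Agent.H3.RI4

/-! Root involutions, part 7: odd transpositions. -/

set_option autoImplicit false
set_option linter.unusedSectionVars false
set_option linter.unusedVariables false

namespace Cfsg.Agent.H3.Rt
open Subgroup

variable {G : Type*} [Group G]

/-- a set of odd transpositions of the subgroup it generates -/
structure OT (D : Set G) : Prop extends RI D where
  cm : ∀ a ∈ D, ∀ b ∈ D, ¬ Adj a b → a * b = b * a

theorem OT.of {D : Set G} (h : IsOddTranspositionSet D) : OT D := ⟨RI.of h.1, fun a ha b hb => odd_comm h ha hb⟩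

theorem RI.SA_of_le' [Finite G] {D : Set G} (h : RI D) {g u v : G} (hg : g ∈ closure D) (e : g * v * g⁻¹ = u)
    (le : ∀ x ∈ D, Adj u x → Adj v x) : SA D u v := by
  have : {x | x ∈ D ∧ Adj u x} = {x | x ∈ D ∧ Adj v x} := by
    refine Set.eq_of_subset_of_ncard_le (fun x hx => ⟨hx.1, le x hx.1 hx.2⟩) ?_ (Set.toFinite _)
    refine Set.ncard_le_ncard_of_injOn (fun x => g * x * g⁻¹) (fun x hx => ⟨h.cjc hg hx.1, e ▸ hx.2.conj g⟩)
      (fun x _ y _ e => by simpa using e) (Set.toFinite _)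
  intro x hx
  exact ⟨le x hx, fun j => (this.symm ▸ (⟨hx, j⟩ : x ∈ {x | x ∈ D ∧ Adj v x}) : x ∈ {x | x ∈ D ∧ Adj u x}).2⟩

theorem bs_of [Finite G] {w : G} (w2 : w * w = 1)
    (c : ∀ g : G, Commute (w * (g * w * g⁻¹) * w) (g * w * g⁻¹)) : w ∈ pCore 2 G := by
  haveI : Fact (Nat.Prime 2) := ⟨Nat.prime_two⟩
  refine H2.mem_pCore_of_forall_isPGroup_closure_conj w fun g => ?_
  have u2 : g * w * g⁻¹ * (g * w * g⁻¹) = 1 := by rw [conj_mul, w2]; simp
  have c := (c g).eq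
  generalize g * w * g⁻¹ = u at *
  refine dih_pgroup w2 u2 (k := 2) ?_
  rw [pow_two 2, pow_mul, pow_two, pow_two,
    show w * u * (w * u) * (w * u * (w * u)) = w * u * w * u * (w * u * w) * u by simp only [mul_assoc], c]
  apply W; simp only [mul_assoc, r2 w2, r2 u2, one_mul]

theorem mc1 {g z : G} : g ∈ centralizer ({z} : Set G) ↔ g * z = z * g := mem_centralizer_singleton_iff

namespace OT
variable {D : Set G} (h : OT D) {a b c d e s t u v w x y z k e1 e2 e3 : G}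
include h

theorem adj (ha : a ∈ D) (hb : b ∈ D) (n : a * b ≠ b * a) : Adj a b := by_contra fun k => n (h.cm a ha b hb k)

theorem inter (U : Subgroup G) : OT (D ∩ U) := ⟨h.toRI.inter U, fun a ha b hb => h.cm a ha.1 b hb.1⟩

theorem sub {T : Set G} (hT : T ⊆ D) (c : ∀ s ∈ T, ∀ t ∈ T, t * s * t ∈ T) : OT T :=
  ⟨h.toRI.sub hT c fun s hs t ht n k => absurd (h.cm s (hT hs) t (hT ht) n) k,
    fun a ha b hb => h.cm a (hT ha) b (hT hb)⟩

theorem sa_c (hu : u ∈ D) (hv : v ∈ D) (s : SA D u v) (hx : x ∈ D) (c : u * x = x * u) : v * x = x * v :=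
  h.cm v hv x hx fun j => h.nadj hu hx c ((s x hx).2 j)

theorem sa_cm (hu : u ∈ D) (hv : v ∈ D) (s : SA D u v) : v * u = u * v := h.sa_c hu hv s hu rfl

theorem sa_iff (hu : u ∈ D) (hv : v ∈ D) : v ∈ sameCommutingClass D u ↔ SA D u v := by
  constructor
  · rintro ⟨-, e⟩ x hx
    have e1 : x * u = u * x ↔ x * v = v * x :=
      ⟨fun c => (e.le ⟨hx, c⟩ : x ∈ commutingMembers D v).2, fun c => (e.ge ⟨hx, c⟩ : x ∈ commutingMembers D u).2⟩
    exact ⟨fun j => h.adj hv hx fun c => h.nadj hu hx (e1.2 c.symm).symm j,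
      fun j => h.adj hu hx fun c => h.nadj hv hx (e1.1 c.symm).symm j⟩
  · intro s
    exact ⟨hv, Set.ext fun x => ⟨fun m => ⟨m.1, (h.sa_c hu hv s m.1 m.2.symm).symm⟩,
      fun m => ⟨m.1, (h.sa_c hv hu s.symm m.1 m.2.symm).symm⟩⟩⟩

theorem N2 (ha : a ∈ D) (hb : b ∈ D) (c : a * b = b * a) (ne : a ≠ b) (hx : x ∈ D)
    (m : a * b * x = x * (a * b)) : a * x = x * a := by
  have a2 := h.s2 ha
  refine h.cm a ha x hx (h.lemN (z := a * b) ha hx (by rwa [r2 a2])
    (fun e => ne (by rw [← r2 a2 b, e, mul_one])) ?_ ?_ m) <;> apply W <;>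
    simp only [mul_assoc, rc c.symm, r2 a2, r2 (h.s2 hb), one_mul]

theorem comm_swap (hy : y ∈ D) (hs : s ∈ D) (hx : x ∈ D) (n : Adj y s) (c1 : x * y = y * x)
    (c2 : x * (s * y * s) = s * y * s * x) : x * s = s * x := by
  have x2 := h.s2 hx
  have := h.swap_uniq hy hs (h.cj s hs x hx) (n.self_cj (h.s2 hy) (h.s2 hs)) rfl (by
    rw [show x * s * x * y * (x * s * x) = x * (s * y * s) * x by
      apply W; simp only [mul_assoc, rc c1.symm, r2 x2], c2, mul_assoc, x2, mul_one])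
  nth_rewrite 1 [this]; apply W; simp only [mul_assoc, r2 x2]

theorem claim1 (hs : s ∈ D) (hu : u ∈ D) (o : Odd (orderOf k)) (k1 : k ≠ 1) (i : s * k = k⁻¹ * s)
    (c : u * k = k * u) : u * s = s * u := by
  by_contra nc
  obtain ⟨m, hm⟩ := (h.adj hu hs nc).2
  have c' : u * k⁻¹ = k⁻¹ * u := (Commute.inv_right c).eq
  have i' : s * k⁻¹ = k * s := by
    rw [← mul_left_inj k, ← mul_right_inj k⁻¹]; simp only [mul_assoc, inv_mul_cancel, mul_one, inv_mul_cancel_left, i]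
  have e1 : Commute (u * s * (u * s)) k := by
    show _ * _ = _ * _
    apply W; simp only [mul_assoc, rc i, rc i', rc c, rc c']
  have e2 := (e1.pow_left (m + 1)).eq
  rw [odd_root (hm ▸ pow_orderOf_eq_one (u * s)), mul_assoc, i, ← mul_assoc, c', mul_assoc, mul_left_inj] at e2
  exact k1 (odd_sq o (by nth_rewrite 1 [← e2]; simp))

theorem dd_sa (ha : a ∈ D) (hb : b ∈ D) (c : a * b = b * a) (m : a * b ∈ D) : SA D a (a * b) := fun x hx => by
  have a2 := h.s2 ha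
  have b2 := h.s2 hb
  have e : a * b * b = a := by rw [mul_assoc, b2, mul_one]
  constructor
  · intro j
    refine h.adj m hx fun k => h.nadj ha hx (h.N2 ha hb c (fun e => h.ne1 m (by rw [e, b2])) hx k) j
  · intro j
    refine h.adj ha hx fun k => h.nadj m hx (h.N2 m hb (by rw [e, ← mul_assoc, ← c, e])
      (fun e => h.ne1 ha (by simpa using e)) hx (by rwa [e])) j

theorem dd_sa' (ha : a ∈ D) (hb : b ∈ D) (c : a * b = b * a) (m : a * b ∈ D) : SA D a b :=
  (h.dd_sa ha hb c m).trans (c ▸ h.dd_sa hb ha c.symm (c ▸ m)).symm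

/-- the swapper of a non-exceptional pair -/
theorem nonexc (ha : a ∈ D) (hb : b ∈ D) (c : a * b = b * a) (hv : v ∈ D) (n : Adj v (a * b * v * (a * b))) :
    a ≠ b ∧ ∃ t ∈ D, t * a = a * t ∧ t * b = b * t ∧ t * (a * b) * v = v * (t * (a * b)) ∧ Adj v t := by
  have a2 := h.s2 ha
  have b2 := h.s2 hb
  have ne : a ≠ b := fun e => n.1 (by rw [e, b2]; simp)
  have w2 : a * b * (a * b) = 1 := by apply W; simp only [mul_assoc, rc c.symm, r2 a2, r2 b2, one_mul]
  obtain ⟨t, ht, e, ct⟩ := h.swap_comm hv (mul_mem (subset_closure ha) (subset_closure hb)) w2 n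
  refine ⟨ne, t, ht, (h.N2 ha hb c ne ht ct.symm).symm,
    (h.N2 hb ha c.symm ne.symm ht (by rw [← c, ct])).symm, ?_, h.swap_adj hv ht n e⟩
  generalize a * b = w at *
  rw [show t * w * v = t * (w * v * w) * w by apply W; simp only [mul_assoc, r2 w2], ← e]
  apply W; simp only [mul_assoc, r2 (h.s2 ht)]

/-- Lemma F -/
theorem lemF (h1 : e1 ∈ D) (h2 : e2 ∈ D) (c : e1 * e2 = e2 * e1) (m : e1 * e2 ∈ D) (hy : y ∈ D)
    (cy : y * e1 = e1 * y) (hb : b ∈ D) (n : Adj e1 b) :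
    ∃ e, (e = e1 ∨ e = e2) ∧ Adj b (y * e * b * (y * e)) := by
  by_contra k
  push Not at k
  have s := h.dd_sa h1 h2 c m
  have c2 := (h.sa_c h1 h2 (h.dd_sa' h1 h2 c m) hy cy.symm).symm
  have y2 := h.s2 hy
  have a2 := h.s2 h1
  have b2 := h.s2 h2
  have f : ∀ e ∈ D, y * e = e * y → ¬ Adj b (y * e * b * (y * e)) →
      y * b * y * (e * b * e) = e * b * e * (y * b * y) := fun e he c n => by
    have := h.cm _ hb _ (h.cj _ (h.cj _ hb e he) y hy) (by
      rwa [show y * (e * b * e) * y = y * e * b * (y * e) by simp only [mul_assoc, c.symm]])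
    have e2 := h.s2 he
    calc y * b * y * (e * b * e) = y * (b * (y * (e * b * e) * y)) * y := by apply W; simp only [mul_assoc, r2 y2]
      _ = _ := by rw [this]; apply W; simp only [mul_assoc, r2 y2]
  have := h.comm_swap (h.cj _ hb _ h1) m (h.cj _ hb _ hy) (by
    have := ((s b hb).1 n).symm.cj a2
    rwa [show e1 * (e1 * e2) * e1 = e1 * e2 by rw [r2 a2, c]] at this) (f e1 h1 cy (k _ (Or.inl rfl))) (by
    rw [show e1 * e2 * (e1 * b * e1) * (e1 * e2) = e2 * b * e2 by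
      apply W; simp only [mul_assoc, rc c, r2 a2]]
    exact f e2 h2 c2 (k _ (Or.inr rfl)))
  refine h.nadj m hb ?_ ((s b hb).1 n)
  calc e1 * e2 * b = y * (e1 * e2 * (y * b * y)) * y := by apply W; simp only [mul_assoc, rc cy, rc c2, r2 y2]
    _ = _ := by rw [← this]; apply W; simp only [mul_assoc, rc cy.symm, rc c2.symm, r2 y2]

/-- Lemma T -/
theorem lemT [Finite G] (cl : Cls D) (h1 : e1 ∈ D) (h2 : e2 ∈ D) (s : SA D e1 e2) (ne : e1 ≠ e2) (hv : v ∈ D)
    (n : Adj e1 v) (z2 : z * z = 1) (c1 : e1 * z = z * e1) (c2 : e2 * z = z * e2) (cv : v * z = z * v)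
    (ht : z * (e1 * e2) ∈ D) : SA D (z * (e1 * e2)) e1 := by
  have c := h.sa_cm h1 h2 s
  have a2 := h.s2 h1
  have b2 := h.s2 h2
  obtain ⟨s1, hs1, m1, f1⟩ := h.sw_in (K := centralizer {z}) h1 hv n.2 (mc1.2 c1) (mc1.2 cv)
  obtain ⟨s2, hs2, m2, f2⟩ := h.sw_in (K := centralizer {z}) hv h2 ((s v hv).1 n).symm.2 (mc1.2 cv) (mc1.2 c2)
  have hk : s2 * s1 ∈ closure D := mul_mem (subset_closure hs2) (subset_closure hs1)
  have kz := mc1.1 (mul_mem m2 m1)
  have f : s2 * s1 * e1 * (s2 * s1)⁻¹ = e2 := by rw [← f2, ← f1]; group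
  have h3 := h.cjc hk h2
  have s3 : SA D e2 _ := f ▸ h.SA_conj hk s
  have ft : s2 * s1 * (z * (e1 * e2)) * (s2 * s1)⁻¹ = z * (e2 * (s2 * s1 * e2 * (s2 * s1)⁻¹)) := by
    nth_rewrite 2 [← f]; rw [conj_mul, ← mul_assoc, kz]; simp only [mul_assoc]
  have ht' := h.cjc hk ht
  rw [ft] at ht'
  have c3 : s2 * s1 * e2 * (s2 * s1)⁻¹ * z = z * (s2 * s1 * e2 * (s2 * s1)⁻¹) :=
    mc1.1 (mul_mem (mul_mem (mul_mem m2 m1) (mc1.2 c2)) (inv_mem (mul_mem m2 m1)))
  have ne3 : e1 ≠ s2 * s1 * e2 * (s2 * s1)⁻¹ := fun e => by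
    rw [← e, c, mul_inv_eq_iff_eq_mul] at ft
    have ts : z * (e1 * e2) * s1 = s1 * (z * (e1 * e2)) := by
      by_cases j : Adj s2 s1
      · refine h.claim1 hs1 ht j.2 (j.npow (h.s2 hs2) (k := 0) ∘ by simp) ?_ ft.symm
        rw [_root_.mul_inv_rev, iv (h.s2 hs1), iv (h.s2 hs2), mul_assoc]
      · have cs := h.cm _ hs2 _ hs1 j
        refine (h.N2 hs1 hs2 cs.symm (fun e => ne ?_) ht (cs ▸ ft)).symm
        rw [← f, e, h.s2 hs2]; simp
    have := h.N2 h1 h2 c.symm ne hs1 (by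
      rw [← mul_right_inj z, ← mul_assoc, ts]; apply W; simp only [mul_assoc, rc (mc1.1 m1)])
    exact n.1 (by rw [← f1, ← this]; simp)
  generalize s2 * s1 * e2 * (s2 * s1)⁻¹ = e3 at *
  have c13 := h.sa_cm h1 h3 (s.trans s3)
  have c23 := h.sa_cm h2 h3 s3
  refine h.SA_of_le cl ht h1 fun x hx j => h.adj h1 hx fun k => ?_
  have k3 := h.sa_c h1 h3 (s.trans s3) hx k
  refine h.lemN (z := e1 * e3) ht hx ?_ (fun e => ne3 (by rw [← r2 a2 e3, e, mul_one])) ?_ ?_ ?_ j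
  · convert ht' using 1; apply W; simp only [mul_assoc, rc c, r2 a2]
  all_goals apply W
  · simp only [mul_assoc, rc c13, r2 a2, r2 (h.s2 h3), one_mul]
  · simp only [mul_assoc, rc c13, rc c23, rc c, rc c1, rc c3, r2 a2]
  · simp only [mul_assoc, rc k, rc k3]

/-- Lemma Z -/
theorem lemZ [Finite G] (h1 : e1 ∈ D) (h2 : e2 ∈ D) (h3 : e3 ∈ D) (s2 : SA D e1 e2) (s3 : SA D e1 e3) (hv : v ∈ D)
    (n : Adj e1 v) (ez : z = e1 * (e2 * e3)) (cv : v * z = z * v) (hy : y ∈ D) : ¬ Adj y (z * y * z) := by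
  intro j
  have c12 := h.sa_cm h1 h2 s2
  have c13 := h.sa_cm h1 h3 s3
  have c23 := h.sa_cm h2 h3 (s2.symm.trans s3)
  have a2 := h.s2 h1
  have cz : ∀ x ∈ D, e1 * x = x * e1 → x * z = z * x := fun x hx k => by
    rw [ez]; apply W; simp only [mul_assoc, rc k, rc (h.sa_c h1 h2 s2 hx k), rc (h.sa_c h1 h3 s3 hx k)]
  have z2 : z * z = 1 := by
    rw [ez]; apply W
    simp only [mul_assoc, rc c12, rc c13, rc c23, r2 a2, r2 (h.s2 h2), r2 (h.s2 h3), one_mul]
  obtain ⟨t, ht, e, tz⟩ := h.swap_comm hy (ez ▸ mul_mem (subset_closure h1)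
    (mul_mem (subset_closure h2) (subset_closure h3))) z2 j
  have t2 := h.s2 ht
  have yt := h.swap_adj hy ht j e
  have cy : y * (t * z) = t * z * y := by
    rw [show t * z * y = t * (z * y * z) * z by apply W; simp only [mul_assoc, r2 z2], ← e]
    apply W; simp only [mul_assoc, r2 t2]
  have key : ∀ g ∈ closure D, g * z = z * g → g * e1 * g⁻¹ = t → False := fun g hg gz ge => by
    have e4 : t * z = g * e2 * g⁻¹ * (g * e3 * g⁻¹) := by
      rw [← ge, conj_mul, ← r2 a2 (e2 * e3), ← ez, ← mul_assoc g, mul_assoc _ z, mul_assoc _ _ z,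
        (Commute.inv_left gz).eq]
    have := h.N2 (h.cjc hg h2) (h.cjc hg h3) (by rw [conj_mul, conj_mul, c23]) (fun k => by
      have k' : e2 = e3 := by simpa using k
      rw [ez, k', h.s2 h3, mul_one] at cv
      exact h.nadj h1 hv cv.symm n) hy (by rw [← e4, cy])
    exact h.nadj hy ht (h.sa_c (h.cjc hg h2) ht (ge ▸ h.SA_conj hg s2).symm hy this).symm yt
  have m1 := mc1.2 (cz e1 h1 rfl)
  by_cases j1 : Adj e1 t
  · obtain ⟨r, hr, m, f⟩ := h.sw_in (K := centralizer {z}) h1 ht j1.2 m1 (mc1.2 tz)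
    exact key r (subset_closure hr) (mc1.1 m) f
  by_cases j2 : Adj v t
  · obtain ⟨r, hr, m, f⟩ := h.sw_in (K := centralizer {z}) h1 hv n.2 m1 (mc1.2 cv)
    obtain ⟨r', hr', m', f'⟩ := h.sw_in (K := centralizer {z}) hv ht j2.2 (mc1.2 cv) (mc1.2 tz)
    exact key (r' * r) (mul_mem (subset_closure hr') (subset_closure hr)) (mc1.1 (mul_mem m' m))
      (by rw [← f', ← f]; group)
  have k1 := h.cm _ h1 _ ht j1
  have k2 := h.cm _ hv _ ht j2
  have j3 : Adj e1 y := h.adj h1 hy fun k => j.1 (by rw [← cz y hy k, mul_assoc, z2, mul_one])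
  have h' := h.inter (centralizer {t * z})
  have mm : ∀ x ∈ D, x * t = t * x → x * z = z * x → x ∈ D ∩ (centralizer {t * z} : Subgroup G) :=
    fun x hx a b => ⟨hx, mc1.2 (by apply W; simp only [mul_assoc, rc a, rc b])⟩
  have n1 := mm e1 h1 k1 (mc1.1 m1)
  have ny : y ∈ D ∩ (centralizer {t * z} : Subgroup G) := ⟨hy, mc1.2 cy⟩
  have nt := mm t ht rfl tz
  obtain ⟨r, hr, -, f⟩ := h'.sw_in (K := ⊤) n1 ny j3.2 trivial trivial
  obtain ⟨r', hr', -, f'⟩ := h'.sw_in (K := ⊤) ny nt yt.2 trivial trivial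
  refine j2 ((h'.SA_of_le' (mul_mem (subset_closure hr') (subset_closure hr)) (u := t) (v := e1)
    (by rw [← f', ← f]; group) (fun x hx k => h.adj h1 hx.1 fun c => h.nadj ht hx.1 ?_ k) v
    (mm v hv k2 cv)).2 n).symm
  calc t * x = t * z * (z * x) := by apply W; simp only [mul_assoc, r2 z2]
    _ = _ := by rw [← cz x hx.1 c, ← mul_assoc, ← mc1.1 hx.2]; apply W; simp only [mul_assoc, r2 z2]

theorem bs_aux (gen : closure D = ⊤) (w2 : w * w = 1) (n : ∀ y ∈ D, ¬ Adj y (w * y * w)) (g : G) (ha : a ∈ D)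
    (hb : b ∈ D) (s : SA D a b) : Commute (w * (g * a * g⁻¹) * w) (g * b * g⁻¹) := by
  have t : ∀ g : G, g ∈ closure D := fun g => gen ▸ mem_top g
  have m := h.cjc (t w) (h.cjc (t g) ha)
  rw [iv w2] at m
  exact (h.sa_c (h.cjc (t g) ha) (h.cjc (t g) hb) (h.SA_conj (t g) s) m
    (h.cm _ (h.cjc (t g) ha) _ m (n _ (h.cjc (t g) ha)))).symm

/-- Theorem E -/
theorem thmE [Finite G] (gen : closure D = ⊤) (cl : Cls D) (O : pCore 2 G = ⊥) (h1 : e1 ∈ D) (h2 : e2 ∈ D)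
    (s : SA D e1 e2) (ne : e1 ≠ e2) : e1 * e2 ∈ D := by
  have c := h.sa_cm h1 h2 s
  have a2 := h.s2 h1
  have b2 := h.s2 h2
  have w2 : e1 * e2 * (e1 * e2) = 1 := by apply W; simp only [mul_assoc, rc c, r2 a2, r2 b2, one_mul]
  obtain ⟨v, hv, n⟩ : ∃ v ∈ D, Adj v (e1 * e2 * v * (e1 * e2)) := by
    by_contra k
    push Not at k
    have : e1 * e2 ∈ pCore 2 G := bs_of w2 fun g => by
      have f := fun {a b : G} => h.bs_aux (a := a) (b := b) gen w2 k g
      have := ((f h1 h1 (.refl _ _)).mul_right (f h1 h2 s)).mul_left ((f h2 h1 s.symm).mul_right (f h2 h2 (.refl _ _)))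
      generalize hw : e1 * e2 = w at *
      rwa [conj_mul, hw, show w * (g * e1 * g⁻¹) * w * (w * (g * e2 * g⁻¹) * w) = w * (g * w * g⁻¹) * w by
        nth_rewrite 6 [← hw]; rw [← conj_mul]; apply W; simp only [mul_assoc, r2 w2]] at this
    rw [O, mem_bot] at this
    exact ne (by rw [← r2 a2 e2, this, mul_one])
  obtain ⟨-, t, ht, c1, c2, cv, -⟩ := h.nonexc h1 h2 c.symm hv n
  have t2 := h.s2 ht
  have j : Adj e1 v := h.adj h1 hv fun k => n.1 (by
    have k2 := h.sa_c h1 h2 s hv k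
    apply W; simp only [mul_assoc, rc k, rc k2, rc c, r2 a2, r2 b2])
  have et : t * (e1 * e2) * (e1 * e2) = t := by rw [mul_assoc, w2, mul_one]
  have z2 : t * (e1 * e2) * (t * (e1 * e2)) = 1 := by
    apply W; simp only [mul_assoc, rc c, rc c1.symm, rc c2.symm, r2 a2, r2 b2, r2 t2, one_mul]
  have st := h.lemT cl h1 h2 s ne hv j z2 (by apply W; simp only [mul_assoc, rc c, rc c1.symm])
    (by apply W; simp only [mul_assoc, rc c, rc c2.symm]) cv.symm (by rwa [et])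
  rw [et] at st
  have k := fun y hy => h.lemZ (y := y) ht h1 h2 st (st.trans s) hv ((st v hv).2 j) rfl cv.symm hy
  have : t * (e1 * e2) ∈ pCore 2 G := bs_of z2 fun g => by
    have f := fun {a b : G} => h.bs_aux (a := a) (b := b) gen z2 k g
    have f' := fun {a : G} (ha : a ∈ D) (sa : SA D a t) =>
      (f ha ht sa).mul_right ((f ha h1 (sa.trans st)).mul_right (f ha h2 (sa.trans (st.trans s))))
    have := (f' ht (.refl _ _)).mul_left ((f' h1 st.symm).mul_left (f' h2 (st.trans s).symm))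
    generalize hw : t * (e1 * e2) = w at *
    rwa [conj_mul, conj_mul, hw, show w * (g * t * g⁻¹) * w * (w * (g * e1 * g⁻¹) * w * (w * (g * e2 * g⁻¹) * w)) =
      w * (g * w * g⁻¹) * w by
        nth_rewrite 8 [← hw]; rw [← conj_mul, ← conj_mul]; apply W; simp only [mul_assoc, r2 z2]] at this
  rw [O, mem_bot] at this
  rwa [← r2 t2 (e1 * e2), this, mul_one]

end OT

end Cfsg.Agent.H3.Rt
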