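import Cfsg.Agent.H3.RI5
import Cfsg.Agent.H3.RI7
import Cfsg.Agent.S0102
import Cfsg.Agent.H13.SzPart
import Cfsg.Agent.H13.SzModels
import Cfsg.Agent.H10.SL2b
import Cfsg.Agent.H10.SmallId

/-! Root involutions, part 8: the group generated by `E_d` and an odd partner. -/

set_option autoImplicit false
set_option linter.unusedSectionVars false
set_option linter.unusedVariables false

namespace Cfsg.Agent.H3.Rt
open Subgroup

universe u

section map
variable {G H : Type*} [Group G] [Group H] (φ : G →* H)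

theorem Adj.map (hk : IsPGroup 2 φ.ker) {a b : G} (a2 : a * a = 1) (n : Adj a b) : Adj (φ a) (φ b) :=
  ⟨fun e => not_adj_of_mem hk a2 (k := 0) (by
      rw [pow_zero, pow_one, MonoidHom.mem_ker, map_mul, ← e, ← map_mul, a2, map_one]) n,
    by rw [← map_mul]; exact n.2.of_dvd_nat (orderOf_map_dvd φ _)⟩

theorem OT.adj_map {D : Set G} (h : OT D) (hk : IsPGroup 2 φ.ker) {a b : G} (ha : a ∈ D) (hb : b ∈ D) :
    Adj (φ a) (φ b) ↔ Adj a b :=
  ⟨fun n => h.adj ha hb fun c => n.nc (by rw [← map_mul, h.s2 ha, map_one]) (by rw [← map_mul, h.s2 hb, map_one])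
    (by rw [← map_mul, c, map_mul]), Adj.map φ hk (h.s2 ha)⟩

theorem OT.map {D : Set G} (h : OT D) (hk : IsPGroup 2 φ.ker) (nb : ∀ t ∈ D, ∃ u ∈ D, Adj t u) : OT (φ '' D) := by
  haveI : Fact (Nat.Prime 2) := ⟨Nat.prime_two⟩
  have cm : ∀ a ∈ φ '' D, ∀ b ∈ φ '' D, ¬ Adj a b → a * b = b * a := by
    rintro _ ⟨a, ha, rfl⟩ _ ⟨b, hb, rfl⟩ n
    rw [← map_mul, h.cm a ha b hb fun k => n (k.map φ hk (h.s2 ha)), map_mul]
  refine ⟨⟨?_, ?_, fun a ha b hb => ?_⟩, cm⟩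
  · rintro _ ⟨a, ha, rfl⟩
    refine orderOf_eq_prime (by rw [pow_two, ← map_mul, h.s2 ha, map_one]) fun e => ?_
    obtain ⟨u, hu, n⟩ := nb a ha
    have := n.map φ hk (h.s2 ha)
    rw [e] at this
    exact this.nc (by simp) (by rw [← map_mul, h.s2 hu, map_one]) (by simp)
  · rintro _ ⟨a, ha, rfl⟩ _ ⟨b, hb, rfl⟩
    exact ⟨_, h.cj a ha b hb, by simp⟩
  · by_cases n : Adj a b
    · exact Or.inr (Or.inl n.2)
    · exact Or.inl (cm a ha b hb n)

theorem SA.map {D : Set G} (h : OT D) (hk : IsPGroup 2 φ.ker) {a b : G} (ha : a ∈ D) (hb : b ∈ D) (s : SA D a b) :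
    SA (φ '' D) (φ a) (φ b) := by
  rintro _ ⟨x, hx, rfl⟩
  rw [h.adj_map φ hk ha hx, h.adj_map φ hk hb hx]; exact s x hx

theorem Cls.map {D : Set G} (cl : Cls D) : Cls (φ '' D) := by
  rintro _ ⟨a, ha, rfl⟩ _ ⟨b, hb, rfl⟩
  obtain ⟨g, hg, e⟩ := cl a ha b hb
  exact ⟨φ g, by rw [← MonoidHom.map_closure]; exact mem_map_of_mem _ hg, by simp [← e]⟩

theorem adj_coe {X : Subgroup G} {a b : X} : Adj (a : G) b ↔ Adj a b := by
  unfold Adj; rw [← coe_mul, orderOf_coe, Subtype.coe_ne_coe]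

theorem OT.coe {D : Set G} (h : OT D) (X : Subgroup G) : OT {x : X | (x : G) ∈ D} :=
  ⟨⟨fun d hd => by rw [← orderOf_coe]; exact h.ord _ hd, fun d hd e he => h.cj _ hd _ he, fun a ha b hb => by
    by_cases n : Adj a b
    · exact Or.inr (Or.inl n.2)
    · exact Or.inl (Subtype.ext (h.cm _ ha _ hb (mt adj_coe.1 n)))⟩,
    fun a ha b hb n => Subtype.ext (h.cm _ ha _ hb (mt adj_coe.1 n))⟩

/-- the class of `x` -/
def cls (x : G) : Set G := {t | ∃ g : G, g * x * g⁻¹ = t}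

theorem cls_self (x : G) : x ∈ cls x := ⟨1, by simp⟩

theorem cls_cj {x t : G} (m : t ∈ cls x) (g : G) : g * t * g⁻¹ ∈ cls x := by
  obtain ⟨k, rfl⟩ := m; exact ⟨g * k, by group⟩

theorem cls_cls {x : G} (gen : closure (cls x) = ⊤) : Cls (cls x) := by
  rintro _ ⟨g, rfl⟩ _ ⟨k, rfl⟩
  exact ⟨k * g⁻¹, gen ▸ mem_top _, by group⟩

theorem OT.pack {D : Set G} (h : OT D) {d x : G} (hd : d ∈ D) (hx : x ∈ D) (n : Adj d x) {E : Set G}
    (hE : ∀ e ∈ E, e ∈ D ∧ SA D d e) {X : Subgroup G} (hX : X = closure (E ∪ {x})) (mx : x ∈ X) :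
    OT (cls (⟨x, mx⟩ : X)) ∧ closure (cls (⟨x, mx⟩ : X)) = ⊤ ∧ (∀ t ∈ cls (⟨x, mx⟩ : X), (t : G) ∈ D) ∧
      (∀ e : X, (e : G) ∈ E → e ∈ cls (⟨x, mx⟩ : X)) ∧ closure ({e : X | (e : G) ∈ E} ∪ {⟨x, mx⟩}) = ⊤ := by
  have le : X ≤ closure D := hX ▸ closure_mono (by rintro _ (m | rfl); exacts [(hE _ m).1, hx])
  have h1 : ∀ t ∈ cls (⟨x, mx⟩ : X), (t : G) ∈ D := by rintro _ ⟨g, rfl⟩; exact h.cjc (le g.2) hx
  have h2 : ∀ e : X, (e : G) ∈ E → e ∈ cls (⟨x, mx⟩ : X) := fun e he => by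
    obtain ⟨s, -, m, f⟩ := h.sw_in (K := X) hx (hE _ he).1 (((hE _ he).2 x hx).1 n).symm.2 mx e.2
    exact ⟨⟨s, m⟩, Subtype.ext f⟩
  have h3 : closure ({e : X | (e : G) ∈ E} ∪ {⟨x, mx⟩}) = ⊤ := by
    subst hX
    rw [eq_top_iff, ← closure_closure_coe_preimage]
    refine closure_mono ?_
    rintro y (m | m)
    exacts [Or.inl m, Or.inr (Subtype.ext m)]
  refine ⟨(h.coe X).sub h1 fun s hs t ht => ?_, ?_, h1, h2, h3⟩
  · have := cls_cj hs t; rwa [iv ((h.coe X).s2 (h1 t ht))] at this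
  · rw [eq_top_iff, ← h3]
    refine closure_mono ?_
    rintro y (m | rfl)
    exacts [h2 y m, cls_self _]

end map

variable {G : Type u} [Group G] [Finite G] {D : Set G}

theorem OT.ri (h : OT D) (gen : closure D = ⊤) : IsRootInvolutionSet D :=
  ⟨h.ord, gen, fun d hd g => h.cjc (gen ▸ mem_top g) hd, h.pair⟩

theorem cen_one (O : pCore 2 G = ⊥) {z : G} (z2 : z * z = 1) (c : ∀ g, g * z = z * g) : z = 1 := by
  have := bs_of z2 fun g => by
    rw [c g, mul_inv_cancel_right]; exact ((Commute.refl z).mul_left (.refl z)).mul_left (.refl z)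
  rwa [O, mem_bot] at this

theorem cen_of_gen {H : Type*} [Group H] {S : Set H} (gen : closure S = ⊤) {z : H} (c : ∀ s ∈ S, s * z = z * s)
    (g : H) : g * z = z * g :=
  mc1.1 ((show closure S ≤ centralizer {z} from (closure_le _).2 fun s hs => mc1.2 (c s hs)) (gen ▸ mem_top g))

/-- the hypotheses of the reduced situation -/
structure Red (D E : Set G) (d x : G) : Prop where
  h : OT D
  gen : closure D = ⊤
  cl : Cls D
  O : pCore 2 G = ⊥
  hd : d ∈ D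
  hx : x ∈ D
  n : Adj d x
  hE : ∀ e ∈ E, e ∈ D ∧ SA D d e
  g2 : closure (E ∪ {x}) = ⊤

namespace Red
variable {E : Set G} {d x e y : G} (R : Red D E d x)
include R

theorem dih (k : ∀ e ∈ E, e = d) : Nonempty (G ≃* DihedralGroup (orderOf (d * x))) := by
  have d2 := R.h.s2 R.hd
  obtain ⟨f⟩ := H10.nonempty_closure_equiv_dihedral (c := d * x) d2
    (by rw [_root_.mul_inv_rev, iv d2, iv (R.h.s2 R.hx), r2 d2])
    fun m => R.h.ne1 R.hd (odd_sq (R.n.2.of_dvd_nat (orderOf_dvd_of_mem_zpowers m)) d2)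
  have : closure {d * x, d} = ⊤ := by
    rw [eq_top_iff, ← R.g2, closure_le]
    have m : d ∈ closure {d * x, d} := subset_closure (by simp)
    rintro y (m' | rfl)
    · rw [k y m']; exact m
    · have := mul_mem m (subset_closure (by simp) : d * y ∈ closure {d * y, d})
      rwa [r2 d2] at this
  exact ⟨(topEquiv.symm.trans (MulEquiv.subgroupCongr this.symm)).trans f⟩

theorem mulD (he : e ∈ E) (ne : d ≠ e) : d * e ∈ D := R.h.thmE R.gen R.cl R.O R.hd (R.hE e he).1 (R.hE e he).2 ne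

theorem dd (he : e ∈ E) (ne : d ≠ e) : DD D :=
  ⟨d, R.hd, e, (R.hE e he).1, (R.h.sa_cm R.hd (R.hE e he).1 (R.hE e he).2).symm, R.mulD he ne⟩

theorem loc (he : e ∈ E) (ne : d ≠ e) (hy : y ∈ D) (c : y * d = d * y) : SA D d y := by
  have h := R.h
  have cE : ∀ u ∈ D, u * d = d * u → ∀ s ∈ E, s * u = u * s := fun u hu c s hs =>
    h.sa_c R.hd (R.hE s hs).1 (R.hE s hs).2 hu c.symm
  obtain ⟨f, hf, n⟩ := h.lemF R.hd (R.hE e he).1 (h.sa_cm R.hd (R.hE e he).1 (R.hE e he).2).symm (R.mulD he ne)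
    hy c R.hx R.n
  obtain ⟨fD, s⟩ : f ∈ D ∧ SA D d f := by rcases hf with rfl | rfl; exacts [⟨R.hd, .refl _ _⟩, R.hE _ he]
  have cf := (h.sa_c R.hd fD s hy c.symm).symm
  obtain ⟨-, t, ht, c1, c2, c3, -⟩ := h.nonexc hy fD cf R.hx n
  have := cen_one R.O (z := t * (y * f)) (by
    apply W; simp only [mul_assoc, rc c1.symm, rc c2.symm, rc cf.symm, r2 (h.s2 ht), r2 (h.s2 hy), r2 (h.s2 fD), one_mul])
    (cen_of_gen R.g2 (by
      rintro u (m | rfl)
      · apply W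
        simp only [mul_assoc, rc (cE t ht (h.sa_c fD R.hd s.symm ht c2.symm).symm u m), rc (cE y hy c u m),
          rc (cE f fD (h.sa_cm R.hd fD s) u m)]
      · exact c3.symm))
  exact s.trans (h.dd_sa' hy fD cf (by rwa [← r2 (h.s2 ht) (y * f), this, mul_one])).symm

theorem sa_of_cr (he : e ∈ E) (ne : d ≠ e) (r : CR D d y) : SA D d y := by
  induction r with
  | refl => exact .refl _ _
  | tail _ n ih => exact R.loc he ne n.2.1 (R.h.sa_c n.1 R.hd ih.symm n.2.1 n.2.2.2).symm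

theorem ncr (he : e ∈ E) (ne : d ≠ e) : ¬ CR D d x := fun r => ((R.sa_of_cr he ne r x R.hx).1 R.n).1 rfl

theorem disc (he : e ∈ E) (ne : d ≠ e) : ¬ IsConnectedSet (CommAdj D) D := fun k => R.ncr he ne (k d R.hd x R.hx)

theorem exR3 (he : e ∈ E) (ne : d ≠ e) :
    ∃ S : BS.R3 (G ⧸ twoZCore G) ((G ⧸ twoZCore G) ⧸ (R.h.St d).map (QuotientGroup.mk' (twoZCore G))),
      S.H = (R.h.St d).map (QuotientGroup.mk' (twoZCore G)) ∧ S.t = x ∧ IsPGroup 2 S.Q ∧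
        (BS.TypeL S.toR1 ∨ BS.TypeS S.toR1) := by
  have hD := R.h.ri R.gen
  have n := R.disc he ne
  obtain ⟨S, eS⟩ := disc_R3 hD (R.dd he ne) n R.hd
  haveI := disc_simple hD (R.dd he ne) n
  let S' : BS.R3 (G ⧸ twoZCore G) ((G ⧸ twoZCore G) ⧸ (R.h.St d).map (QuotientGroup.mk' (twoZCore G))) :=
    ⟨S.setT x (disc_ord hD n R.hx).2 fun k =>
      R.ncr he ne (R.h.F0 R.hx R.hd ((disc_mem hD R.hd).1 (eS.le k))), S.faith, S.r2⟩
  refine ⟨S', eS, rfl, S'.known.1, ?_⟩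
  rcases S'.known.2 with k | k | k
  exacts [Or.inl k, Or.inr k, (k.W_ne (eq_bot_iff.2 fun w hw => by
    have c : w ∈ center _ := mem_center_iff.2 (cen_of_gen (S := (QuotientGroup.mk' (twoZCore G)) '' (E ∪ {x}))
      (by rw [← MonoidHom.map_closure, R.g2]; exact map_top_of_surjective _ (QuotientGroup.mk'_surjective _)) (by
        rintro _ ⟨u, m | rfl, rfl⟩
        · exact (S'.mem_W_iff hw.1.1).1 hw _ ⟨eS.ge ((disc_mem hD R.hd).2 (R.h.St_self (R.hE u m).1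
            (ca R.hd (R.hE u m).1 (R.h.sa_cm R.hd (R.hE u m).1 (R.hE u m).2).symm))), disc_ord hD n (R.hE u m).1⟩
        · exact (mc1.1 hw.1.2).symm))
    rcases (inferInstance : (center (G ⧸ twoZCore G)).Normal).eq_bot_or_eq_top with j | j
    · exact j ▸ c
    · exact absurd (comm_of_quot hD (disc_nZ hD n) R.hd R.hx (mem_center_iff.1 (j ▸ mem_top _) _))
        (R.n.nc (R.h.s2 R.hd) (R.h.s2 R.hx)))).elim]

theorem twoZ_bot (he : e ∈ E) (ne : d ≠ e) : twoZCore G = ⊥ := by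
  have hD := R.h.ri R.gen
  have c : ∀ z ∈ twoZCore G, ∀ g, g * z = z * g := fun z hz g => by
    have := twoZ_comm hz g
    rwa [R.O, mem_bot, mul_inv_eq_one, mul_inv_eq_iff_eq_mul] at this
  by_contra k
  obtain ⟨p, hp, dv⟩ := Nat.exists_prime_and_dvd (mt card_eq_one.1 k)
  haveI := Fact.mk hp
  by_cases p2 : p = 2
  · subst p2
    obtain ⟨z, hz⟩ := exists_prime_orderOf_dvd_card' 2 dv
    rw [← orderOf_coe] at hz
    rw [cen_one R.O (sq_of_ord hz) (c _ z.2), orderOf_one] at hz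
    omega
  have pf := perfect hD R.cl (R.dd he ne)
  refine S0102.result (G := G ⧸ twoZCore G) (p := p) ?_ (fun P => ?_) (QuotientGroup.mk' (twoZCore G))
    (QuotientGroup.mk'_surjective _) (fun z hz => mem_center_iff.2 (c z (by rwa [QuotientGroup.ker_mk'] at hz))) pf
    (by rwa [QuotientGroup.ker_mk'])
  · have t := map_top_of_surjective _ (QuotientGroup.mk'_surjective (twoZCore G))
    rw [_root_.commutator_def, ← t, ← map_commutator, ← _root_.commutator_def, pf]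
  · obtain ⟨S, -, -, -, k | k⟩ := R.exR3 he ne
    · obtain ⟨F, _, _, hF, ⟨f⟩⟩ := k.iso
      obtain ⟨n, hn, hq⟩ := S.exists_q
      obtain ⟨f'⟩ := BS.psl_equiv_sl (n := n) (by omega) (hF.trans hq)
      haveI : Fact (Nat.Prime 2) := ⟨Nat.prime_two⟩
      haveI := charP_of_card_eq_prime_pow (hF.trans hq)
      exact @isCyclic_of_surjective _ _ _ _ _
        (H10.sl2_isCyclic_of_isPGroup (p := 2) p2 p2 (P.isPGroup'.map (f.trans f').toMonoidHom)) _ _ _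
        ((f.trans f').subgroupMap (P : Subgroup _)).symm.surjective
    · obtain ⟨F, _, ⟨T⟩⟩ := H13.exists_szData_of_isoSuzuki k.iso
      exact T.isCyclic_of_isPGroup p2 P.isPGroup'

theorem main (dE : d ∈ E) : (∃ (F : Type) (_ : Field F) (_ : Fintype F), CharP F 2 ∧ 4 ≤ Fintype.card F ∧
      Nonempty (G ≃* Matrix.ProjectiveSpecialLinearGroup (Fin 2) F)) ∨ Lie.IsoSuzuki G ∨
      ∃ n : ℕ, Nonempty (G ≃* DihedralGroup n) := by
  by_cases k : ∀ e ∈ E, e = d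
  · exact Or.inr (Or.inr ⟨_, R.dih k⟩)
  push Not at k
  obtain ⟨e, he, ne⟩ := k
  let i : G ≃* G ⧸ twoZCore G :=
    ((QuotientGroup.quotientMulEquivOfEq (R.twoZ_bot he ne.symm)).trans QuotientGroup.quotientBot).symm
  obtain ⟨S, -, -, -, k | k⟩ := R.exR3 he ne.symm
  · obtain ⟨F, _, _, hF, ⟨f⟩⟩ := k.iso
    obtain ⟨n, hn, hq⟩ := S.exists_q
    haveI : Fact (Nat.Prime 2) := ⟨Nat.prime_two⟩
    refine Or.inl ⟨F, _, inferInstance, charP_of_card_eq_prime_pow (hF.trans hq), ?_, ⟨i.trans f⟩⟩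
    rw [hF, hq]; exact Nat.pow_le_pow_right two_pos hn
  · obtain ⟨F, _, _, m, h1, h2, ⟨f⟩⟩ := k.iso
    exact Or.inr (Or.inl ⟨F, _, _, m, h1, h2, ⟨i.trans f⟩⟩)

end Red

theorem OT.red (h : OT D) {d x : G} (hd : d ∈ D) (hx : x ∈ D) (n : Adj d x) {E : Set G}
    (hE : ∀ e ∈ E, e ∈ D ∧ SA D d e) (dE : d ∈ E) {X : Subgroup G} (hX : X = closure (E ∪ {x})) (mx : x ∈ X)
    (md : d ∈ X) : Red (QuotientGroup.mk' (pCore 2 X) '' cls ⟨x, mx⟩)
      (QuotientGroup.mk' (pCore 2 X) '' {e : X | (e : G) ∈ E})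
      (QuotientGroup.mk' (pCore 2 X) ⟨d, md⟩) (QuotientGroup.mk' (pCore 2 X) ⟨x, mx⟩) := by
  obtain ⟨h1, h2, h3, h4, h5⟩ := h.pack hd hx n hE hX mx
  haveI : Fact (Nat.Prime 2) := ⟨Nat.prime_two⟩
  have hk : IsPGroup 2 (QuotientGroup.mk' (pCore 2 X)).ker := by rw [QuotientGroup.ker_mk']; exact H2.pCore_isPGroup
  have t := map_top_of_surjective _ (QuotientGroup.mk'_surjective (pCore 2 X))
  have n' : Adj (⟨d, md⟩ : X) ⟨x, mx⟩ := adj_coe.1 n
  have m := h4 ⟨d, md⟩ dE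
  refine ⟨h1.map _ hk ?_, by rw [← MonoidHom.map_closure, h2, t], (cls_cls h2).map _, H2.pCore_quotient_self,
    ⟨_, m, rfl⟩, ⟨_, cls_self _, rfl⟩, n'.map _ hk (h1.s2 m), ?_, by
      rw [← Set.image_singleton, ← Set.image_union, ← MonoidHom.map_closure, h5, t]⟩
  · rintro _ ⟨g, rfl⟩
    exact ⟨_, cls_cj m g, n'.symm.conj g⟩
  · rintro _ ⟨e, he, rfl⟩
    exact ⟨⟨e, h4 e he, rfl⟩, SA.map _ h1 hk m (h4 e he) fun y hy => by
      rw [← adj_coe, ← adj_coe]; exact (hE _ he).2 _ (h3 y hy)⟩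

end Cfsg.Agent.H3.Rt
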