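import Cfsg.Agent.H3.Ex1
import Cfsg.Agent.H10.SpTv
import Cfsg.Agent.H10.SL

/-! Linear and symplectic transvections as root elements. -/

set_option autoImplicit false
set_option linter.unusedSectionVars false
set_option linter.unusedSimpArgs false

namespace Cfsg.Agent.H3.Ex

open Cfsg.Agent.H19 Cfsg.Agent.H3.Dk Cfsg.Agent.H3.Qd Cfsg.Agent.H10 Matrix
open scoped MatrixGroups commutatorElement

section Gen

variable {k A Γ : Type*} [Field k] [Ring A] [Algebra k A] [Group Γ] {ρ : Γ →* Aˣ} {𝒜 : Set A}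
  {α β : A} {g : Γ}

theorem Sys.nondeg (h : Sys k ρ 𝒜) (gen : (⨆ B ∈ RG k ρ '' 𝒜, B) = ⊤)
    (h1 : ∃ α ∈ 𝒜, ∃ β ∈ 𝒜, Op k α β) (h2 : ∃ α ∈ 𝒜, ∃ β ∈ 𝒜, Nl k 𝒜 α β) :
    IsNondegenerateRootSet (RG k ρ '' 𝒜) := by
  obtain ⟨α, ha, β, hb, o⟩ := h1
  obtain ⟨γ, hc, δ, hd, n⟩ := h2
  have c := h.cc hc hd n
  exact ⟨⟨_, c.mem, _, ⟨γ, hc, rfl⟩, Root.cc_ne (h.rootSet gen) ⟨γ, hc, rfl⟩ c, comm_iff.1 c.commA⟩,
    ⟨_, ⟨α, ha, rfl⟩, _, ⟨β, hb, rfl⟩, h.ro ha hb o⟩, _, ⟨γ, hc, rfl⟩, _, ⟨δ, hd, rfl⟩, cc_iff.2 c⟩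

theorem Sys.conn2 (h : Sys k ρ 𝒜) (hc : ∀ α ∈ 𝒜, ∀ β ∈ 𝒜, (∃ c : k, c ≠ 0 ∧ α = c • β) ∨ Op k α β ∨
    ∃ γ ∈ 𝒜, Op k α γ ∧ Op k γ β) : IsConnectedFamily (FAdj (RG k ρ '' 𝒜)) (RG k ρ '' 𝒜) := by
  rintro _ ⟨α, ha, rfl⟩ _ ⟨β, hb, rfl⟩
  rcases hc α ha β hb with ⟨c, h0, rfl⟩ | o | ⟨γ, hg, o1, o2⟩
  · rw [RG_smul h0]
  · exact .single (h.adj ha hb o)
  · exact .tail (.single (h.adj ha hg o1)) (h.adj hg hb o2)

variable (k ρ) in
/-- the root elements -/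
def RE (𝒜 : Set A) : Set Γ := {g | ∃ α ∈ 𝒜, ∃ c : k, c ≠ 0 ∧ (ρ g : A) = 1 + c • α}

theorem dihedral_central {a b : Γ} (ha : a * a = 1) (hb : b * b = 1) {m : ℕ}
    (e : (a * b) ^ m * (a * b) ^ m = 1) :
    a * (a * b) ^ m = (a * b) ^ m * a ∧ b * (a * b) ^ m = (a * b) ^ m * b := by
  have ia : a⁻¹ = a := inv_eq_of_mul_eq_one_left ha
  have ib : b⁻¹ = b := inv_eq_of_mul_eq_one_left hb
  have e1 : (b * a) ^ m = (a * b) ^ m := by
    rw [← ia, ← ib, ← _root_.mul_inv_rev, inv_pow, ia, ib]; exact inv_eq_of_mul_eq_one_left e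
  constructor
  · rw [← mul_inv_eq_iff_eq_mul, ← conj_pow, ← mul_assoc, ha, one_mul, ia, e1]
  · rw [← mul_inv_eq_iff_eq_mul, ← conj_pow, ← mul_assoc, mul_inv_cancel_right, e1]

theorem sl2_odd (h2 : (2 : k) = 0) {s t : k} (hs : s ≠ 0) (ht : t ≠ 0)
    (hf : orderOf (uu s * ll t) ≠ 0) : Odd (orderOf (uu s * ll t)) := by
  rw [← Nat.not_even_iff_odd]
  rintro ⟨m, e⟩
  have d : ∀ x : k, x + x = 0 := fun x => by linear_combination x * h2
  obtain ⟨e1, e2⟩ := dihedral_central (a := uu s) (b := ll t) (m := m)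
    (by rw [← uu_add, d, uu_zero]) (by rw [← ll_add, d, ll_zero])
    (by rw [← pow_add, ← e, pow_orderOf_eq_one])
  refine pow_ne_one_of_lt_orderOf (n := m) (by omega) (by omega) (x := uu s * ll t) ?_
  generalize (uu s * ll t) ^ m = z at e1 e2
  have a1 := congrArg (fun g : SL(2, k) => g.1 0 0) e1
  have a2 := congrArg (fun g : SL(2, k) => g.1 0 1) e1
  have a3 := congrArg (fun g : SL(2, k) => g.1 0 0) e2
  simp only [mul2, uu00, uu01, uu10, uu11, ll00, ll01, ll10, ll11] at a1 a2 a3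
  have b1 : z.1 1 0 = 0 := (mul_eq_zero.1 (by linear_combination a1)).resolve_left hs
  have b2 : z.1 0 1 = 0 := (mul_eq_zero.1 (by linear_combination -a3)).resolve_left ht
  have b3 : z.1 1 1 = z.1 0 0 := mul_left_cancel₀ hs (by linear_combination a2)
  have b4 := det2 z
  rw [b1, b3] at b4
  have b5 : z.1 0 0 = 1 := by
    have : (z.1 0 0 - 1) ^ 2 = 0 := by linear_combination b4 + (1 - z.1 0 0) * h2
    exact sub_eq_zero.1 (pow_eq_zero_iff two_ne_zero |>.1 this)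
  exact ext2 b5 b2 b1 (b3.trans b5)

theorem Sys.re_sq (h : Sys k ρ 𝒜) (h2 : (2 : k) = 0) (hg : g ∈ RE k ρ 𝒜) : g * g = 1 := by
  obtain ⟨α, ha, c, -, e⟩ := hg
  refine h.ext ?_
  simp only [map_mul, Units.val_mul, e, nc k A, h.sq α ha, map_one, Units.val_one]
  linear_combination (norm := module) (c * h2) • α

theorem Sys.re_cases (h : Sys k ρ 𝒜) (h2 : (2 : k) = 0) {a b : Γ} (ha : a ∈ RE k ρ 𝒜)
    (hb : b ∈ RE k ρ 𝒜) : a * b = b * a ∨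
      (∃ s t : k, s ≠ 0 ∧ t ≠ 0 ∧ orderOf (a * b) = orderOf (uu s * ll t)) ∨
      (orderOf (a * b) = 4 ∧ (a * b) ^ 2 ∈ RE k ρ 𝒜) := by
  have ia : a⁻¹ = a := inv_eq_of_mul_eq_one_left (h.re_sq h2 ha)
  have ib : b⁻¹ = b := inv_eq_of_mul_eq_one_left (h.re_sq h2 hb)
  obtain ⟨α, hα, s, s0, hs⟩ := ha
  obtain ⟨β, hβ, t, t0, ht⟩ := hb
  rcases h.pair α hα β hβ with e | o | ⟨e1, e2, c, c0, hc⟩
  · exact Or.inl (h.comm_of (h.sq α hα) (h.sq β hβ) e a (Subgroup.subset_closure ⟨_, hs⟩) b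
      (Subgroup.subset_closure ⟨_, ht⟩))
  · obtain ⟨c, c0, ψ, hψ, f1, f2⟩ := h.exists_SL2 hα hβ o
    refine Or.inr (Or.inl ⟨s, t * c, s0, mul_ne_zero t0 c0, ?_⟩)
    rw [h.ext (hs.trans (f1 s).symm), h.ext (ht.trans (f2 t).symm), ← map_mul, orderOf_injective ψ hψ]
  · have e : (a * b) ^ 2 = ⁅a, b⁆ := by rw [commutatorElement_def, ia, ib, pow_two, mul_assoc (a * b)]
    have v := comm_val (h.sq α hα) (h.sq β hβ) e1 e2 hs ht
    have v' : (ρ ((a * b) ^ 2) : A) = 1 + (s * t * c⁻¹) • c • (α * β - β * α) := by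
      rw [e, v, smul_smul, inv_mul_cancel_right₀ c0]
    have n0 : s * t * c⁻¹ ≠ 0 := mul_ne_zero (mul_ne_zero s0 t0) (inv_ne_zero c0)
    have m : (a * b) ^ 2 ∈ RE k ρ 𝒜 := ⟨_, hc, _, n0, v'⟩
    refine Or.inr (Or.inr ⟨?_, m⟩)
    refine orderOf_eq_prime_pow (p := 2) (n := 1) ((h.ne_one hc v').2 n0) ?_
    rw [show 2 ^ (1 + 1) = 2 + 2 from rfl, pow_add]; exact h.re_sq h2 m

theorem Sys.rootInv [Finite Γ] (h : Sys k ρ 𝒜) (h2 : (2 : k) = 0)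
    (gen : (⨆ B ∈ RG k ρ '' 𝒜, B) = ⊤) : IsRootInvolutionSet (RE k ρ 𝒜) := by
  refine ⟨fun d hd => ?_, ?_, ?_, fun a ha b hb => ?_⟩
  · refine orderOf_eq_prime (by rw [pow_two]; exact h.re_sq h2 hd) ?_
    obtain ⟨α, ha, c, c0, e⟩ := hd
    exact (h.ne_one ha e).2 c0
  · rw [eq_top_iff, ← gen]
    refine iSup₂_le ?_
    rintro _ ⟨α, ha, rfl⟩
    refine (Subgroup.closure_le _).2 fun g ⟨c, e⟩ => ?_
    by_cases c0 : c = 0
    · rw [show g = 1 from h.ext (by simp [e, c0])]; exact one_mem _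
    · exact Subgroup.subset_closure ⟨α, ha, c, c0, e⟩
  · rintro d ⟨α, ha, c, c0, e⟩ g
    refine ⟨_, h.conj α ha g, c, c0, ?_⟩
    simp only [map_mul, map_inv, Units.val_mul, e]
    simp [mul_add, add_mul]
  · refine (h.re_cases h2 ha hb).imp_right (Or.imp_left ?_)
    rintro ⟨s, t, s0, t0, e⟩
    rw [e]
    exact sl2_odd h2 s0 t0 (e ▸ (orderOf_pos _).ne')

theorem Sys.threeFour [Finite Γ] [Fintype k] (h : Sys k ρ 𝒜) (h2 : (2 : k) = 0)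
    (hk : Fintype.card k = 2) (gen : (⨆ B ∈ RG k ρ '' 𝒜, B) = ⊤) :
    IsThreeFourPlusTranspositionSet (RE k ρ 𝒜) := by
  refine ⟨h.rootInv h2 gen, fun a ha b hb o => ?_⟩
  have one : ∀ s : k, s ≠ 0 → s = 1 := fun s hs => by
    simpa [hk] using FiniteField.pow_card_sub_one_eq_one s hs
  rcases h.re_cases h2 ha hb with e | ⟨s, t, s0, t0, e⟩ | ⟨e, -⟩
  · have : orderOf (a * b) ∣ 2 := orderOf_dvd_of_pow_eq_one (by
      rw [Commute.mul_pow e, pow_two, pow_two, h.re_sq h2 ha, h.re_sq h2 hb, mul_one])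
    rcases (Nat.dvd_prime Nat.prime_two).1 this with e | e
    · exact Or.inl e
    · rw [e] at o; exact absurd o (by decide)
  · rw [e, one s s0, one t t0]
    refine (Nat.dvd_prime Nat.prime_three).1 (orderOf_dvd_of_pow_eq_one ?_)
    rw [pow_succ, pow_two]
    refine ext2 ?_ ?_ ?_ ?_ <;> simp only [mul2, uu00, uu01, uu10, uu11, ll00, ll01, ll10, ll11, one00,
      one01, one10, one11]
    · linear_combination 6 * h2
    · linear_combination 4 * h2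
    · linear_combination 4 * h2
    · linear_combination 2 * h2
  · rw [e] at o; exact absurd o (by decide)

end Gen

variable {ι : Type*} [Fintype ι] [DecidableEq ι] {F : Type*} [Field F]

theorem mext {M N : Matrix ι ι F} (h : ∀ x, M *ᵥ x = N *ᵥ x) : M = N :=
  Matrix.toLin'.injective (LinearMap.ext h)

theorem r1_mul (u φ w ψ : ι → F) : vecMulVec u φ * vecMulVec w ψ = (φ ⬝ᵥ w) • vecMulVec u ψ := by
  rw [vecMulVec_mul_vecMulVec, vecMulVec_smul]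

theorem r1_ne {u φ : ι → F} (hu : u ≠ 0) (hφ : φ ≠ 0) : vecMulVec u φ ≠ 0 := by
  rw [Ne, vecMulVec_eq_zero]; tauto

theorem r1_op {k : Type*} [Field k] [Algebra k F] {u φ w ψ : ι → F} {c : k} (hc : c ≠ 0)
    (e : (φ ⬝ᵥ w) * (ψ ⬝ᵥ u) = algebraMap k F c) : Op k (vecMulVec u φ) (vecMulVec w ψ) := by
  refine ⟨c, hc, ?_, ?_⟩ <;> rw [r1_mul, smul_mul_assoc, r1_mul, smul_smul, ← algebraMap_smul F c, ← e]
  rw [mul_comm]

variable (ι F) in
/-- the nilpotent parts of transvections -/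
def TvS : Set (Matrix ι ι F) := {α | ∃ u φ : ι → F, u ≠ 0 ∧ φ ≠ 0 ∧ φ ⬝ᵥ u = 0 ∧ α = vecMulVec u φ}

theorem toGL_inv_val (g : SpecialLinearGroup ι F) :
    (((SpecialLinearGroup.toGL g : GL ι F)⁻¹ : GL ι F) : Matrix ι ι F) = (g⁻¹).1 := by
  rw [← map_inv]; rfl

theorem r1_nl {u φ w ψ : ι → F} (hu : u ≠ 0) (hψ : ψ ≠ 0) (a : φ ⬝ᵥ w ≠ 0) (b : ψ ⬝ᵥ u = 0) :
    Nl F (TvS ι F) (vecMulVec u φ) (vecMulVec w ψ) :=
  ⟨by simp [r1_mul, b], by simp [r1_mul, b], _, inv_ne_zero a, u, ψ, hu, hψ, b,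
    by simp [r1_mul, b, smul_smul, a]⟩

theorem Nl.symm {k A : Type*} [Field k] [Ring A] [Algebra k A] {𝒜 : Set A} {α β : A}
    (h : Nl k 𝒜 α β) : Nl k 𝒜 β α :=
  let ⟨e1, e2, c, c0, m⟩ := h
  ⟨e2, e1, -c, neg_ne_zero.2 c0, by rwa [neg_smul, ← smul_neg, neg_sub]⟩

theorem sysSL : Sys F (SpecialLinearGroup.toGL : SpecialLinearGroup ι F →* GL ι F) (TvS ι F) := by
  refine ⟨SpecialLinearGroup.toGL_injective, ?_, ?_, ?_, ?_, ?_⟩
  · rintro _ ⟨u, φ, -, -, e, rfl⟩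
    rw [r1_mul, e, zero_smul]
  · rintro _ ⟨u, φ, hu, hφ, -, rfl⟩
    exact r1_ne hu hφ
  · rintro _ ⟨u, φ, -, -, e, rfl⟩ c
    exact ⟨trv u (c • φ) (by simp [e]), by rw [← vecMulVec_smul]; rfl⟩
  · rintro _ ⟨u, φ, hu, hφ, e, rfl⟩ g
    refine ⟨g.1 *ᵥ u, φ ᵥ* (g⁻¹).1, fun e => hu ?_, fun e => hφ ?_, ?_, ?_⟩
    · rw [← one_mulVec u, ← sl_inv_mul_val g, ← mulVec_mulVec, e, mulVec_zero]
    · rw [← vecMul_one φ, ← sl_inv_mul_val g, ← vecMul_vecMul, e, zero_vecMul]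
    · rw [vecMul_dot_mulVec _ _ (sl_inv_mul_val g), e]
    · rw [toGL_inv_val, mul_vecMulVec, vecMulVec_mul]; rfl
  · rintro _ ⟨u, φ, hu, hφ, e, rfl⟩ _ ⟨w, ψ, hw, hψ, e', rfl⟩
    by_cases a : φ ⬝ᵥ w = 0 <;> by_cases b : ψ ⬝ᵥ u = 0
    · exact Or.inl (by simp [r1_mul, a, b])
    · exact Or.inr (Or.inr (r1_nl hw hφ b a).symm)
    · exact Or.inr (Or.inr (r1_nl hu hψ a b))
    · exact Or.inr (Or.inl (r1_op (mul_ne_zero a b) rfl))

theorem single_ne (i : ι) : (Pi.single i 1 : ι → F) ≠ 0 := by simp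

theorem E_mem {i j : ι} (h : i ≠ j) : vecMulVec (Pi.single i 1) (Pi.single j 1) ∈ TvS ι F :=
  ⟨_, _, single_ne i, single_ne j, by simp [h.symm], rfl⟩

theorem transvection_eq (i j : ι) (c : F) :
    Matrix.transvection i j c = 1 + c • vecMulVec (Pi.single i 1) (Pi.single j 1) := by
  rw [Matrix.transvection, ← single_eq_single_vecMulVec_single, smul_single, smul_eq_mul, mul_one]

theorem genSL :
    (⨆ B ∈ RG F (SpecialLinearGroup.toGL : SpecialLinearGroup ι F →* GL ι F) '' TvS ι F, B) = ⊤ :=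
  SL_eq_top_of_transvection_mem _ fun i j hij a => by
    refine le_bsup (Set.mem_image_of_mem _ (E_mem hij)) (Subgroup.subset_closure ⟨a, ?_⟩)
    exact transvection_eq i j a

theorem transSL (h3 : 3 ≤ Fintype.card ι) {α β : Matrix ι ι F} (ha : α ∈ TvS ι F) (hb : β ∈ TvS ι F) :
    ∃ g : SpecialLinearGroup ι F, g.1 * α * (g⁻¹).1 = β := by
  obtain ⟨u, φ, hu, hφ, e, rfl⟩ := ha
  obtain ⟨w, ψ, hw, hψ, e', rfl⟩ := hb
  obtain ⟨g, hg⟩ := exists_conj_trv h3 (A := trv u φ e) (B := trv w ψ e') ⟨_, _, _, rfl⟩ ⟨_, _, _, rfl⟩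
    (by rw [Ne, trv_eq_one_iff]; tauto) (by rw [Ne, trv_eq_one_iff]; tauto)
  refine ⟨g, ?_⟩
  have := congrArg Subtype.val hg
  rw [slv_mul, slv_mul, trv_val, trv_val, mul_add, add_mul, mul_one, sl_mul_inv_val] at this
  exact add_left_cancel this

theorem smul_mem_TvS {α : Matrix ι ι F} (ha : α ∈ TvS ι F) {c : F} (hc : c ≠ 0) : c • α ∈ TvS ι F := by
  obtain ⟨u, φ, hu, hφ, e, rfl⟩ := ha
  exact ⟨u, c • φ, hu, smul_ne_zero hc hφ, by simp [e], (vecMulVec_smul _ _ _).symm⟩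

theorem setSL (h3 : 3 ≤ Fintype.card ι) {i j : ι} (hij : i ≠ j) :
    {A : Subgroup (SpecialLinearGroup ι F) | ∃ g : SpecialLinearGroup ι F,
      A = conjBy (Subgroup.closure {t : SpecialLinearGroup ι F |
        ∃ c : F, (t : Matrix ι ι F) = Matrix.transvection i j c}) g} =
      RG F SpecialLinearGroup.toGL '' TvS ι F := by
  have e : Subgroup.closure {t : SpecialLinearGroup ι F |
      ∃ c : F, (t : Matrix ι ι F) = Matrix.transvection i j c} =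
      RG F SpecialLinearGroup.toGL (vecMulVec (Pi.single i 1) (Pi.single j 1)) := by
    simp only [transvection_eq]; rfl
  rw [e]
  ext A
  constructor
  · rintro ⟨g, rfl⟩
    exact ⟨_, sysSL.conj _ (E_mem hij) g, (cj_RG (sysSL.sq _ (E_mem hij)) g).symm⟩
  · rintro ⟨α, ha, rfl⟩
    obtain ⟨g, rfl⟩ := transSL h3 (E_mem hij) ha
    exact ⟨g, by rw [conjBy_eq, cj_RG (sysSL.sq _ (E_mem hij)), toGL_inv_val]; rfl⟩

theorem opE {i j : ι} : Op F (vecMulVec (Pi.single i 1) (Pi.single j (1 : F)))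
    (vecMulVec (Pi.single j 1) (Pi.single i 1)) := r1_op one_ne_zero (by simp)

theorem mainSL (h3 : 3 ≤ Fintype.card ι) {i j : ι} (hij : i ≠ j) :
    let S := RG F (SpecialLinearGroup.toGL : SpecialLinearGroup ι F →* GL ι F) '' TvS ι F
    IsRootSubgroupClass S ∧ IsNondegenerateRootSet S ∧ IsKRootSubgroupSet F S ∧
      IsConnectedFamily (FAdj S) S := by
  intro S
  have hc : IsRootSubgroupClass S := by
    refine ⟨sysSL.rootSet genSL, ⟨_, _, E_mem hij, rfl⟩, ?_⟩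
    rintro _ ⟨α, ha, rfl⟩ _ ⟨β, hb, rfl⟩
    obtain ⟨g, rfl⟩ := transSL h3 ha hb
    exact ⟨g, by rw [conjBy_eq, cj_RG (sysSL.sq _ ha), toGL_inv_val]; rfl⟩
  obtain ⟨l, h1, h2⟩ := exists_third (i := i) (j := j) h3
  refine ⟨hc, sysSL.nondeg genSL ⟨_, E_mem hij, _, E_mem hij.symm, opE⟩
    ⟨_, E_mem hij, _, E_mem h2.symm, r1_nl (single_ne _) (single_ne _) (by simp) (by simp [h1])⟩,
    sysSL.kRootSet genSL, fun A hA B hB => Root.conn_of_class hc (Root.allNI_of_class hc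
      ⟨_, E_mem hij, rfl⟩ ⟨_, ⟨_, E_mem hij.symm, rfl⟩, sysSL.ro (E_mem hij) (E_mem hij.symm) opE⟩) hA hB⟩

theorem setSL' (h3 : 3 ≤ Fintype.card ι) {i j : ι} (hij : i ≠ j) :
    {t : SpecialLinearGroup ι F | ∃ c : F, c ≠ 0 ∧ ∃ g : SpecialLinearGroup ι F,
      ((g⁻¹ * t * g : SpecialLinearGroup ι F) : Matrix ι ι F) = Matrix.transvection i j c} =
      RE F SpecialLinearGroup.toGL (TvS ι F) := by
  ext t
  constructor
  · rintro ⟨c, c0, g, e⟩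
    refine ⟨_, sysSL.conj _ (E_mem hij) g, c, c0, ?_⟩
    have : t.1 = g.1 * (g⁻¹ * t * g).1 * (g⁻¹).1 := by
      rw [← slv_mul, ← slv_mul]; simp [mul_assoc]
    change t.1 = 1 + c • (g.1 * _ * _)
    rw [this, e, transvection_eq, toGL_inv_val, mul_add, add_mul, mul_one, sl_mul_inv_val,
      mul_smul_comm, smul_mul_assoc]
  · rintro ⟨α, ha, c, c0, e⟩
    obtain ⟨g, e'⟩ := transSL h3 ha (E_mem hij)
    refine ⟨c, c0, g⁻¹, ?_⟩
    rw [inv_inv, slv_mul, slv_mul, show t.1 = _ from e, transvection_eq, ← e', mul_add, add_mul, mul_one,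
      sl_mul_inv_val, mul_smul_comm, smul_mul_assoc]

theorem classSL [Finite F] (h2 : (2 : F) = 0) (h3 : 3 ≤ Fintype.card ι) {i j : ι} (hij : i ≠ j) :
    IsRootInvolutionClass (RE F (SpecialLinearGroup.toGL : SpecialLinearGroup ι F →* GL ι F)
      (TvS ι F)) := by
  refine ⟨sysSL.rootInv h2 genSL, ?_, ?_⟩
  · obtain ⟨g, e⟩ := sysSL.full _ (E_mem (F := F) hij) 1
    exact ⟨g, _, E_mem hij, 1, one_ne_zero, e⟩
  · rintro a ⟨α, ha, c, c0, e⟩ b ⟨β, hb, d, d0, e'⟩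
    obtain ⟨g, hg⟩ := transSL h3 (smul_mem_TvS ha c0) (smul_mem_TvS hb d0)
    refine ⟨g, slv_ext_iff.2 ?_⟩
    rw [slv_mul, slv_mul, show a.1 = _ from e, show b.1 = _ from e', ← hg, mul_add, add_mul, mul_one,
      sl_mul_inv_val]

section Sp

variable {l : Type*} [Fintype l] [DecidableEq l]

/-- the nilpotent parts of symplectic transvections -/
def SpS (l : Type*) [Fintype l] [DecidableEq l] (F : Type*) [Field F] :
    Set (Matrix (l ⊕ l) (l ⊕ l) F) := {α | ∃ p, p ≠ 0 ∧ α = vecMulVec p (J l F *ᵥ p)}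

/-- the natural representation -/
abbrev ρSp (l : Type*) [Fintype l] [DecidableEq l] (F : Type*) [Field F] :
    symplecticGroup l F →* (Matrix (l ⊕ l) (l ⊕ l) F)ˣ :=
  (symplecticGroup l F).subtype.toHomUnits

theorem J_dot (p r : l ⊕ l → F) : (J l F *ᵥ p) ⬝ᵥ r = spBilin l F r p := by
  rw [spBilin_apply, dotProduct_comm]

theorem sp_op {p r : l ⊕ l → F} (h : spBilin l F p r ≠ 0) :
    Op F (vecMulVec p (J l F *ᵥ p)) (vecMulVec r (J l F *ᵥ r)) := by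
  refine r1_op (c := spBilin l F r p * spBilin l F p r)
    (mul_ne_zero (fun e => h (spB_eq_zero_comm.1 e)) h) (by rw [J_dot, J_dot]; rfl)

theorem pairSp : ∀ α ∈ SpS l F, ∀ β ∈ SpS l F, α * β = β * α ∨ Op F α β := by
  rintro _ ⟨p, hp, rfl⟩ _ ⟨r, hr, rfl⟩
  by_cases h : spBilin l F p r = 0
  · exact Or.inl (by rw [r1_mul, r1_mul, J_dot, J_dot, h, spB_eq_zero_comm.1 h, zero_smul, zero_smul])
  · exact Or.inr (sp_op h)

theorem sysSp : Sys F (ρSp l F) (SpS l F) := by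
  refine ⟨fun a b e => Subtype.ext (congrArg Units.val e), ?_, ?_, ?_, ?_,
    fun α ha β hb => (pairSp α ha β hb).imp_right Or.inl⟩
  · rintro _ ⟨p, -, rfl⟩
    rw [r1_mul, J_dot, spB_self, zero_smul]
  · rintro _ ⟨p, hp, rfl⟩
    refine r1_ne hp fun e => ?_
    obtain ⟨x, hx⟩ := exists_spB_eq_one hp
    rw [← J_dot, e, zero_dotProduct] at hx
    exact zero_ne_one hx
  · rintro _ ⟨p, -, rfl⟩ c
    exact ⟨stv p c, stv_val p c⟩
  · rintro _ ⟨p, hp, rfl⟩ g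
    refine ⟨g.1 *ᵥ p, sp_mulVec_ne_zero g hp, mext fun x => ?_⟩
    change (g.1 * _ * (g⁻¹).1) *ᵥ x = _
    rw [← mulVec_mulVec, ← mulVec_mulVec, vecMulVec_mulVec', vecMulVec_mulVec', J_dot, J_dot,
      sp_form_inv, mulVec_smul]

theorem genSp (m : ℕ) : (⨆ B ∈ RG F (ρSp (Fin m) F) '' SpS (Fin m) F, B) = ⊤ :=
  sp_eq_top_of_stv_mem _ fun a c => by
    by_cases h : a = 0
    · rw [h, stv_zero_left]; exact one_mem _
    · exact le_bsup (S := RG F (ρSp (Fin m) F) '' SpS (Fin m) F) ⟨_, ⟨a, h, rfl⟩, rfl⟩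
        (Subgroup.subset_closure ⟨c, stv_val a c⟩)

theorem setSp : {A : Subgroup (symplecticGroup l F) | ∃ p : l ⊕ l → F, p ≠ 0 ∧
    A = Subgroup.closure {g : symplecticGroup l F | ∃ c : F, ∀ v : l ⊕ l → F,
      (g : Matrix (l ⊕ l) (l ⊕ l) F) *ᵥ v = v + (c * (v ⬝ᵥ (J l F *ᵥ p))) • p}} =
    RG F (ρSp l F) '' SpS l F := by
  have e : ∀ p : l ⊕ l → F, Subgroup.closure {g : symplecticGroup l F | ∃ c : F, ∀ v : l ⊕ l → F,
      (g : Matrix (l ⊕ l) (l ⊕ l) F) *ᵥ v = v + (c * (v ⬝ᵥ (J l F *ᵥ p))) • p} =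
      RG F (ρSp l F) (vecMulVec p (J l F *ᵥ p)) := fun p => by
    unfold RG
    congr 1
    ext g
    refine exists_congr fun c => ?_
    have : ∀ v, (1 + c • vecMulVec p (J l F *ᵥ p)) *ᵥ v = v + (c * (v ⬝ᵥ (J l F *ᵥ p))) • p := fun v => by
      rw [add_mulVec, one_mulVec, smul_mulVec, vecMulVec_mulVec', smul_smul, dotProduct_comm]
    exact ⟨fun h => mext fun v => (h v).trans (this v).symm, fun h v => by
      rw [← this, ← h]; rfl⟩
  ext A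
  simp only [e]
  exact ⟨fun ⟨p, hp, h⟩ => ⟨_, ⟨p, hp, rfl⟩, h.symm⟩, fun ⟨_, ⟨p, hp, e1⟩, h⟩ => ⟨p, hp, e1 ▸ h.symm⟩⟩

theorem connSp : IsConnectedFamily (FAdj (RG F (ρSp l F) '' SpS l F)) (RG F (ρSp l F) '' SpS l F) := by
  refine sysSp.conn2 ?_
  rintro _ ⟨p, hp, rfl⟩ _ ⟨r, hr, rfl⟩
  by_cases h : ∀ x, spBilin l F x r = 0 → spBilin l F x p = 0
  · obtain ⟨a, rfl⟩ := exists_smul_of_perp h
    have a0 : a ≠ 0 := fun e => hp (by simp [e])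
    exact Or.inl ⟨a * a, mul_ne_zero a0 a0, by
      rw [mulVec_smul, vecMulVec_smul, smul_vecMulVec, smul_smul]⟩
  · push Not at h
    obtain ⟨x, h1, h2⟩ := h
    obtain ⟨y, hy⟩ := exists_spB_eq_one hr
    have key : ∀ s, spBilin l F s p ≠ 0 → spBilin l F s r ≠ 0 → ∃ γ ∈ SpS l F,
        Op F (vecMulVec p (J l F *ᵥ p)) γ ∧ Op F γ (vecMulVec r (J l F *ᵥ r)) := fun s h1 h2 =>
      ⟨_, ⟨s, fun e => h1 (by simp [e]), rfl⟩, (sp_op h1).symm, sp_op h2⟩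
    by_cases h3 : spBilin l F y p = 0
    · exact Or.inr (Or.inr (key (x + y) (by simpa [h3] using h2) (by simp [h1, hy])))
    · exact Or.inr (Or.inr (key y h3 (by simp [hy])))

theorem mainSp (m : ℕ) : let S := RG F (ρSp (Fin (m + 1)) F) '' SpS (Fin (m + 1)) F
    IsRootSubgroupClass S ∧ IsDegenerateRootSet S ∧ IsKRootSubgroupSet F S ∧
      IsConnectedFamily (FAdj S) S :=
  ⟨Root.class_of_conn (sysSp.rootSet (genSp _)) connSp ⟨_, ⟨_, single_ne (Sum.inl 0), rfl⟩, rfl⟩,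
    sysSp.degenerate (genSp _) pairSp, sysSp.kRootSet (genSp _), connSp⟩

end Sp

end Cfsg.Agent.H3.Ex
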