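import Cfsg.Agent.H3.Ex2
import Cfsg.Agent.H11.UBridge

/-! Unitary transvections and Siegel transformations as root elements. -/

set_option autoImplicit false
set_option linter.unusedSectionVars false
set_option linter.unusedSimpArgs false
set_option linter.style.haveILetI false

namespace Cfsg.Agent.H3.Ex

open Cfsg.Agent.H19 Cfsg.Agent.H3.Dk Cfsg.Agent.H3.Qd Cfsg.Agent.H10 Cfsg.Agent.H11 Matrix
open scoped MatrixGroups commutatorElement

variable {F : Type*} [Field F]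

theorem exists_minor {ι : Type*} [Fintype ι] [DecidableEq ι] {a b : ι → F} (ha : a ≠ 0)
    (h : ∀ c : F, b ≠ c • a) : ∃ u, a ⬝ᵥ u = 0 ∧ b ⬝ᵥ u = 1 := by
  have : ¬ ∀ i j, a i * b j = a j * b i := fun e =>
    let ⟨c, e⟩ := exists_smul_of_minors ha e; h c e
  push Not at this
  obtain ⟨i, j, e⟩ := this
  have e' := sub_ne_zero.2 e
  refine ⟨(a i * b j - a j * b i)⁻¹ • (a i • Pi.single j 1 - a j • Pi.single i 1), ?_, ?_⟩ <;>
    simp only [dotProduct_smul, dotProduct_sub, dotProduct_single, smul_eq_mul, mul_one]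
  · ring
  · exact inv_mul_cancel₀ e'

section SU

variable {k : Type*} [Field k] [Algebra k F] {σ : F →+* F} {q n : ℕ} {ε : F}

/-- the nilpotent parts of unitary transvections -/
def UnS (n : ℕ) (σ : F →+* F) (ε : F) : Set (Matrix (Fin n) (Fin n) F) :=
  {α | ∃ p, p ≠ 0 ∧ hermB (Fin n) σ p p = 0 ∧ α = vecMulVec p (ε • fun i => σ (p i))}

/-- the natural representation -/
abbrev ρSU (n : ℕ) (F : Type*) [Field F] (q : ℕ) : SU n F q →* GL (Fin n) F :=
  SpecialLinearGroup.toGL.comp (SU n F q).subtype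

theorem bar_dot (p v : Fin n → F) : (ε • fun i => σ (p i)) ⬝ᵥ v = ε * hermB (Fin n) σ p v := by
  rw [smul_dotProduct]; rfl

theorem mem_SU (hq : QConj σ q) {g : SpecialLinearGroup (Fin n) F} :
    g ∈ SU n F q ↔ ∀ u v, hermB (Fin n) σ (g.1 *ᵥ u) (g.1 *ᵥ v) = hermB (Fin n) σ u v := by
  change (∀ u v, hermForm n F q (g.1 *ᵥ u) (g.1 *ᵥ v) = hermForm n F q u v) ↔ _
  simp only [hq.hermForm_eq]
  exact forall_comm

theorem exists_hermB {p : Fin n → F} (hp : p ≠ 0) : ∃ x, hermB (Fin n) σ p x = 1 := by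
  have : ¬ ∀ x, hermB (Fin n) σ p x = 0 := fun h => hp (hermB_sep _ p h)
  push Not at this
  obtain ⟨x, hx⟩ := this
  exact ⟨(hermB (Fin n) σ p x)⁻¹ • x, by rw [map_smul, smul_eq_mul, inv_mul_cancel₀ hx]⟩

variable (hq : QConj σ q) (hk : ∀ x, σ x = x ↔ ∃ c : k, algebraMap k F c = x) (h0 : ε ≠ 0)
  (hε : ε + σ ε = 0)
include hq hk h0 hε

theorem su_op {p r : Fin n → F} (h : hermB (Fin n) σ p r ≠ 0) :
    Op k (vecMulVec p (ε • fun i => σ (p i))) (vecMulVec r (ε • fun i => σ (r i))) := by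
  have hH := hq.isHerm (Fin n)
  obtain ⟨c, hc⟩ := (hk (ε * hermB (Fin n) σ p r * (ε * hermB (Fin n) σ r p))).1 (by
    simp only [map_mul, hH.symm, eq_neg_of_add_eq_zero_right hε]; ring)
  refine r1_op (c := c) (fun e => ?_) (by rw [bar_dot, bar_dot, hc])
  rw [e, map_zero] at hc
  exact mul_ne_zero (mul_ne_zero h0 h) (mul_ne_zero h0 fun e => h (hH.refl e)) hc.symm

theorem pairSU : ∀ α ∈ UnS n σ ε, ∀ β ∈ UnS n σ ε, α * β = β * α ∨ Op k α β := by
  rintro _ ⟨p, hp, -, rfl⟩ _ ⟨r, hr, -, rfl⟩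
  by_cases h : hermB (Fin n) σ p r = 0
  · exact Or.inl (by
      rw [r1_mul, r1_mul, bar_dot, bar_dot, h, (hq.isHerm _).refl h, mul_zero, zero_smul, zero_smul])
  · exact Or.inr (su_op hq hk h0 hε h)

theorem sysSU : Sys k (ρSU n F q) (UnS n σ ε) := by
  have hH := hq.isHerm (Fin n)
  refine ⟨SpecialLinearGroup.toGL_injective.comp Subtype.val_injective, ?_, ?_, ?_, ?_,
    fun α ha β hb => (pairSU hq hk h0 hε α ha β hb).imp_right Or.inl⟩
  · rintro _ ⟨p, -, e, rfl⟩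
    rw [r1_mul, bar_dot, e, mul_zero, zero_smul]
  · rintro _ ⟨p, hp, -, rfl⟩
    refine r1_ne hp fun e => ?_
    obtain ⟨x, hx⟩ := exists_hermB (σ := σ) hp
    have := bar_dot (σ := σ) (ε := ε) p x
    rw [e, hx, zero_dotProduct, mul_one] at this
    exact h0 this.symm
  · rintro _ ⟨p, -, e, rfl⟩ c
    refine ⟨⟨trv p (algebraMap k F c • ε • fun i => σ (p i)) (by rw [smul_dotProduct, bar_dot, e]; simp),
      (mem_SU hq).2 fun u v => ?_⟩, ?_⟩
    · simp only [trv_mulVec, smul_dotProduct _ (ε • _), bar_dot, map_add, map_smulₛₗ, LinearMap.add_apply,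
        LinearMap.smul_apply, smul_eq_mul, e, map_mul, (hk _).2 ⟨c, rfl⟩, hH.symm, RingHom.id_apply,
        eq_neg_of_add_eq_zero_right hε]
      ring
    · change 1 + vecMulVec p (algebraMap k F c • ε • fun i => σ (p i)) = _
      rw [vecMulVec_smul, algebraMap_smul]
  · rintro _ ⟨p, hp, e, rfl⟩ g
    have hg := (mem_SU hq).1 g.2
    have i1 : ∀ x, g.1.1 *ᵥ (g.1⁻¹).1 *ᵥ x = x := fun x => by
      rw [mulVec_mulVec, sl_mul_inv_val, one_mulVec]
    refine ⟨g.1.1 *ᵥ p, fun e => hp ?_, by rw [hg, e], mext fun x => ?_⟩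
    · rw [← one_mulVec p, ← sl_inv_mul_val g.1, ← mulVec_mulVec, e, mulVec_zero]
    · change (g.1.1 * _ * ((SpecialLinearGroup.toGL g.1)⁻¹ : GL (Fin n) F).1) *ᵥ x = _
      rw [toGL_inv_val, ← mulVec_mulVec, ← mulVec_mulVec, vecMulVec_mulVec', vecMulVec_mulVec', bar_dot,
        bar_dot, mulVec_smul, ← hg, i1]

theorem setSU : {A : Subgroup (SU n F q) | ∃ p : Fin n → F, p ≠ 0 ∧ hermForm n F q p p = 0 ∧
    A = Subgroup.closure {g : SU n F q | (∀ v : Fin n → F, ∃ c : F,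
      ((g : SpecialLinearGroup (Fin n) F) : Matrix (Fin n) (Fin n) F) *ᵥ v = v + c • p) ∧
      ∀ v : Fin n → F, hermForm n F q v p = 0 →
        ((g : SpecialLinearGroup (Fin n) F) : Matrix (Fin n) (Fin n) F) *ᵥ v = v}} =
    RG k (ρSU n F q) '' UnS n σ ε := by
  have hH := hq.isHerm (Fin n)
  have e : ∀ p : Fin n → F, p ≠ 0 → hermB (Fin n) σ p p = 0 →
      Subgroup.closure {g : SU n F q | (∀ v : Fin n → F, ∃ c : F,
      ((g : SpecialLinearGroup (Fin n) F) : Matrix (Fin n) (Fin n) F) *ᵥ v = v + c • p) ∧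
      ∀ v : Fin n → F, hermB (Fin n) σ p v = 0 →
        ((g : SpecialLinearGroup (Fin n) F) : Matrix (Fin n) (Fin n) F) *ᵥ v = v} =
      RG k (ρSU n F q) (vecMulVec p (ε • fun i => σ (p i))) := fun p hp e => by
    unfold RG
    congr 1
    ext g
    have : ∀ (c : k) v, (1 + c • vecMulVec p (ε • fun i => σ (p i))) *ᵥ v =
        v + (algebraMap k F c * (ε * hermB (Fin n) σ p v)) • p := fun c v => by
      rw [← algebraMap_smul F c, add_mulVec, one_mulVec, smul_mulVec, vecMulVec_mulVec', smul_smul, bar_dot]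
    constructor
    · rintro ⟨h1, h2⟩
      obtain ⟨x, hx⟩ := exists_hermB (σ := σ) hp
      obtain ⟨d, hd⟩ := h1 x
      have a := (mem_SU hq).1 g.2 x x
      simp only [hd, map_add, map_smulₛₗ, LinearMap.add_apply, LinearMap.smul_apply, smul_eq_mul, e, hx,
        hH.flip_one hx, RingHom.id_apply] at a
      obtain ⟨c, hc⟩ := (hk (d / ε)).1 (by
        rw [map_div₀, eq_neg_of_add_eq_zero_right hε, show σ d = -d by linear_combination a, neg_div_neg_eq])
      refine ⟨c, mext fun v => ?_⟩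
      have b := h2 (v - hermB (Fin n) σ p v • x) (by simp [hx])
      rw [mulVec_sub, mulVec_smul, hd, sub_eq_iff_eq_add] at b
      rw [this, hc, ← mul_assoc, div_mul_cancel₀ _ h0]
      exact b.trans (by module)
    · rintro ⟨c, h⟩
      have h' : g.1.1 = _ := h
      exact ⟨fun v => ⟨_, by rw [h', this]⟩, fun v hv => by rw [h', this, hv]; simp⟩
  ext A
  simp only [hq.hermForm_eq]
  exact ⟨fun ⟨p, hp, e0, h⟩ => ⟨_, ⟨p, hp, e0, rfl⟩, (h.trans (e p hp e0)).symm⟩,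
    fun ⟨_, ⟨p, hp, e0, e1⟩, h⟩ => ⟨p, hp, e0, by rw [e p hp e0, ← e1, h]⟩⟩

theorem connSU {Γ : Type*} [Group Γ] {ρ : Γ →* GL (Fin n) F} (h : Sys k ρ (UnS n σ ε)) :
    IsConnectedFamily (FAdj (RG k ρ '' UnS n σ ε)) (RG k ρ '' UnS n σ ε) := by
  have hH := hq.isHerm (Fin n)
  refine h.conn2 ?_
  rintro _ ⟨p, hp, ep, rfl⟩ _ ⟨r, hr, er, rfl⟩
  by_cases h1 : ∃ a : F, p = a • r
  · obtain ⟨a, rfl⟩ := h1
    have a0 : a ≠ 0 := fun e => hp (by simp [e])
    obtain ⟨c, hc⟩ := (hk (a * σ a)).1 (by rw [map_mul, hH.invol, mul_comm])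
    refine Or.inl ⟨c, fun e => ?_, mext fun x => ?_⟩
    · rw [e, map_zero] at hc
      exact mul_ne_zero a0 ((_root_.map_ne_zero σ).2 a0) hc.symm
    · rw [← algebraMap_smul F c, hc, smul_mulVec, vecMulVec_mulVec', vecMulVec_mulVec', bar_dot, bar_dot,
        map_smulₛₗ, LinearMap.smul_apply, smul_eq_mul]
      module
  by_cases h2 : hermB (Fin n) σ p r = 0
  swap
  · exact Or.inr (Or.inl (su_op hq hk h0 hε h2))
  have : ∃ x, hermB (Fin n) σ p x = 1 ∧ hermB (Fin n) σ r x ≠ 0 := by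
    obtain ⟨y, hy⟩ := exists_hermB (σ := σ) hp
    by_cases h3 : hermB (Fin n) σ r y = 0
    · obtain ⟨u, u1, u2⟩ := exists_minor (a := fun i => σ (p i)) (b := fun i => σ (r i))
        (fun e => hp (funext fun i => (_root_.map_eq_zero σ).1 (congrFun e i))) (fun c e => h1 ⟨σ c⁻¹, by
          have c0 : c ≠ 0 := fun e' => hr (funext fun i => (_root_.map_eq_zero σ).1 (by
            simpa [e'] using congrFun e i))
          funext i
          have := congrArg σ (congrFun e i)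
          simp only [hH.invol, Pi.smul_apply, smul_eq_mul, map_mul] at this
          rw [Pi.smul_apply, this, smul_eq_mul, ← mul_assoc, ← map_mul, inv_mul_cancel₀ c0, map_one,
            one_mul]⟩)
      have u1' : hermB (Fin n) σ p u = 0 := u1
      have u2' : hermB (Fin n) σ r u = 1 := u2
      exact ⟨y + u, by simp [hy, u1'], by simp [h3, u2']⟩
    · exact ⟨y, hy, h3⟩
  obtain ⟨x, x1, x2⟩ := this
  obtain ⟨t, ht⟩ := exists_trace_eq hH.ne hH.invol (hH.symm x x)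
  have s1 : hermB (Fin n) σ p (x - t • p) = 1 := by simp [x1, ep]
  have s2 : hermB (Fin n) σ r (x - t • p) ≠ 0 := by simpa [hH.refl h2] using x2
  refine Or.inr (Or.inr ⟨_, ⟨x - t • p, fun e => by simp [e] at s1, ?_, rfl⟩,
    su_op hq hk h0 hε (by simp [s1]), (su_op hq hk h0 hε s2).symm⟩)
  simp only [map_sub, map_smulₛₗ, LinearMap.sub_apply, LinearMap.smul_apply, smul_eq_mul, ep, x1,
    hH.flip_one x1, RingHom.id_apply]
  linear_combination -ht

theorem mainSU (hn : 2 ≤ n) :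
    let S := (fun A : Subgroup (SU n F q) => A.subgroupOf (⨆ B ∈ RG k (ρSU n F q) '' UnS n σ ε, B)) ''
      (RG k (ρSU n F q) '' UnS n σ ε)
    IsRootSubgroupClass S ∧ IsDegenerateRootSet S ∧ IsKRootSubgroupSet k S ∧
      IsConnectedFamily (FAdj S) S := by
  have h := sysSU (n := n) hq hk h0 hε
  haveI := hq.finite
  obtain ⟨u, u0, hu⟩ := (hq.isHerm (Fin n)).exists_isotropic (hermB_sep _) (by simpa using hn)
  rw [← h.image_restrict]
  exact ⟨Root.class_of_conn (h.restrict.rootSet h.gen_restrict) (connSU hq hk h0 hε h.restrict)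
    ⟨_, ⟨u, u0, hu, rfl⟩, rfl⟩, h.restrict.degenerate h.gen_restrict (pairSU hq hk h0 hε),
    h.restrict.kRootSet h.gen_restrict, connSU hq hk h0 hε h.restrict⟩

omit hk h0 hε in
theorem exists_fixedField : ∃ (L : Type) (_ : Field L) (_ : Fintype L) (_ : Algebra L F),
    Fintype.card L = q ∧ ∀ x, σ x = x ↔ ∃ c : L, algebraMap L F c = x := by
  haveI := hq.finite
  let K := RingHom.eqLocusField σ (RingHom.id F)
  letI := Fintype.ofFinite F
  letI := Fintype.ofFinite K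
  obtain ⟨r, hr⟩ := exists_eq_char_pow (F := F) (q := q) (by rw [← Nat.card_eq_fintype_card, hq.card])
  haveI : Fact (ringChar F).Prime := ⟨CharP.char_is_prime F _⟩
  have r0 : r ≠ 0 := fun e => by have := hq.two_le; rw [e, pow_zero] at hr; omega
  letI := Fintype.ofFinite (GaloisField (ringChar F) r)
  have c1 : Fintype.card (GaloisField (ringChar F) r) = q := by
    rw [← Nat.card_eq_fintype_card, GaloisField.card _ _ r0, hr]
  let e : GaloisField (ringChar F) r ≃+* K := FiniteField.ringEquivOfCardEq (by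
    rw [c1, ← Nat.card_eq_fintype_card, ← hq.card_fixed]; rfl)
  refine ⟨GaloisField (ringChar F) r, inferInstance, inferInstance,
    (K.subtype.comp e.toRingHom).toAlgebra, c1,
    fun x => ⟨fun h => ⟨e.symm ⟨x, h⟩, congrArg Subtype.val (e.apply_symm_apply _)⟩, ?_⟩⟩
  rintro ⟨c, rfl⟩
  exact (e c).2

end SU

section Siegel

variable {l : Type} [Fintype l] [DecidableEq l]

/-- the hyperbolic quadratic form -/
def oQ (v : l ⊕ l → F) : F := ∑ i, v (.inl i) * v (.inr i)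

/-- its polar form -/
def oB : (l ⊕ l → F) →ₗ[F] (l ⊕ l → F) →ₗ[F] F :=
  (dotProductBilin F F).compl₁₂ (LinearMap.funLeft F F Sum.swap) LinearMap.id

theorem oB_apply (x y : l ⊕ l → F) : oB x y = (x ∘ Sum.swap) ⬝ᵥ y := rfl

theorem oB_sum (x y : l ⊕ l → F) :
    oB x y = ∑ i, x (.inr i) * y (.inl i) + ∑ i, x (.inl i) * y (.inr i) := by
  rw [oB_apply, dotProduct, Fintype.sum_sum_type]; rfl

theorem oB_comm (x y : l ⊕ l → F) : oB x y = oB y x := by
  rw [oB_sum, oB_sum, add_comm]; simp only [mul_comm]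

theorem oQ_add (x y : l ⊕ l → F) : oQ (x + y) = oQ x + oQ y + oB x y := by
  simp only [oQ, oB_sum, ← Finset.sum_add_distrib, Pi.add_apply]
  exact Finset.sum_congr rfl fun i _ => by ring

theorem oQ_smul (c : F) (x : l ⊕ l → F) : oQ (c • x) = c ^ 2 * oQ x := by
  simp only [oQ, Finset.mul_sum, Pi.smul_apply, smul_eq_mul]
  exact Finset.sum_congr rfl fun i _ => by ring

theorem oB_self (x : l ⊕ l → F) : oB x x = 2 * oQ x := by
  rw [oB_sum, two_mul, oQ]; simp only [mul_comm]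

theorem oQ_sub (x y : l ⊕ l → F) : oQ (x - y) = oQ x + oQ y - oB x y := by
  rw [sub_eq_add_neg, oQ_add, ← neg_one_smul F y, oQ_smul, map_smul, smul_eq_mul]; ring

theorem oB_single (x : l ⊕ l) (v : l ⊕ l → F) : oB (Pi.single x 1) v = v x.swap := by
  rw [oB_comm, oB_apply, dotProduct_single, mul_one]; rfl

theorem oB_swap (x u : l ⊕ l → F) : oB x (u ∘ Sum.swap) = x ⬝ᵥ u := by
  rw [oB_comm, oB_apply, dotProduct_comm]; congr 1; funext i; simp

theorem oB_sep {x : l ⊕ l → F} (h : ∀ y, oB x y = 0) : x = 0 := funext fun i => by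
  have := h (Pi.single i.swap 1)
  rwa [oB_comm, oB_single, Sum.swap_swap] at this

/-- a totally singular line -/
structure Ln (p r : l ⊕ l → F) : Prop where
  li : LinearIndependent F ![p, r]
  qp : oQ p = 0
  qr : oQ r = 0
  b : oB p r = 0

theorem Ln.symm {p r : l ⊕ l → F} (h : Ln p r) : Ln r p :=
  ⟨LinearIndependent.pair_symm_iff.1 h.li, h.qr, h.qp, oB_comm p r ▸ h.b⟩

theorem Ln.pp {p r : l ⊕ l → F} (h : Ln p r) : oB p p = 0 := by rw [oB_self, h.qp, mul_zero]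
theorem Ln.rr {p r : l ⊕ l → F} (h : Ln p r) : oB r r = 0 := h.symm.pp
theorem Ln.ne {p r : l ⊕ l → F} (h : Ln p r) : p ≠ 0 := h.li.ne_zero 0

theorem Ln.dual {p r : l ⊕ l → F} (h : Ln p r) : ∃ x, oB p x = 1 ∧ oB r x = 0 := by
  obtain ⟨u, u1, u2⟩ := exists_minor h.symm.ne (b := p) fun c e => by
    have := LinearIndependent.pair_iff.1 h.li 1 (-c) (by simp [e])
    exact one_ne_zero this.1
  exact ⟨u ∘ Sum.swap, by rw [oB_swap, u2], by rw [oB_swap, u1]⟩

/-- the Siegel element -/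
def sg (p r : l ⊕ l → F) : Matrix (l ⊕ l) (l ⊕ l) F :=
  vecMulVec r (p ∘ Sum.swap) - vecMulVec p (r ∘ Sum.swap)

theorem sg_mulVec (p r v : l ⊕ l → F) : sg p r *ᵥ v = oB p v • r - oB r v • p := by
  rw [sg, sub_mulVec, vecMulVec_mulVec', vecMulVec_mulVec']; rfl

theorem sg_swap (p r : l ⊕ l → F) : sg r p = -sg p r := by rw [sg, sg, neg_sub]

theorem sg_eq_zero {p r : l ⊕ l → F} (h : ¬ LinearIndependent F ![p, r]) : sg p r = 0 := by
  rw [LinearIndependent.pair_iff] at h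
  push Not at h
  obtain ⟨s, t, e, h⟩ := h
  have key : ∀ (p r : l ⊕ l → F) (s t : F), s • p + t • r = 0 → s ≠ 0 → sg p r = 0 := fun p r s t e hs => by
    have : p = (-(s⁻¹ * t)) • r := by
      rw [← one_smul F p, ← inv_mul_cancel₀ hs]; linear_combination (norm := module) s⁻¹ • e
    refine mext fun v => ?_
    rw [sg_mulVec, zero_mulVec, this, map_smul, LinearMap.smul_apply, smul_eq_mul]
    module
  by_cases hs : s = 0
  · rw [sg_swap, key r p t s (by rwa [add_comm]) (h hs), neg_zero]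
  · exact key p r s t e hs

/-- the nilpotent parts of Siegel transformations -/
def SgS (l : Type) [Fintype l] [DecidableEq l] (F : Type*) [Field F] : Set (Matrix (l ⊕ l) (l ⊕ l) F) :=
  {α | ∃ p r, Ln p r ∧ α = sg p r}

theorem sg_triple (p r s t : l ⊕ l → F) :
    sg p r * sg s t * sg p r = (oB p t * oB r s - oB p s * oB r t) • sg p r := by
  refine mext fun v => ?_
  simp only [← mulVec_mulVec, sg_mulVec, smul_mulVec, map_sub, map_smul, smul_eq_mul, oB_comm s p,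
    oB_comm s r, oB_comm t p, oB_comm t r]
  module

theorem sg_op {p r s t : l ⊕ l → F} (h : oB p t * oB r s - oB p s * oB r t ≠ 0) :
    Op F (sg p r) (sg s t) :=
  ⟨_, h, sg_triple p r s t, by
    rw [sg_triple, oB_comm s, oB_comm s, oB_comm t, oB_comm t]; congr 1; ring⟩

theorem Nl.neg_left {k A : Type*} [Field k] [Ring A] [Algebra k A] {𝒜 : Set A} {α β : A}
    (h : Nl k 𝒜 (-α) β) : Nl k 𝒜 α β :=
  let ⟨e1, e2, c, c0, m⟩ := h
  ⟨by simpa using e1, by simpa using e2, -c, neg_ne_zero.2 c0, by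
    convert m using 1; simp only [neg_mul, mul_neg]; module⟩

theorem sg_nl {p r s t : l ⊕ l → F} (h1 : Ln p r) (h2 : Ln s t)
    (h : oB p t * oB r s - oB p s * oB r t = 0) (ha : oB p s ≠ 0)
    (hn : sg p r * sg s t ≠ sg s t * sg p r) : Nl F (SgS l F) (sg p r) (sg s t) := by
  have e : oB p s • (sg p r * sg s t - sg s t * sg p r) =
      sg (oB p s • r - oB r s • p) (oB p s • t - oB p t • s) := by
    refine mext fun v => ?_
    simp only [← mulVec_mulVec, sg_mulVec, smul_mulVec, sub_mulVec, map_sub, map_smul, smul_eq_mul,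
      LinearMap.sub_apply, LinearMap.smul_apply, oB_comm s p, oB_comm s r, oB_comm t p, oB_comm t r]
    linear_combination (norm := module) (h * oB s v) • p - (h * oB p v) • s
  refine ⟨by rw [sg_triple, h, zero_smul], ?_, _, ha, _, _, ⟨?_, ?_, ?_, ?_⟩, e⟩
  · rw [sg_triple, oB_comm s, oB_comm s, oB_comm t, oB_comm t, mul_comm (oB r s), h, zero_smul]
  · by_contra li
    rw [sg_eq_zero li, smul_eq_zero, sub_eq_zero] at e
    tauto
  · simp [oQ_sub, oQ_smul, h1.qp, h1.qr, h1.symm.b]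
  · simp [oQ_sub, oQ_smul, h2.qp, h2.qr, h2.symm.b]
  · simp only [map_sub, map_smul, LinearMap.sub_apply, LinearMap.smul_apply, smul_eq_mul]
    linear_combination (-oB p s) * h

theorem pairSg : ∀ α ∈ SgS l F, ∀ β ∈ SgS l F, α * β = β * α ∨ Op F α β ∨ Nl F (SgS l F) α β := by
  rintro _ ⟨p, r, h1, rfl⟩ _ ⟨s, t, h2, rfl⟩
  by_cases hn : sg p r * sg s t = sg s t * sg p r
  · exact Or.inl hn
  by_cases h : oB p t * oB r s - oB p s * oB r t = 0
  swap
  · exact Or.inr (Or.inl (sg_op h))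
  refine Or.inr (Or.inr ?_)
  by_cases a : oB p s = 0
  swap
  · exact sg_nl h1 h2 h a hn
  by_cases b : oB p t = 0
  swap
  · refine (Nl.neg_left ?_).symm
    rw [← sg_swap]
    exact (sg_nl h1 h2.symm (by linear_combination -h) b (by simpa [sg_swap s t] using hn)).symm
  by_cases c : oB r s = 0
  swap
  · refine Nl.neg_left ?_
    rw [← sg_swap]
    exact sg_nl h1.symm h2 (by linear_combination -h) c (by simpa [sg_swap p r] using hn)
  by_cases d : oB r t = 0
  swap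
  · refine (Nl.neg_left (Nl.neg_left ?_).symm).symm
    rw [← sg_swap, ← sg_swap]
    exact sg_nl h1.symm h2.symm (by linear_combination h) d
      (by simpa [sg_swap p r, sg_swap s t] using hn)
  refine absurd (mext fun v => ?_) hn
  simp [← mulVec_mulVec, sg_mulVec, oB_comm s p, oB_comm s r, oB_comm t p, oB_comm t r, a, b, c, d]

theorem iso_B {g : GL (l ⊕ l) F} (hg : g ∈ isometryGroup F (oQ : (l ⊕ l → F) → F)) (x y : l ⊕ l → F) :
    oB (g.1 *ᵥ x) (g.1 *ᵥ y) = oB x y := by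
  have h : ∀ u, oQ (g.1 *ᵥ u) = oQ u := fun u => hg u u
  have := h (x + y)
  rw [mulVec_add, oQ_add, oQ_add, h, h] at this
  exact add_left_cancel this

theorem sg_sq {p r : l ⊕ l → F} (h : Ln p r) : sg p r * sg p r = 0 :=
  mext fun v => by simp [← mulVec_mulVec, sg_mulVec, h.pp, h.rr, h.b, h.symm.b]

theorem one_add_sg (p r v : l ⊕ l → F) (c : F) :
    (1 + c • sg p r) *ᵥ v = v + c • (oB p v • r - oB r v • p) := by
  rw [add_mulVec, one_mulVec, smul_mulVec, sg_mulVec]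

theorem sysSg : Sys F (isometryGroup F (oQ : (l ⊕ l → F) → F)).subtype (SgS l F) := by
  refine ⟨Subtype.val_injective, ?_, ?_, ?_, ?_, pairSg⟩
  · rintro _ ⟨p, r, h, rfl⟩
    exact sg_sq h
  · rintro _ ⟨p, r, h, rfl⟩ e
    obtain ⟨x, h1, h2⟩ := h.dual
    have := sg_mulVec p r x
    rw [e, h1, h2, zero_mulVec, one_smul, zero_smul, sub_zero] at this
    exact h.symm.ne this.symm
  · rintro _ ⟨p, r, h, rfl⟩ c
    have e : (un _ (smul_sq (sg_sq h) c)).1 = 1 + c • sg p r := rfl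
    generalize un _ (smul_sq (sg_sq h) c) = g at e
    refine ⟨⟨g, fun u _ => ?_⟩, e⟩
    change oQ (g.1 *ᵥ u) = oQ u
    rw [e]
    simp only [one_add_sg, oQ_add, oQ_sub, oQ_smul, h.qp, h.qr, map_sub, map_smul, smul_eq_mul,
      LinearMap.smul_apply, h.symm.b, oB_comm u p, oB_comm u r]
    ring
  · rintro _ ⟨p, r, h, rfl⟩ g
    have i1 : ∀ x, g.1.1 *ᵥ (g.1⁻¹).1 *ᵥ x = x := fun x => by
      rw [mulVec_mulVec, Units.mul_inv, one_mulVec]
    have i2 : ∀ x, (g.1⁻¹).1 *ᵥ g.1.1 *ᵥ x = x := fun x => by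
      rw [mulVec_mulVec, Units.inv_mul, one_mulVec]
    refine ⟨g.1.1 *ᵥ p, g.1.1 *ᵥ r, ⟨LinearIndependent.pair_iff.2 fun s t e => ?_,
      (g.2 p p).trans h.qp, (g.2 r r).trans h.qr, (iso_B g.2 p r).trans h.b⟩, mext fun x => ?_⟩
    · refine LinearIndependent.pair_iff.1 h.li s t ?_
      rw [← i2 (_ + _), mulVec_add, mulVec_smul, mulVec_smul, e, mulVec_zero]
    · change (g.1.1 * _ * (g.1⁻¹).1) *ᵥ x = _
      rw [← mulVec_mulVec, ← mulVec_mulVec, sg_mulVec, sg_mulVec, mulVec_sub, mulVec_smul, mulVec_smul,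
        ← iso_B g.2 p, ← iso_B g.2 r, i1]

theorem setSg : {A : Subgroup (isometryGroup F (oQ : (l ⊕ l → F) → F)) | ∃ p r : l ⊕ l → F,
    LinearIndependent F ![p, r] ∧ oQ p = 0 ∧ oQ r = 0 ∧ oQ (p + r) = 0 ∧
    A = Subgroup.closure {σ : isometryGroup F (oQ : (l ⊕ l → F) → F) | ∀ v : l ⊕ l → F,
      oQ (v + p) - oQ v - oQ p = 0 → oQ (v + r) - oQ v - oQ r = 0 →
        ((σ : GL (l ⊕ l) F) : Matrix (l ⊕ l) (l ⊕ l) F) *ᵥ v = v}} =
    RG F (isometryGroup F (oQ : (l ⊕ l → F) → F)).subtype '' SgS l F := by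
  have pol : ∀ v p : l ⊕ l → F, oQ (v + p) - oQ v - oQ p = oB p v := fun v p => by
    rw [oQ_add, oB_comm]; ring
  have e : ∀ p r : l ⊕ l → F, Ln p r →
      Subgroup.closure {σ : isometryGroup F (oQ : (l ⊕ l → F) → F) | ∀ v : l ⊕ l → F,
      oB p v = 0 → oB r v = 0 → ((σ : GL (l ⊕ l) F) : Matrix (l ⊕ l) (l ⊕ l) F) *ᵥ v = v} =
      RG F (isometryGroup F (oQ : (l ⊕ l → F) → F)).subtype (sg p r) := fun p r h => by
    unfold RG
    congr 1
    ext g
    constructor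
    · intro hg
      obtain ⟨x, x1, x2⟩ := h.dual
      obtain ⟨y, y2, y1⟩ := h.symm.dual
      have dec : ∀ w, g.1.1 *ᵥ (w - oB p w • x - oB r w • y) = w - oB p w • x - oB r w • y := fun w =>
        hg _ (by simp [x1, y1]) (by simp [x2, y2])
      have mv : ∀ v, ∃ a b : F, g.1.1 *ᵥ v = v + a • p + b • r := fun v => by
        refine ⟨oB (g.1.1 *ᵥ v - v) x, oB (g.1.1 *ᵥ v - v) y, sub_eq_zero.1 (oB_sep fun w => ?_)⟩
        have := iso_B g.2 v (w - oB p w • x - oB r w • y)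
        rw [dec] at this
        simp only [map_sub, map_add, map_smul, LinearMap.sub_apply, LinearMap.add_apply,
          LinearMap.smul_apply, smul_eq_mul] at this ⊢
        linear_combination this
      obtain ⟨a, b, ex⟩ := mv x
      obtain ⟨c, d, ey⟩ := mv y
      have q1 : oQ (g.1.1 *ᵥ x) = oQ x := g.2 x x
      have q2 : oQ (g.1.1 *ᵥ y) = oQ y := g.2 y y
      have q3 := iso_B g.2 x y
      rw [ex] at q1 q3
      rw [ey] at q2 q3
      simp only [oQ_add, oQ_smul, map_add, map_smul, LinearMap.add_apply, LinearMap.smul_apply,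
        smul_eq_mul, h.qp, h.qr, h.b, h.symm.b, h.pp, h.rr, oB_comm x p, oB_comm x r, oB_comm y p,
        oB_comm y r, x1, x2, y1, y2] at q1 q2 q3
      refine ⟨b, mext fun v => ?_⟩
      have := dec v
      rw [mulVec_sub, mulVec_sub, mulVec_smul, mulVec_smul, ex, ey, show a = 0 by linear_combination q1,
        show d = 0 by linear_combination q2, show c = -b by linear_combination q3] at this
      rw [one_add_sg]
      change g.1.1 *ᵥ v = _
      linear_combination (norm := module) this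
    · rintro ⟨c, e⟩ v h1 h2
      rw [show g.1.1 = _ from e, one_add_sg, h1, h2]; simp
  ext A
  simp only [pol]
  constructor
  · rintro ⟨p, r, li, qp, qr, b, rfl⟩
    have h : Ln p r := ⟨li, qp, qr, by simpa [oQ_add, qp, qr] using b⟩
    exact ⟨_, ⟨p, r, h, rfl⟩, (e p r h).symm⟩
  · rintro ⟨_, ⟨p, r, h, rfl⟩, rfl⟩
    exact ⟨p, r, h.li, h.qp, h.qr, by simp [oQ_add, h.qp, h.qr, h.b], (e p r h).symm⟩

theorem Ln.exists_op {p r : l ⊕ l → F} (h : Ln p r) : ∃ s t, Ln s t ∧ Op F (sg p r) (sg s t) := by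
  obtain ⟨x, x1, x2⟩ := h.dual
  obtain ⟨y, y2, y1⟩ := h.symm.dual
  obtain ⟨s, s1, s2, s3⟩ : ∃ s, oB p s = 1 ∧ oB r s = 0 ∧ oQ s = 0 :=
    ⟨x - oQ x • p, by simp [x1, h.pp], by simp [x2, h.symm.b], by
      simp [oQ_sub, oQ_smul, h.qp, oB_comm x, x1]⟩
  obtain ⟨z, z1, z2, z3⟩ : ∃ z, oB p z = 0 ∧ oB r z = 1 ∧ oB s z = 0 :=
    ⟨y - oB s y • p, by simp [y1, h.pp], by simp [y2, h.symm.b], by simp [oB_comm s p, s1]⟩
  obtain ⟨t, t1, t2, t3, t4⟩ : ∃ t, oB p t = 0 ∧ oB r t = 1 ∧ oB s t = 0 ∧ oQ t = 0 :=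
    ⟨z - oQ z • r, by simp [z1, h.b], by simp [z2, h.rr], by simp [z3, oB_comm s r, s2], by
      simp [oQ_sub, oQ_smul, h.qr, oB_comm z, z2]⟩
  refine ⟨s, t, ⟨LinearIndependent.pair_iff.2 fun a b e => ⟨?_, ?_⟩, s3, t4, t3⟩,
    sg_op (by simp [s1, s2, t1, t2])⟩
  · simpa [s1, t1] using congrArg (oB p) e
  · simpa [s2, t2] using congrArg (oB r) e

/-- the index of a basis vector -/
def ix (x : l ⊕ l) : l := Sum.elim id id x

@[simp] theorem ix_swap (x : l ⊕ l) : ix x.swap = ix x := by cases x <;> rfl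

theorem ne_of_ix {x y : l ⊕ l} (h : ix x ≠ ix y) : x ≠ y := fun e => h (e ▸ rfl)

theorem oB_ee {x y : l ⊕ l} (h : ix x ≠ ix y) : oB (Pi.single x (1 : F)) (Pi.single y 1) = 0 := by
  rw [oB_single, Pi.single_eq_of_ne (ne_of_ix (by simpa using h))]

theorem oB_es (x : l ⊕ l) : oB (Pi.single x (1 : F)) (Pi.single x.swap 1) = 1 := by
  rw [oB_single, Pi.single_eq_same]

theorem oQ_single (x : l ⊕ l) : oQ (Pi.single x (1 : F)) = 0 := by
  cases x <;> simp [oQ]

theorem ln_e {x y : l ⊕ l} (h : ix x ≠ ix y) : Ln (Pi.single x (1 : F)) (Pi.single y 1) := by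
  refine ⟨LinearIndependent.pair_iff.2 fun a b e => ⟨?_, ?_⟩, oQ_single x, oQ_single y, oB_ee h⟩
  · simpa [ne_of_ix h] using congrFun e x
  · simpa [ne_of_ix h.symm] using congrFun e y

theorem exists_ix (h3 : 3 ≤ Fintype.card l) (x y : l ⊕ l) : ∃ u : l ⊕ l, ix u ≠ ix x ∧ ix u ≠ ix y :=
  let ⟨i, h⟩ := exists_third (i := ix x) (j := ix y) h3; ⟨.inl i, h⟩

theorem exists_nc (h3 : 3 ≤ Fintype.card l) {α : Matrix (l ⊕ l) (l ⊕ l) F} (h0 : α ≠ 0) (h : α * α = 0) :
    ∃ x y : l ⊕ l, ix x ≠ ix y ∧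
      α * sg (Pi.single x 1) (Pi.single y 1) ≠ sg (Pi.single x 1) (Pi.single y 1) * α := by
  by_contra hc
  push Not at hc
  have od : ∀ y z, z ≠ y → α z y = 0 := fun y z hz => by
    obtain ⟨x, h1, h2⟩ := exists_ix h3 y z
    have := congrArg (fun M => (M *ᵥ Pi.single x.swap 1) z) (hc x y h1)
    simp only [← mulVec_mulVec, sg_mulVec, oB_es, oB_ee (x := y) (y := x.swap) (by simpa using h1.symm),
      one_smul, zero_smul, sub_zero] at this
    simpa [hz, ne_of_ix h2.symm] using this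
  refine h0 (Matrix.ext fun z y => ?_)
  by_cases hz : z = y
  · have := congrFun (congrFun h y) y
    rw [mul_apply, Finset.sum_eq_single y (fun b _ hb => by rw [od y b hb, mul_zero]) (by simp)] at this
    rw [hz]
    exact mul_self_eq_zero.1 this
  · exact od y z hz

theorem connSg (h3 : 3 ≤ Fintype.card l) {Γ : Type*} [Group Γ] {ρ : Γ →* GL (l ⊕ l) F}
    (h : Sys F ρ (SgS l F)) (gen : (⨆ B ∈ RG F ρ '' SgS l F, B) = ⊤) :
    IsConnectedFamily (FAdj (RG F ρ '' SgS l F)) (RG F ρ '' SgS l F) := by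
  have hS := h.rootSet gen
  have hN : Root.AllNI (RG F ρ '' SgS l F) := by
    rintro _ ⟨_, ⟨p, r, hl, rfl⟩, rfl⟩
    obtain ⟨s, t, hl', o⟩ := hl.exists_op
    exact ⟨_, ⟨_, ⟨s, t, hl', rfl⟩, rfl⟩, h.ro ⟨p, r, hl, rfl⟩ ⟨s, t, hl', rfl⟩ o⟩
  have nc : ∀ α ∈ SgS l F, ∀ β ∈ SgS l F, α * β ≠ β * α →
      Root.Conn (RG F ρ '' SgS l F) (RG F ρ α) (RG F ρ β) := fun α ha β hb e =>
    conn_of_not_comm hS hN ⟨α, ha, rfl⟩ ⟨β, hb, rfl⟩ fun c => e (h.comm_rev ha hb c)
  let L : l ⊕ l → l ⊕ l → Subgroup Γ := fun x y => RG F ρ (sg (Pi.single x (1 : F)) (Pi.single y 1))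
  have sy : ∀ x y, L x y = L y x := fun x y => by simp only [L]; rw [sg_swap, RG_neg]
  have c1 : ∀ x y w, ix x ≠ ix y → ix x ≠ ix w → ix y ≠ ix w →
      Root.Conn (RG F ρ '' SgS l F) (L x y) (L x.swap w) := fun x y w h1 h2 h4 => by
    refine nc _ ⟨_, _, ln_e h1, rfl⟩ _ ⟨_, _, ln_e (by simpa using h2), rfl⟩ fun e => ?_
    have := congrArg (· *ᵥ Pi.single w.swap 1) e
    simp only [← mulVec_mulVec, sg_mulVec, oB_es, oB_ee (x := x.swap) (y := w.swap) (by simpa using h2),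
      oB_ee (x := x) (y := w.swap) (by simpa using h2), oB_ee (x := y) (y := w.swap) (by simpa using h4),
      oB_ee (x := y) (y := x.swap) (by simpa using h1.symm), zero_smul, one_smul, sub_self, map_zero,
      zero_sub, map_neg, neg_zero, sub_zero, neg_smul, neg_eq_zero] at this
    exact single_ne y this
  have c2 : ∀ x y z, ix x ≠ ix y → ix x ≠ ix z → ix y ≠ ix z →
      Root.Conn (RG F ρ '' SgS l F) (L x y) (L z y) := fun x y z h1 h2 h4 => by
    refine (c1 x y z.swap h1 (by simpa using h2) (by simpa using h4)).trans ?_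
    have := c1 z.swap x.swap y (by simpa using h2.symm) (by simpa using h4.symm) (by simpa using h1)
    rwa [Sum.swap_swap, sy] at this
  have c3 : ∀ x y z, ix x ≠ ix y → ix z ≠ ix y →
      Root.Conn (RG F ρ '' SgS l F) (L x y) (L z y) := fun x y z h1 h2 => by
    by_cases e : ix x = ix z
    · obtain ⟨u, u1, u2⟩ := exists_ix h3 x y
      exact (c2 x y u h1 u1.symm u2.symm).trans (c2 u y z u2 (e ▸ u1) h2.symm)
    · exact c2 x y z h1 e h2.symm
  have c4 : ∀ x y z w, ix x ≠ ix y → ix z ≠ ix w →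
      Root.Conn (RG F ρ '' SgS l F) (L x y) (L z w) := fun x y z w h1 h2 => by
    obtain ⟨u, u1, u2⟩ := exists_ix h3 y z
    refine (c3 x y u h1 u1).trans ?_
    rw [sy u y]
    refine (c3 y u z u1.symm u2.symm).trans ?_
    rw [sy z u, sy z w]
    exact c3 u z w u2 h2.symm
  rintro _ ⟨α, ha, rfl⟩ _ ⟨β, hb, rfl⟩
  obtain ⟨x, y, h1, e1⟩ := exists_nc h3 (h.ne α ha) (h.sq α ha)
  obtain ⟨z, w, h2, e2⟩ := exists_nc h3 (h.ne β hb) (h.sq β hb)
  exact ((nc _ ha _ ⟨_, _, ln_e h1, rfl⟩ e1).trans (c4 x y z w h1 h2)).trans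
    (nc _ hb _ ⟨_, _, ln_e h2, rfl⟩ e2).symm

theorem mainSg (h3 : 3 ≤ Fintype.card l) :
    let S := RG F (isometryGroup F (oQ : (l ⊕ l → F) → F)).subtype '' SgS l F
    IsKRootSubgroupSet F ((fun A : Subgroup (isometryGroup F (oQ : (l ⊕ l → F) → F)) =>
      A.subgroupOf (⨆ B ∈ S, B)) '' S) ∧ IsConnectedFamily (FAdj S) S := by
  intro S
  have h := sysSg (l := l) (F := F)
  rw [← h.image_restrict]
  exact ⟨h.restrict.kRootSet h.gen_restrict, h.conn_unrestrict (connSg h3 h.restrict h.gen_restrict)⟩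

end Siegel

end Cfsg.Agent.H3.Ex
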