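import Mathlib

/-! Half-transitive linear groups: stabilizers, fixed spaces. -/

set_option autoImplicit false
set_option linter.unusedSectionVars false
set_option linter.style.haveILetI false

namespace Cfsg.Agent.H3.HT

open Subgroup

variable {F : Type*} [Field F] {V : Type*} [AddCommGroup V] [Module F V] {G : Type*} [Group G]

/-- stabilizer of a vector -/
def St (ρ : G →* (V ≃ₗ[F] V)) (v : V) : Subgroup G where
  carrier := {g | ρ g v = v}
  mul_mem' := by
    intro a b ha hb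
    simp only [Set.mem_setOf_eq] at ha hb ⊢
    rw [map_mul, LinearEquiv.mul_apply, hb, ha]
  one_mem' := by simp
  inv_mem' := by
    intro a ha
    simp only [Set.mem_setOf_eq] at ha ⊢
    conv_lhs => rw [← ha]
    rw [← LinearEquiv.mul_apply, ← map_mul, inv_mul_cancel, map_one]; rfl

/-- fixed space of an element -/
def Fx (ρ : G →* (V ≃ₗ[F] V)) (g : G) : Submodule F V where
  carrier := {v | ρ g v = v}
  add_mem' := by
    intro a b ha hb
    simp only [Set.mem_setOf_eq] at ha hb ⊢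
    rw [map_add, ha, hb]
  zero_mem' := by simp
  smul_mem' := by
    intro c a ha
    simp only [Set.mem_setOf_eq] at ha ⊢
    rw [map_smul, ha]

variable {ρ : G →* (V ≃ₗ[F] V)}

theorem mem_St {v : V} {g : G} : g ∈ St ρ v ↔ ρ g v = v := Iff.rfl
theorem mem_Fx {v : V} {g : G} : v ∈ Fx ρ g ↔ ρ g v = v := Iff.rfl

theorem mul_ap (g h : G) (v : V) : ρ (g * h) v = ρ g (ρ h v) := by rw [map_mul, LinearEquiv.mul_apply]
theorem one_ap (v : V) : ρ 1 v = v := by rw [map_one]; rfl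
theorem inv_ap (g : G) (v : V) : ρ g⁻¹ (ρ g v) = v := by rw [← mul_ap, inv_mul_cancel, one_ap]
theorem ap_inv (g : G) (v : V) : ρ g (ρ g⁻¹ v) = v := by rw [← mul_ap, mul_inv_cancel, one_ap]
theorem ap_ne (g : G) {v : V} (hv : v ≠ 0) : ρ g v ≠ 0 := fun h => hv ((ρ g).map_eq_zero_iff.1 h)

theorem eq_one_of (hρ : Function.Injective ρ) {g : G} (h : ∀ v, ρ g v = v) : g = 1 :=
  hρ (by rw [map_one]; exact LinearEquiv.ext h)

theorem index_St (v : V) : (St ρ v).index = Nat.card {u : V | ∃ g : G, ρ g v = u} := by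
  letI : MulAction G V := MulAction.compHom V ρ
  have h := MulAction.index_stabilizer G v
  have e : MulAction.stabilizer G v = St ρ v := by ext g; rfl
  rw [e] at h
  rw [h, Nat.card_coe_set_eq]; rfl

/-- all stabilizers of non-zero vectors have the same order -/
def Half (ρ : G →* (V ≃ₗ[F] V)) : Prop := ∀ v w : V, v ≠ 0 → w ≠ 0 → Nat.card (St ρ v) = Nat.card (St ρ w)

theorem half_of [Finite G]
    (h : ∀ v w : V, v ≠ 0 → w ≠ 0 → Nat.card {u : V | ∃ g : G, ρ g v = u} = Nat.card {u : V | ∃ g : G, ρ g w = u}) :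
    Half ρ := fun v w hv hw => by
  have h1 := (St ρ v).index_mul_card
  have h2 := (St ρ w).index_mul_card
  have h3 : (St ρ v).index = (St ρ w).index := by rw [index_St, index_St, h v w hv hw]
  rw [h3, ← h2] at h1
  exact Nat.eq_of_mul_eq_mul_left (Nat.pos_of_ne_zero (St ρ w).index_ne_zero_of_finite) h1

theorem Half.eq_of_le [Finite G] (h : Half ρ) {v w : V} (hv : v ≠ 0) (hw : w ≠ 0) (hle : St ρ v ≤ St ρ w) :
    St ρ v = St ρ w := eq_of_le_of_card_ge hle (h w v hw hv).le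

theorem add_eq {A B : Submodule F V} (hd : Disjoint A B) {a a' b b' : V} (ha : a ∈ A) (ha' : a' ∈ A) (hb : b ∈ B)
    (hb' : b' ∈ B) (e : a + b = a' + b') : a = a' ∧ b = b' := by
  have h1 : a - a' = b' - b := by rw [sub_eq_sub_iff_add_eq_add, e, add_comm]
  have h2 : a - a' = 0 := Submodule.disjoint_def.1 hd _ (A.sub_mem ha ha') (h1 ▸ B.sub_mem hb' hb)
  exact ⟨sub_eq_zero.1 h2, (sub_eq_zero.1 (h1 ▸ h2)).symm⟩

theorem add_ne {A B : Submodule F V} (hd : Disjoint A B) {a b : V} (ha : a ∈ A) (hb : b ∈ B) (h : a ≠ 0) :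
    a + b ≠ 0 := fun e => h (add_eq hd ha A.zero_mem hb B.zero_mem (by rw [e, add_zero])).1

theorem neg_of_fpf {t : G} (ht : t * t = 1) {U : Submodule F V} (hU : ∀ v ∈ U, ρ t v ∈ U)
    (hf : ∀ v ∈ U, ρ t v = v → v = 0) : ∀ v ∈ U, ρ t v = -v := fun v hv => by
  have := hf (v + ρ t v) (U.add_mem hv (hU v hv)) (by rw [map_add, ← mul_ap, ht, one_ap, add_comm])
  rw [eq_neg_iff_add_eq_zero, add_comm, this]

theorem neg_of_fpf' {t : G} (ht : t * t = 1) (hf : ∀ v, ρ t v = v → v = 0) (v : V) : ρ t v = -v :=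
  neg_of_fpf (U := ⊤) ht (fun _ _ => trivial) (fun v _ => hf v) v trivial

/-- irreducible -/
def Irr (ρ : G →* (V ≃ₗ[F] V)) : Prop := ∀ W : Submodule F V, (∀ g : G, ∀ w ∈ W, ρ g w ∈ W) → W = ⊥ ∨ W = ⊤

theorem Irr.fpf (hi : Irr ρ) (hρ : Function.Injective ρ) {z : G} (hz : ∀ g, g * z = z * g) (h1 : z ≠ 1) (v : V)
    (h : ρ z v = v) : v = 0 := by
  rcases hi (Fx ρ z) (fun g w hw => by rw [mem_Fx, ← mul_ap, ← hz, mul_ap, mem_Fx.1 hw]) with e | e
  · have : v ∈ Fx ρ z := h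
    rwa [e, Submodule.mem_bot] at this
  · exact absurd (eq_one_of hρ fun w => mem_Fx.1 (e ▸ Submodule.mem_top)) h1

theorem maschke [Finite G] [NeZero (Nat.card G : F)] {U : Submodule F V} (hU : ∀ g : G, ∀ w ∈ U, ρ g w ∈ U) :
    ∃ Z : Submodule F V, (∀ g : G, ∀ w ∈ Z, ρ g w ∈ Z) ∧ IsCompl U Z := by
  let ρ' : Representation F G V :=
    { toFun := fun g => (ρ g : V →ₗ[F] V)
      map_one' := by rw [map_one]; rfl
      map_mul' := fun g h => by rw [map_mul]; rfl }
  obtain ⟨Z, hZ⟩ := exists_isCompl (⟨U, fun g v hv => hU g v hv⟩ : Subrepresentation ρ')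
  refine ⟨Z.toSubmodule, fun g v hv => Z.apply_mem_toSubmodule g hv, ?_, ?_⟩
  · rw [disjoint_iff]
    exact congrArg Subrepresentation.toSubmodule hZ.inf_eq_bot
  · rw [codisjoint_iff]
    exact congrArg Subrepresentation.toSubmodule hZ.sup_eq_top

/-- If all stabilizers of the non-zero vectors of the members of a spanning family agree, they are trivial. -/
theorem St_eq_bot (hρ : Function.Injective ρ) {ι : Type*} {W : ι → Submodule F V} (hW : iSup W = ⊤) {K : Subgroup G}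
    (h : ∀ i, ∀ w ∈ W i, w ≠ 0 → K ≤ St ρ w) : K = ⊥ := by
  rw [eq_bot_iff]
  intro g hg
  rw [mem_bot]
  refine eq_one_of hρ fun v => ?_
  have : iSup W ≤ Fx ρ g := iSup_le fun i w hw => by
    by_cases e : w = 0
    · rw [e]; exact Submodule.zero_mem _
    · exact h i w hw e hg
  exact this (hW ▸ Submodule.mem_top)

theorem Half.irr [Finite G] [NeZero (Nat.card G : F)] (h : Half ρ) (hρ : Function.Injective ρ)
    (hn : ∀ v : V, v ≠ 0 → St ρ v ≠ ⊥) : Irr ρ := by
  intro W hW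
  by_contra hc
  rw [not_or] at hc
  obtain ⟨Z, hZ, hWZ⟩ := maschke hW
  have hZ0 : Z ≠ ⊥ := fun e => hc.2 (by simpa [e] using hWZ.sup_eq_top)
  obtain ⟨u0, hu0, hu1⟩ := (Submodule.ne_bot_iff W).1 hc.1
  obtain ⟨w0, hw0, hw1⟩ := (Submodule.ne_bot_iff Z).1 hZ0
  have key : ∀ u ∈ W, ∀ w ∈ Z, u ≠ 0 → w ≠ 0 → St ρ u = St ρ w := fun u hu w hw h1 h2 => by
    have h3 := add_ne hWZ.disjoint hu hw h1
    have h4 : ∀ g ∈ St ρ (u + w), ρ g u = u ∧ ρ g w = w := fun g hg =>
      add_eq hWZ.disjoint (hW g u hu) hu (hZ g w hw) hw (by rw [← map_add]; exact hg)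
    rw [← h.eq_of_le h3 h1 fun g hg => (h4 g hg).1, h.eq_of_le h3 h2 fun g hg => (h4 g hg).2]
  refine hn u0 hu1 (St_eq_bot hρ (W := fun b : Bool => if b then W else Z) ?_ ?_)
  · rw [iSup_bool_eq]; simpa using hWZ.sup_eq_top
  · intro b w hw h1
    cases b
    · exact (key u0 hu0 w (by simpa using hw) hu1 h1).le
    · rw [key u0 hu0 w0 hw0 hu1 hw1, ← key w (by simpa using hw) w0 hw0 h1 hw1]

theorem card_Fx_conj (g t : G) : Nat.card (Fx ρ (g * t * g⁻¹)) = Nat.card (Fx ρ t) := by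
  refine Nat.card_congr
    { toFun := fun v => ⟨ρ g⁻¹ v.1, ?_⟩
      invFun := fun v => ⟨ρ g v.1, ?_⟩
      left_inv := fun v => Subtype.ext (ap_inv g v.1)
      right_inv := fun v => Subtype.ext (inv_ap g v.1) }
  · have := mem_Fx.1 v.2
    rw [mul_ap, mul_ap] at this
    rw [mem_Fx]
    conv_rhs => rw [← this]
    rw [inv_ap]
  · rw [mem_Fx, mul_ap, mul_ap, inv_ap, mem_Fx.1 v.2]

theorem card_of_isCompl {A B : Submodule F V} (h : IsCompl A B) : Nat.card V = Nat.card A * Nat.card B := by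
  rw [← Nat.card_prod]; exact (Nat.card_congr (Submodule.prodEquivOfIsCompl A B h).toEquiv).symm

theorem isCompl_Fx (h2 : (2 : F) ≠ 0) {t z : G} (ht : t * t = 1) (hz : ∀ v, ρ z v = -v) :
    IsCompl (Fx ρ t) (Fx ρ (z * t)) := by
  constructor
  · rw [Submodule.disjoint_def]
    intro v h1 h3
    rw [mem_Fx, mul_ap, mem_Fx.1 h1, hz] at h3
    have : (2 : F) • v = 0 := by rw [two_smul]; nth_rewrite 1 [← h3]; exact neg_add_cancel v
    exact (smul_eq_zero.1 this).resolve_left h2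
  · rw [codisjoint_iff, eq_top_iff]
    intro v _
    refine Submodule.mem_sup.2 ⟨(2 : F)⁻¹ • (v + ρ t v), Submodule.smul_mem _ _ ?_, (2 : F)⁻¹ • (v - ρ t v),
      Submodule.smul_mem _ _ ?_, ?_⟩
    · rw [mem_Fx, map_add, ← mul_ap, ht, one_ap, add_comm]
    · rw [mem_Fx, mul_ap, hz, map_sub, ← mul_ap, ht, one_ap, neg_sub]
    · rw [← smul_add, add_add_sub_cancel, ← two_smul F v, smul_smul, inv_mul_cancel₀ h2, one_smul]

theorem card_sub [Finite F] [Finite V] (U : Submodule F V) : Nat.card U = Nat.card F ^ Module.finrank F U := by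
  haveI : Module.Finite F U := Module.Finite.of_finite
  exact Module.natCard_eq_pow_finrank

/-- a `p`-group in characteristic `p` has a non-zero fixed vector -/
theorem exists_fixed {p : ℕ} [Fact p.Prime] {V : Type*} [AddCommGroup V] [Module (ZMod p) V] [Finite V] [Nontrivial V]
    [Finite G] (hG : IsPGroup p G) (ρ : G →* (V ≃ₗ[ZMod p] V)) : ∃ v : V, v ≠ 0 ∧ ∀ g, ρ g v = v := by
  letI : MulAction G V := MulAction.compHom V ρ
  haveI : Module.Finite (ZMod p) V := Module.Finite.of_finite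
  have hc : p ∣ Nat.card V := by
    rw [Module.natCard_eq_pow_finrank (K := ZMod p), Nat.card_zmod]
    exact dvd_pow_self p Module.finrank_pos.ne'
  obtain ⟨v, hv, h0⟩ := hG.exists_fixed_point_of_prime_dvd_card_of_fixed_point V hc
    (a := 0) (fun g => map_zero (ρ g))
  exact ⟨v, h0.symm, fun g => hv g⟩

/-- restriction to an invariant subspace -/
def res (ρ : G →* (V ≃ₗ[F] V)) (W : Submodule F V) (hW : ∀ g : G, ∀ w ∈ W, ρ g w ∈ W) : G →* (W ≃ₗ[F] W) where
  toFun g :=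
    { toFun := fun w => ⟨ρ g w.1, hW g w.1 w.2⟩
      invFun := fun w => ⟨ρ g⁻¹ w.1, hW g⁻¹ w.1 w.2⟩
      map_add' := fun a b => Subtype.ext (map_add (ρ g) a.1 b.1)
      map_smul' := fun c a => Subtype.ext (map_smul (ρ g) c a.1)
      left_inv := fun w => Subtype.ext (inv_ap g w.1)
      right_inv := fun w => Subtype.ext (ap_inv g w.1) }
  map_one' := LinearEquiv.ext fun w => Subtype.ext (one_ap w.1)
  map_mul' g h := LinearEquiv.ext fun w => Subtype.ext (mul_ap g h w.1)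

theorem res_ap {W : Submodule F V} (hW : ∀ g : G, ∀ w ∈ W, ρ g w ∈ W) (g : G) (w : W) :
    (res ρ W hW g w : V) = ρ g w := rfl

theorem exists_irr [Finite V] [Nontrivial V] (ρ : G →* (V ≃ₗ[F] V)) :
    ∃ (W : Submodule F V) (hW : ∀ g : G, ∀ w ∈ W, ρ g w ∈ W), W ≠ ⊥ ∧ Irr (res ρ W hW) := by
  haveI : Finite (Submodule F V) := Finite.of_injective (fun W : Submodule F V => (W : Set V)) SetLike.coe_injective
  obtain ⟨W, ⟨hW, h0⟩, hmin⟩ := WellFounded.has_min (wellFounded_lt (α := Submodule F V))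
    {W : Submodule F V | (∀ g : G, ∀ w ∈ W, ρ g w ∈ W) ∧ W ≠ ⊥} ⟨⊤, fun _ _ _ => trivial, top_ne_bot⟩
  refine ⟨W, hW, h0, fun U hU => ?_⟩
  by_cases e : U = ⊥
  · exact Or.inl e
  right
  have h1 : ¬ U.map W.subtype < W := hmin _ ⟨by
    rintro g _ ⟨w, hw, rfl⟩
    exact ⟨_, hU g w hw, rfl⟩, fun e' => e (by
      rw [eq_bot_iff]
      intro x hx
      have : (x : V) ∈ U.map W.subtype := ⟨x, hx, rfl⟩
      rw [e', Submodule.mem_bot] at this
      exact (Submodule.mem_bot F).2 (Subtype.ext this))⟩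
  have h2 : U.map W.subtype = W := (W.map_subtype_le U).eq_of_not_lt h1
  rw [eq_top_iff]
  intro w _
  have : (w : V) ∈ U.map W.subtype := h2.symm ▸ w.2
  obtain ⟨x, hx, e'⟩ := this
  rwa [← Subtype.ext e']

end Cfsg.Agent.H3.HT
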