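import Cfsg.Agent.H3.HT1
import Cfsg.Agent.H3.Two
import Cfsg.Agent.H3.Basic

/-! Half-transitive linear `p`-groups: the maximal class case and the imprimitive case. -/

set_option autoImplicit false
set_option linter.unusedSectionVars false
set_option linter.style.haveILetI false

namespace Cfsg.Agent.H3.HT

open Cfsg Subgroup Cfsg.Agent.FT

variable {F : Type*} [Field F] {V : Type*} [AddCommGroup V] [Module F V] {G : Type*} [Group G] [Finite G]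
  {ρ : G →* (V ≃ₗ[F] V)}

theorem mc_count [Finite F] [Finite V] [Nontrivial V] (h2 : (2 : F) ≠ 0) (hρ : Function.Injective ρ) (hi : Irr ρ)
    (hn : ∀ v : V, v ≠ 0 → St ρ v ≠ ⊥) {a b : G} {m : ℕ} (h : MC (⊤ : Subgroup G) a b m) :
    ∃ k, 1 ≤ k ∧ Nat.card V = (Nat.card F ^ k) ^ 2 ∧
      Nat.card {t : G // t ∉ ⟪a⟫ ∧ t ^ 2 = 1} = Nat.card F ^ k + 1 := by
  classical
  have hzc : ∀ g, g * a ^ 2 ^ (m - 1) = a ^ 2 ^ (m - 1) * g := fun g => h.z_cen g trivial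
  have hf := hi.fpf hρ hzc h.z_ne
  have hz := neg_of_fpf' h.z_mul hf
  have hSt : ∀ v : V, v ≠ 0 → ∀ g ∈ St ρ v, g ∈ ⟪a⟫ → g = 1 := fun v hv g hg ha => by
    by_contra e
    have : St ρ v ⊓ ⟪a⟫ ≠ ⊥ := fun e' => e (mem_bot.1 (e' ▸ (⟨hg, ha⟩ : g ∈ St ρ v ⊓ ⟪a⟫)))
    exact hv (hf v (h.z_mem_of_ne inf_le_right this).1)
  have hex : ∀ v : V, v ≠ 0 → ∃ t : G, (t ∉ ⟪a⟫ ∧ t ^ 2 = 1) ∧ ρ t v = v := fun v hv => by
    obtain ⟨⟨g, hg⟩, h1⟩ := (ne_bot_iff_exists_ne_one).1 (hn v hv)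
    have h3 : g ∉ ⟪a⟫ := fun ha => h1 (Subtype.ext (hSt v hv g hg ha))
    exact ⟨g, ⟨h3, by rw [sq]; exact hSt v hv _ (mul_mem hg hg) (h.mul_mem trivial trivial h3 h3)⟩, hg⟩
  have hcard : ∀ t : G, t ∉ ⟪a⟫ → t ^ 2 = 1 → Nat.card V = Nat.card (Fx ρ t) ^ 2 := fun t h3 h4 => by
    obtain ⟨g, -, hg⟩ := (h.out trivial h3).exists_conj h.z_mem_sq
    rw [card_of_isCompl (isCompl_Fx h2 (by rw [← sq, h4]) hz), ← hg, card_Fx_conj, sq]
  obtain ⟨v0, hv0⟩ := exists_ne (0 : V)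
  obtain ⟨t0, ⟨h3, h4⟩, -⟩ := hex v0 hv0
  have hV := hcard t0 h3 h4
  rw [card_sub] at hV
  have hV1 : 1 < Nat.card V := Finite.one_lt_card
  generalize Module.finrank F (Fx ρ t0) = k at hV
  have hk1 : 1 ≤ k := by
    by_contra e
    have : k = 0 := by omega
    rw [this, pow_zero] at hV; omega
  refine ⟨k, hk1, hV, ?_⟩
  generalize Nat.card F ^ k = c at hV ⊢
  have hc1 : 1 < c := by
    by_contra e
    have : c ^ 2 ≤ 1 ^ 2 := Nat.pow_le_pow_left (by omega) 2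
    omega
  haveI := Fintype.ofFinite V
  haveI := Fintype.ofFinite G
  have key := Finset.card_mul_eq_card_mul (s := (Finset.univ : Finset V).erase 0)
    (t := Finset.univ.filter fun t : G => t ∉ ⟪a⟫ ∧ t ^ 2 = 1) (m := 1) (n := c - 1) (fun v t => ρ t v = v)
    (fun v hv => by
      have hv0 := Finset.ne_of_mem_erase hv
      obtain ⟨t, ht, ht'⟩ := hex v hv0
      refine Finset.card_eq_one.2 ⟨t, Finset.eq_singleton_iff_unique_mem.2 ⟨?_, fun s hs => ?_⟩⟩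
      · simp only [Finset.mem_bipartiteAbove, Finset.mem_filter, Finset.mem_univ, true_and]; exact ⟨ht, ht'⟩
      · simp only [Finset.mem_bipartiteAbove, Finset.mem_filter, Finset.mem_univ, true_and] at hs
        have e := hSt v hv0 _ (mul_mem (mem_St.2 hs.2) (mem_St.2 ht')) (h.mul_mem trivial trivial hs.1.1 ht.1)
        have e' : t * t = 1 := by rw [← sq, ht.2]
        exact mul_right_cancel (e.trans e'.symm))
    (fun t ht => by
      simp only [Finset.mem_filter, Finset.mem_univ, true_and] at ht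
      have e1 : Nat.card (Fx ρ t) = c := Nat.pow_left_injective two_ne_zero ((hcard t ht.1 ht.2).symm.trans hV)
      have e2 : Finset.bipartiteBelow (fun v t => ρ t v = v) ((Finset.univ : Finset V).erase 0) t =
          (Finset.univ.filter fun v : V => v ∈ Fx ρ t).erase 0 := by
        ext v
        simp only [Finset.mem_bipartiteBelow, Finset.mem_erase, Finset.mem_univ, and_true, Finset.mem_filter,
          true_and, mem_Fx]
      rw [e2, Finset.card_erase_of_mem (by simp), ← e1]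
      congr 1
      exact (Nat.subtype_card _ (by simp)).symm)
  rw [Finset.card_erase_of_mem (Finset.mem_univ _), Finset.card_univ, ← Nat.card_eq_fintype_card, hV, mul_one] at key
  rw [Nat.subtype_card (Finset.univ.filter fun t : G => t ∉ ⟪a⟫ ∧ t ^ 2 = 1) (by simp)]
  obtain ⟨d, hd⟩ : ∃ d, c = d + 1 := ⟨c - 1, by omega⟩
  rw [hd] at key ⊢
  have e3 : (d + 1) ^ 2 - 1 = (d + 1 + 1) * d := by
    have : (d + 1) ^ 2 = (d + 1 + 1) * d + 1 := by ring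
    omega
  rw [e3, Nat.add_sub_cancel] at key
  exact (Nat.eq_of_mul_eq_mul_right (by omega) key).symm

theorem card_invol {a b : G} {m : ℕ} (h : MC (⊤ : Subgroup G) a b m) {A : Subgroup G} (hA : A ≤ ⟪a⟫)
    (e : ∀ y ∈ ⟪a⟫, (y * b) ^ 2 = 1 ↔ y ∈ A) : Nat.card {t : G // t ∉ ⟪a⟫ ∧ t ^ 2 = 1} = Nat.card A :=
  Nat.card_congr
    { toFun := fun t => ⟨t.1 * b⁻¹, (e _ (h.mul_inv_mem trivial trivial t.2.1 h.nmem)).1 (by simpa using t.2.2)⟩
      invFun := fun y => ⟨y.1 * b, h.mul_not_mem (hA y.2), (e _ (hA y.2)).2 y.2⟩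
      left_inv := fun t => Subtype.ext (by simp)
      right_inv := fun y => Subtype.ext (by simp) }

theorem perm_ne {p : ℕ} (hp : p.Prime) {σ : Equiv.Perm (Fin p)} (h : orderOf σ = p) (i : Fin p) : σ i ≠ i := by
  have h1 : σ.IsCycle := Equiv.Perm.isCycle_of_prime_order'' (by simpa using hp) (by simpa using h)
  have h2 : σ.support = Finset.univ := Finset.eq_univ_of_card σ.support (by rw [← h1.orderOf, h]; simp)
  exact Equiv.Perm.mem_support.1 (h2 ▸ Finset.mem_univ i)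

theorem imprim_odd [Nontrivial V] {p : ℕ} (hp : p.Prime) (hp2 : p ≠ 2) (h : Half ρ) (hρ : Function.Injective ρ)
    (hn : ∀ v : V, v ≠ 0 → St ρ v ≠ ⊥) {H : Subgroup G} {W : Fin p → Submodule F V} (hi : H.index = p)
    (hW : iSup W = ⊤) (hI : iSupIndep W) (hH : ∀ h ∈ H, ∀ i, ∀ w ∈ W i, ρ h w ∈ W i)
    (hσ : ∀ g : G, g ∉ H → ∃ σ : Equiv.Perm (Fin p), orderOf σ = p ∧
      ∀ i, (W i).map (ρ g : V →ₗ[F] V) = W (σ i)) : False := by
  have supp : ∀ (g : G) (σ : Equiv.Perm (Fin p)), (∀ i, (W i).map (ρ g : V →ₗ[F] V) = W (σ i)) →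
      ∀ i j, i ≠ j → ∀ u ∈ W i, ∀ w ∈ W j, u ≠ 0 → ρ g (u + w) = u + w → σ i ≠ i → σ j = i := by
    intro g σ hg i j hij u hu w hw h0 e h1
    by_contra h3
    refine h0 (Submodule.disjoint_def.1 (hI i) u hu ?_)
    have : u = ρ g u + ρ g w - w := by rw [← map_add, e]; abel
    rw [this]
    refine Submodule.sub_mem _ (Submodule.add_mem _ ?_ ?_) ?_
    · exact Submodule.mem_iSup_of_mem (σ i) (Submodule.mem_iSup_of_mem h1 (hg i ▸ ⟨u, hu, rfl⟩))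
    · exact Submodule.mem_iSup_of_mem (σ j) (Submodule.mem_iSup_of_mem h3 (hg j ▸ ⟨w, hw, rfl⟩))
    · exact Submodule.mem_iSup_of_mem j (Submodule.mem_iSup_of_mem hij.symm hw)
  have key : ∀ i j, i ≠ j → ∀ u ∈ W i, ∀ w ∈ W j, u ≠ 0 → w ≠ 0 → St ρ u = St ρ w := by
    intro i j hij u hu w hw h1 h2
    have hd : Disjoint (W i) (W j) := hI.pairwiseDisjoint hij
    have h3 := add_ne hd hu hw h1
    have h4 : ∀ g ∈ St ρ (u + w), ρ g u = u ∧ ρ g w = w := fun g hg => by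
      by_cases hgH : g ∈ H
      · exact add_eq hd (hH g hgH i u hu) hu (hH g hgH j w hw) hw (by rw [← map_add]; exact hg)
      exfalso
      obtain ⟨σ, ho, hs⟩ := hσ g hgH
      have e1 := supp g σ hs i j hij u hu w hw h1 hg (perm_ne hp ho i)
      have e2 := supp g σ hs j i hij.symm w hw u hu h2 (by rw [add_comm]; exact hg) (perm_ne hp ho j)
      have e3 : ∀ k, (σ ^ (2 * k)) i = i := fun k => by
        induction k with
        | zero => simp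
        | succ k ih => rw [mul_add, pow_add, mul_one, sq, Equiv.Perm.mul_apply, Equiv.Perm.mul_apply, e2, e1, ih]
      obtain ⟨k, hk⟩ := hp.odd_of_ne_two hp2
      have e4 : σ ^ (2 * k + 1) = 1 := by rw [← hk]; exact orderOf_dvd_iff_pow_eq_one.1 ho.dvd
      have e5 : (σ ^ (2 * k + 1)) i = σ i := by rw [pow_succ', Equiv.Perm.mul_apply, e3]
      rw [e4] at e5
      exact perm_ne hp ho i e5.symm
    rw [← h.eq_of_le h3 h1 fun g hg => (h4 g hg).1, h.eq_of_le h3 h2 fun g hg => (h4 g hg).2]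
  obtain ⟨i, hi0⟩ : ∃ i, W i ≠ ⊥ := by
    by_contra e
    push Not at e
    exact top_ne_bot (hW.symm.trans (iSup_eq_bot.2 e))
  obtain ⟨g, hg⟩ : ∃ g, g ∉ H := by
    by_contra e
    push Not at e
    rw [(eq_top_iff' H).2 e, index_top] at hi
    exact hp.one_lt.ne hi
  obtain ⟨σ, ho, hs⟩ := hσ g hg
  obtain ⟨u, hu, hu0⟩ := (Submodule.ne_bot_iff _).1 hi0
  have hu' : ρ g u ∈ W (σ i) := hs i ▸ ⟨u, hu, rfl⟩
  refine hn u hu0 (St_eq_bot hρ hW fun j w hw h0 => ?_)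
  by_cases e : i = j
  · subst e
    rw [key i (σ i) (perm_ne hp ho i).symm u hu _ hu' hu0 (ap_ne g hu0),
      key i (σ i) (perm_ne hp ho i).symm w hw _ hu' h0 (ap_ne g hu0)]
  · exact (key i j e u hu w hw hu0 h0).le

theorem neg_ne (h2 : (2 : F) ≠ 0) {w : V} (hw : w ≠ 0) : -w ≠ w := fun e => by
  have : (2 : F) • w = 0 := by rw [two_smul]; nth_rewrite 1 [← e]; exact neg_add_cancel w
  exact hw ((smul_eq_zero.1 this).resolve_left h2)

/-- the imprimitive configuration for `p = 2` -/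
structure Im2 (ρ : G →* (V ≃ₗ[F] V)) (H : Subgroup G) (W0 W1 : Submodule F V) : Prop where
  idx : H.index = 2
  cpl : IsCompl W0 W1
  h0 : ∀ g ∈ H, ∀ w ∈ W0, ρ g w ∈ W0
  h1 : ∀ g ∈ H, ∀ w ∈ W1, ρ g w ∈ W1
  s0 : ∀ g ∉ H, ∀ w ∈ W0, ρ g w ∈ W1
  s1 : ∀ g ∉ H, ∀ w ∈ W1, ρ g w ∈ W0

variable {H : Subgroup G} {W0 W1 : Submodule F V}

theorem Im2.exists_out (c : Im2 ρ H W0 W1) : ∃ g, g ∉ H := by
  by_contra e
  push Not at e
  have hi := c.idx
  rw [(eq_top_iff' H).2 e, index_top] at hi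
  omega

theorem Im2.card_eq (c : Im2 ρ H W0 W1) : Nat.card W0 = Nat.card W1 := by
  obtain ⟨g, hg⟩ := c.exists_out
  exact Nat.card_congr
    { toFun := fun v => ⟨ρ g v.1, c.s0 g hg _ v.2⟩
      invFun := fun v => ⟨ρ g⁻¹ v.1, c.s1 g⁻¹ (fun e => hg (by simpa using e)) _ v.2⟩
      left_inv := fun v => Subtype.ext (inv_ap g v.1)
      right_inv := fun v => Subtype.ext (ap_inv g v.1) }

theorem Im2.exists_ne [Nontrivial V] (c : Im2 ρ H W0 W1) : ∃ u ∈ W0, u ≠ 0 := by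
  obtain ⟨g, hg⟩ := c.exists_out
  obtain ⟨v, hv⟩ := _root_.exists_ne (0 : V)
  obtain ⟨a, ha, b, hb, rfl⟩ := Submodule.mem_sup.1 (c.cpl.sup_eq_top ▸ Submodule.mem_top : v ∈ W0 ⊔ W1)
  by_cases e : a = 0
  · refine ⟨ρ g b, c.s1 g hg b hb, ap_ne g ?_⟩
    rintro rfl
    exact hv (by rw [e, add_zero])
  · exact ⟨a, ha, e⟩

theorem Im2.exists_t (c : Im2 ρ H W0 W1) (hG : IsPGroup 2 G) (hρ : Function.Injective ρ) (hi : Irr ρ)
    (hx : ∃ x ∈ H, x ≠ 1 ∧ ∀ w ∈ W0, ρ x w = w) :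
    ∃ t, (∀ u ∈ W0, ρ t u = u) ∧ ∀ w ∈ W1, ρ t w = -w := by
  obtain ⟨x, hxH, hx1, hx⟩ := hx
  obtain ⟨g, hg⟩ := c.exists_out
  have hg' : g⁻¹ ∉ H := fun e => hg (by simpa using e)
  obtain ⟨⟨t, htH⟩, h1, h2, h3, h4⟩ := exists_central_order_p (p := 2) (hG.to_subgroup H)
    (res (ρ.comp H.subtype) W0 fun y w hw => c.h0 y y.2 w hw).ker (by
      refine (ne_bot_iff_exists_ne_one).2 ⟨⟨⟨x, hxH⟩, ?_⟩, fun e => hx1 (congrArg (fun y => y.1.1) e)⟩
      exact MonoidHom.mem_ker.2 (LinearEquiv.ext fun w => Subtype.ext (hx w w.2)))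
  have ht0 : ∀ u ∈ W0, ρ t u = u := fun u hu =>
    congrArg Subtype.val (LinearEquiv.congr_fun (MonoidHom.mem_ker.1 h1) ⟨u, hu⟩)
  have ht1 : t ≠ 1 := fun e => h2 (Subtype.ext e)
  have ht2 : t * t = 1 := by rw [← sq]; exact congrArg Subtype.val h3
  have hc : ∀ y ∈ H, y * t = t * y := fun y hy => congrArg Subtype.val (mem_center_iff.1 h4 ⟨y, hy⟩)
  have hm := fun {a b : G} => mul_mem_iff_of_index_two c.idx (a := a) (b := b)
  have hc' : ∀ y ∈ H, y * (g * t * g⁻¹) = (g * t * g⁻¹) * y := fun y hy => by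
    have := hc (g⁻¹ * y * g) (hm.2 (by rw [hm]; tauto))
    calc y * (g * t * g⁻¹) = g * ((g⁻¹ * y * g) * t) * g⁻¹ := by group
      _ = g * (t * (g⁻¹ * y * g)) * g⁻¹ := by rw [this]
      _ = _ := by group
  have hg0 : g * (t * (g * t * g⁻¹)) = (t * (g * t * g⁻¹)) * g := by
    have e1 := hc (g * g) (hm.2 Iff.rfl)
    have e2 := hc' t htH
    calc g * (t * (g * t * g⁻¹)) = (g * t * g⁻¹) * (g * g * t) * g⁻¹ := by group
      _ = (g * t * g⁻¹) * (t * (g * g)) * g⁻¹ := by rw [e1]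
      _ = (g * t * g⁻¹) * t * g := by group
      _ = _ := by rw [← e2]
  have hH : ∀ y ∈ H, y * (t * (g * t * g⁻¹)) = (t * (g * t * g⁻¹)) * y := fun y hy => by
    rw [← mul_assoc, hc y hy, mul_assoc t y, hc' y hy, ← mul_assoc]
  have hz : ∀ y, y * (t * (g * t * g⁻¹)) = (t * (g * t * g⁻¹)) * y := fun y => by
    by_cases hy : y ∈ H
    · exact hH y hy
    · have e := hH (y * g⁻¹) (hm.2 (by tauto))
      calc y * (t * (g * t * g⁻¹)) = (y * g⁻¹) * (g * (t * (g * t * g⁻¹))) := by group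
        _ = (y * g⁻¹) * (t * (g * t * g⁻¹)) * g := by rw [hg0, ← mul_assoc]
        _ = _ := by rw [e]; group
  have ht' : ∀ w ∈ W1, ρ (g * t * g⁻¹) w = w := fun w hw => by
    rw [mul_ap, mul_ap, ht0 _ (c.s1 _ hg' w hw), ap_inv]
  have hz1 : t * (g * t * g⁻¹) ≠ 1 := fun e => by
    have e' : g * t * g⁻¹ = t := mul_left_cancel (e.trans ht2.symm)
    refine ht1 (eq_one_of hρ fun v => ?_)
    obtain ⟨a, ha, b, hb, rfl⟩ := Submodule.mem_sup.1 (c.cpl.sup_eq_top ▸ Submodule.mem_top : v ∈ W0 ⊔ W1)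
    rw [map_add, ht0 a ha, ← e', ht' b hb]
  refine ⟨t, ht0, neg_of_fpf ht2 (c.h1 t htH) fun w hw e => hi.fpf hρ hz hz1 w ?_⟩
  rw [mul_ap, ht' w hw, e]

theorem Im2.swap (c : Im2 ρ H W0 W1) (h : Half ρ) (h2 : (2 : F) ≠ 0) {t : G} (ht0 : ∀ u ∈ W0, ρ t u = u)
    (ht1 : ∀ w ∈ W1, ρ t w = -w) {u w : V} (hu : u ∈ W0) (hw : w ∈ W1) (hu0 : u ≠ 0) (hw0 : w ≠ 0) :
    ∃ g, ρ g u = w ∧ ρ g w = u := by
  by_contra hc
  have hd := c.cpl.disjoint
  have h3 := add_ne hd hu hw hu0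
  have h4 : ∀ g ∈ St ρ (u + w), ρ g u = u ∧ ρ g w = w := fun g hg => by
    by_cases hgH : g ∈ H
    · exact add_eq hd (c.h0 g hgH u hu) hu (c.h1 g hgH w hw) hw (by rw [← map_add]; exact hg)
    · exact absurd ⟨g, (add_eq hd (c.s1 g hgH w hw) hu (c.s0 g hgH u hu) hw
        (by rw [add_comm, ← map_add]; exact hg)).symm⟩ hc
  have e : St ρ u = St ρ w := by
    rw [← h.eq_of_le h3 hu0 fun g hg => (h4 g hg).1, h.eq_of_le h3 hw0 fun g hg => (h4 g hg).2]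
  have : t ∈ St ρ w := e ▸ mem_St.2 (ht0 u hu)
  exact neg_ne h2 hw0 ((ht1 w hw).symm.trans this)

theorem Im2.index [Finite V] (c : Im2 ρ H W0 W1)
    (hs : ∀ u ∈ W0, ∀ w ∈ W1, u ≠ 0 → w ≠ 0 → ∃ g, ρ g u = w ∧ ρ g w = u) {u : V} (hu : u ∈ W0) (hu0 : u ≠ 0) :
    (St ρ u).index = 2 * (Nat.card W0 - 1) := by
  obtain ⟨g0, hg0⟩ := c.exists_out
  have e : {x : V | ∃ g : G, ρ g u = x} = ((W0 : Set V) \ {0}) ∪ ((W1 : Set V) \ {0}) := by
    ext x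
    constructor
    · rintro ⟨g, rfl⟩
      by_cases hg : g ∈ H
      · exact Or.inl ⟨c.h0 g hg u hu, ap_ne g hu0⟩
      · exact Or.inr ⟨c.s0 g hg u hu, ap_ne g hu0⟩
    · rintro (⟨h1, h2⟩ | ⟨h1, h2⟩)
      · obtain ⟨g, -, hg⟩ := hs x h1 _ (c.s0 g0 hg0 u hu) h2 (ap_ne g0 hu0)
        exact ⟨g * g0, by rw [mul_ap, hg]⟩
      · obtain ⟨g, hg, -⟩ := hs u hu x h1 hu0 h2
        exact ⟨g, hg⟩
  rw [index_St, e, Nat.card_coe_set_eq, Set.ncard_union_eq (Set.disjoint_left.2 fun x h1 h2 =>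
    h1.2 (Submodule.disjoint_def.1 c.cpl.disjoint x h1.1 h2.1)), Set.ncard_diff_singleton_of_mem W0.zero_mem,
    Set.ncard_diff_singleton_of_mem W1.zero_mem, ← Nat.card_coe_set_eq, ← Nat.card_coe_set_eq]
  have := c.card_eq
  simp only [SetLike.coe_sort_coe]
  omega

theorem Im2.two_dim (c : Im2 ρ H W0 W1) (h : Half ρ) (hρ : Function.Injective ρ) (h2 : (2 : F) ≠ 0)
    (d0 : Module.finrank F W0 = 1) (d1 : Module.finrank F W1 = 1) {t : G} (ht0 : ∀ u ∈ W0, ρ t u = u)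
    (ht1 : ∀ w ∈ W1, ρ t w = -w) {u0 : V} (hu : u0 ∈ W0) (hu0 : u0 ≠ 0) :
    ∃ e : V ≃ₗ[F] (Fin 2 → F), ∀ f : (Fin 2 → F) ≃ₗ[F] (Fin 2 → F),
      (∃ g : G, f = e.symm.trans ((ρ g).trans e)) ↔ ∃ a s : F, a ≠ 0 ∧ (s = 1 ∨ s = -1) ∧
        ((∀ v, f v = ![a * v 0, s * a⁻¹ * v 1]) ∨ (∀ v, f v = ![s * a⁻¹ * v 1, a * v 0])) := by
  obtain ⟨g0, hg0⟩ := c.exists_out
  obtain ⟨w0, hw, hw0⟩ : ∃ w ∈ W1, w ≠ 0 := ⟨_, c.s0 g0 hg0 u0 hu, ap_ne g0 hu0⟩
  have hd := c.cpl.disjoint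
  have su : ∀ u ∈ W0, ∃ a : F, a • u0 = u := fun u h1 => by
    obtain ⟨a, ha⟩ := (finrank_eq_one_iff_of_nonzero' (⟨u0, hu⟩ : W0) fun e => hu0 (congrArg Subtype.val e)).1 d0
      ⟨u, h1⟩
    exact ⟨a, congrArg Subtype.val ha⟩
  have sw : ∀ w ∈ W1, ∃ a : F, a • w0 = w := fun w h1 => by
    obtain ⟨a, ha⟩ := (finrank_eq_one_iff_of_nonzero' (⟨w0, hw⟩ : W1) fun e => hw0 (congrArg Subtype.val e)).1 d1
      ⟨w, h1⟩
    exact ⟨a, congrArg Subtype.val ha⟩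
  obtain ⟨e, he⟩ : ∃ e : V ≃ₗ[F] (Fin 2 → F), ∀ v, e.symm v = v 0 • u0 + v 1 • w0 := by
    let φ : (Fin 2 → F) →ₗ[F] V :=
      { toFun := fun v => v 0 • u0 + v 1 • w0
        map_add' := fun a b => by simp only [Pi.add_apply, add_smul]; abel
        map_smul' := fun a b => by simp only [Pi.smul_apply, smul_eq_mul, mul_smul, RingHom.id_apply, smul_add] }
    refine ⟨(LinearEquiv.ofBijective φ ⟨(injective_iff_map_eq_zero φ).2 fun v hv => ?_, fun v => ?_⟩).symm,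
      fun v => rfl⟩
    · obtain ⟨e1, e2⟩ := add_eq hd (W0.smul_mem (v 0) hu) W0.zero_mem (W1.smul_mem (v 1) hw) W1.zero_mem
        (by rw [add_zero]; exact hv)
      exact funext (Fin.forall_fin_two.2 ⟨(smul_eq_zero.1 e1).resolve_right hu0,
        (smul_eq_zero.1 e2).resolve_right hw0⟩)
    · obtain ⟨a, ha, b, hb, rfl⟩ := Submodule.mem_sup.1 (c.cpl.sup_eq_top ▸ Submodule.mem_top : v ∈ W0 ⊔ W1)
      obtain ⟨x, rfl⟩ := su a ha
      obtain ⟨y, rfl⟩ := sw b hb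
      exact ⟨![x, y], rfl⟩
  have diag : ∀ (g : G) (α β : F), ρ g u0 = α • u0 → ρ g w0 = β • w0 →
      ∀ v, (e.symm.trans ((ρ g).trans e)) v = ![α * v 0, β * v 1] := fun g α β h1 h3 v => by
    simp only [LinearEquiv.trans_apply]
    refine (LinearEquiv.eq_symm_apply e).1 ?_
    rw [he, he, map_add, map_smul, map_smul, h1, h3]
    simp [smul_smul, mul_comm]
  have anti : ∀ (g : G) (α β : F), ρ g u0 = α • w0 → ρ g w0 = β • u0 →
      ∀ v, (e.symm.trans ((ρ g).trans e)) v = ![β * v 1, α * v 0] := fun g α β h1 h3 v => by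
    simp only [LinearEquiv.trans_apply]
    refine (LinearEquiv.eq_symm_apply e).1 ?_
    rw [he, he, map_add, map_smul, map_smul, h1, h3]
    simp [smul_smul, mul_comm, add_comm]
  have hext : ∀ x y : G, ρ x u0 = ρ y u0 → ρ x w0 = ρ y w0 → x = y := fun x y h1 h3 =>
    hρ (LinearEquiv.ext fun v => by
      rw [← e.symm_apply_apply v, he, map_add, map_add, map_smul, map_smul, map_smul, map_smul, h1, h3])
  obtain ⟨g1, k1, k2⟩ := c.swap h h2 ht0 ht1 hu hw hu0 hw0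
  have A2 : ∀ a s : F, a ≠ 0 → (s = 1 ∨ s = -1) → ∃ g, ρ g u0 = a • w0 ∧ ρ g w0 = (s * a⁻¹) • u0 := by
    intro a s ha hs
    obtain ⟨g, e1, e2⟩ := c.swap h h2 ht0 ht1 hu (W1.smul_mem a hw) hu0 (smul_ne_zero ha hw0)
    have e3 : ρ g w0 = a⁻¹ • u0 := by rw [← e2, map_smul, smul_smul, inv_mul_cancel₀ ha, one_smul]
    rcases hs with rfl | rfl
    · exact ⟨g, e1, by rw [e3, one_mul]⟩
    · exact ⟨g * t, by rw [mul_ap, ht0 _ hu, e1], by rw [mul_ap, ht1 _ hw, map_neg, e3, neg_one_mul, neg_smul]⟩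
  have A1 : ∀ a s : F, a ≠ 0 → (s = 1 ∨ s = -1) → ∃ g, ρ g u0 = a • u0 ∧ ρ g w0 = (s * a⁻¹) • w0 := by
    intro a s ha hs
    obtain ⟨g, e1, e2⟩ := A2 a s ha hs
    exact ⟨g1 * g, by rw [mul_ap, e1, map_smul, k2], by rw [mul_ap, e2, map_smul, k1]⟩
  have hSt : ∀ x : G, ρ x u0 = u0 → x = 1 ∨ x = t := by
    have s1 : (St ρ (u0 + w0) : Set G) ⊆ {1, g1} := fun x hx => by
      have hx' : ρ x (u0 + w0) = u0 + w0 := hx
      by_cases hxH : x ∈ H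
      · obtain ⟨e1, e2⟩ := add_eq hd (c.h0 x hxH _ hu) hu (c.h1 x hxH _ hw) hw (by rw [← map_add]; exact hx')
        exact Or.inl (hext x 1 (by rw [e1, one_ap]) (by rw [e2, one_ap]))
      · obtain ⟨e1, e2⟩ := add_eq hd (c.s1 x hxH _ hw) hu (c.s0 x hxH _ hu) hw
          (by rw [add_comm, ← map_add]; exact hx')
        exact Or.inr (hext x g1 (by rw [e2, k1]) (by rw [e1, k2]))
    have s2 : (St ρ u0 : Set G).ncard ≤ 2 := by
      rw [← Nat.card_coe_set_eq, SetLike.coe_sort_coe, h u0 (u0 + w0) hu0 (add_ne hd hu hw hu0),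
        ← SetLike.coe_sort_coe, Nat.card_coe_set_eq]
      exact (Set.ncard_le_ncard s1).trans ((Set.ncard_insert_le _ _).trans (by simp))
    have s3 : (1 : G) ≠ t := fun e' => neg_ne h2 hw0 (by rw [← ht1 _ hw, ← e', one_ap])
    have s4 : ({1, t} : Set G) = St ρ u0 := Set.eq_of_subset_of_ncard_le (by
      rintro x (rfl | rfl)
      · exact one_mem _
      · exact ht0 _ hu) (by rwa [Set.ncard_pair s3])
    intro x hx
    have : x ∈ ({1, t} : Set G) := s4 ▸ hx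
    exact this
  have B : ∀ g d : G, ρ g u0 = ρ d u0 → ρ g w0 = ρ d w0 ∨ ρ g w0 = -ρ d w0 := fun g d e1 => by
    rcases hSt (d⁻¹ * g) (by rw [mul_ap, e1, inv_ap]) with e2 | e2
    · left; rw [inv_mul_eq_one.1 e2]
    · right; rw [inv_mul_eq_iff_eq_mul.1 e2, mul_ap, ht1 _ hw, map_neg]
  refine ⟨e, fun f => ⟨?_, ?_⟩⟩
  · rintro ⟨g, rfl⟩
    by_cases hg : g ∈ H
    · obtain ⟨a, ha⟩ := su _ (c.h0 g hg _ hu)
      have ha0 : a ≠ 0 := by
        rintro rfl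
        exact ap_ne g hu0 (by rw [← ha, zero_smul])
      obtain ⟨d, e1, e2⟩ := A1 a 1 ha0 (Or.inl rfl)
      rcases B g d (by rw [e1, ha]) with e3 | e3
      · exact ⟨a, 1, ha0, Or.inl rfl, Or.inl (diag g _ _ ha.symm (e3.trans e2))⟩
      · exact ⟨a, -1, ha0, Or.inr rfl, Or.inl (diag g _ _ ha.symm (by rw [e3, e2, one_mul, neg_one_mul, neg_smul]))⟩
    · obtain ⟨a, ha⟩ := sw _ (c.s0 g hg _ hu)
      have ha0 : a ≠ 0 := by
        rintro rfl
        exact ap_ne g hu0 (by rw [← ha, zero_smul])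
      obtain ⟨d, e1, e2⟩ := A2 a 1 ha0 (Or.inl rfl)
      rcases B g d (by rw [e1, ha]) with e3 | e3
      · exact ⟨a, 1, ha0, Or.inl rfl, Or.inr (anti g _ _ ha.symm (e3.trans e2))⟩
      · exact ⟨a, -1, ha0, Or.inr rfl, Or.inr (anti g _ _ ha.symm (by rw [e3, e2, one_mul, neg_one_mul, neg_smul]))⟩
  · rintro ⟨a, s, ha, hs, hf | hf⟩
    · obtain ⟨g, e1, e2⟩ := A1 a s ha hs
      exact ⟨g, LinearEquiv.ext fun v => by rw [hf v, diag g _ _ e1 e2]⟩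
    · obtain ⟨g, e1, e2⟩ := A2 a s ha hs
      exact ⟨g, LinearEquiv.ext fun v => by rw [hf v, anti g _ _ e1 e2]⟩

end Cfsg.Agent.H3.HT
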