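import Cfsg.Agent.H3.HT2
import Cfsg.Agent.S3380
import Cfsg.Agent.S3784

/-! Half-transitive linear `p`-groups: the classification. -/

set_option autoImplicit false
set_option linter.unusedSectionVars false
set_option linter.style.haveILetI false

namespace Cfsg.Agent.H3.HT

open Cfsg Subgroup Cfsg.Agent.FT

theorem semireg (q : ℕ) [Fact q.Prime] {V : Type*} [AddCommGroup V] [Module (ZMod q) V] [Finite V] [Nontrivial V]
    {G : Type*} [Group G] [Finite G] (p : ℕ) [Fact p.Prime] (hG : IsPGroup p G)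
    (ρ : G →* (V ≃ₗ[ZMod q] V)) (hρ : Function.Injective ρ) (hs : ∀ v : V, v ≠ 0 → ∀ g : G, ρ g v = v → g = 1) :
    IsCyclic G ∨ ∃ n : ℕ, Nonempty (G ≃* QuaternionGroup n) := by
  by_contra hc
  rw [not_or, not_exists] at hc
  have two : ∀ x y : G, x * x = 1 → y * y = 1 → x ≠ 1 → y ≠ 1 → x = y := fun x y hx hy h1 h2 =>
    hρ (LinearEquiv.ext fun v => by
      rw [neg_of_fpf' hx (fun v e => by_contra fun h0 => h1 (hs v h0 x e)),
        neg_of_fpf' hy (fun v e => by_contra fun h0 => h2 (hs v h0 y e))])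
  obtain ⟨W, hW, h0, hi⟩ := exists_irr ρ
  haveI : Nontrivial W := Submodule.nontrivial_iff_ne_bot.2 h0
  have hs' : ∀ v : W, v ≠ 0 → ∀ g, res ρ W hW g v = v → g = 1 := fun v hv g e =>
    hs v (fun e' => hv (Subtype.ext e')) g (congrArg Subtype.val e)
  have hnd : ∀ n : ℕ, ¬ Nonempty (G ≃* DihedralGroup n) := by
    rintro n ⟨e⟩
    by_cases hn : n = 1
    · subst hn
      exact hc.1 (isCyclic_of_prime_card (p := 2) (by rw [Nat.card_congr e.toEquiv, DihedralGroup.nat_card]))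
    haveI : Nontrivial (ZMod n) := ZMod.nontrivial_iff.2 hn
    have h1 : ∀ i, e.symm (DihedralGroup.sr i) ≠ 1 := fun i h => by
      have := e.symm.injective (h.trans (map_one _).symm)
      rw [DihedralGroup.one_def] at this
      cases this
    have h2 : ∀ i, e.symm (DihedralGroup.sr i) * e.symm (DihedralGroup.sr i) = 1 := fun i => by
      rw [← map_mul, DihedralGroup.sr_mul_self, map_one]
    have := e.symm.injective (two _ _ (h2 0) (h2 1) (h1 0) (h1 1))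
    exact zero_ne_one (DihedralGroup.sr.inj this)
  have hsd : ¬ IsQuasiDihedral G := fun hq => by
    obtain ⟨a, b, m, h⟩ := exists_mcs_top hq
    exact h.nmem (two _ _ h.z_mul (by rw [← sq, h.sq]) h.z_ne h.b_ne ▸ h.z_mem)
  obtain ⟨H, U, -, hU, -, -, hx, -⟩ := Cfsg.Agent.S3380.result q p hG (res ρ W hW)
    ((injective_iff_map_eq_one _).2 fun g e => by
      obtain ⟨v, hv⟩ := exists_ne (0 : W)
      exact hs' v hv g (by rw [e]; rfl)) hi hc.1 hc.2 hnd hsd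
  obtain ⟨i, hi0⟩ : ∃ i, U i ≠ ⊥ := by
    by_contra e
    push Not at e
    exact top_ne_bot (hU.symm.trans (iSup_eq_bot.2 e))
  obtain ⟨u, hu, hu0⟩ := (Submodule.ne_bot_iff _).1 hi0
  obtain ⟨x, -, hx1, hx2⟩ := hx i
  exact hx1 (hs' u hu0 x (hx2 u hu))

theorem mers {q j k : ℕ} (hq : q.Prime) (hq2 : q ≠ 2) (hk : 1 ≤ k) (h : 2 ^ j = q ^ k + 1) : k = 1 ∧ q = 2 ^ j - 1 := by
  have hj : 1 ≤ j := by
    by_contra e
    have : j = 0 := by omega
    rw [this, pow_zero] at h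
    have := pow_pos hq.pos k
    omega
  rcases Cfsg.Agent.S3784.result 2 q j k Nat.prime_two hq hj hk h with ⟨-, h1, -, h2⟩ | ⟨h1, -⟩ | ⟨h1, -⟩
  · exact ⟨h1, by omega⟩
  · exact absurd h1 hq2
  · have : 2 ∣ 2 ^ j := dvd_pow_self 2 (by omega)
    omega

theorem main (q : ℕ) [Fact q.Prime] {V : Type*} [AddCommGroup V] [Module (ZMod q) V] [Finite V] [Nontrivial V]
    {G : Type*} [Group G] [Finite G] (p : ℕ) [Fact p.Prime] (hG : IsPGroup p G)
    (ρ : G →* (V ≃ₗ[ZMod q] V)) (hρ : Function.Injective ρ)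
    (hhalf : ∀ v w : V, v ≠ 0 → w ≠ 0 → Nat.card {u : V | ∃ g : G, ρ g v = u} = Nat.card {u : V | ∃ g : G, ρ g w = u}) :
    ((IsCyclic G ∨ ∃ n : ℕ, Nonempty (G ≃* QuaternionGroup n)) ∧ ∀ v : V, v ≠ 0 → ∀ g : G, ρ g v = v → g = 1) ∨
    (Nat.card V = q ^ 2 ∧ ∃ m : ℕ, q = 2 ^ m - 1 ∧
      (Nonempty (G ≃* DihedralGroup (2 ^ m)) ∨ (Cfsg.IsQuasiDihedral G ∧ Nat.card G = 2 ^ (m + 2)))) ∨
    (Nat.card V = q ^ 2 ∧ (∃ m : ℕ, q = 2 ^ m + 1) ∧
      ∃ e : V ≃ₗ[ZMod q] (Fin 2 → ZMod q), ∀ f : (Fin 2 → ZMod q) ≃ₗ[ZMod q] (Fin 2 → ZMod q),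
        (∃ g : G, f = e.symm.trans ((ρ g).trans e)) ↔
        ∃ a s : ZMod q, a ≠ 0 ∧ (s = 1 ∨ s = -1) ∧
          ((∀ v, f v = ![a * v 0, s * a⁻¹ * v 1]) ∨ (∀ v, f v = ![s * a⁻¹ * v 1, a * v 0]))) ∨
    (Nat.card V = 81 ∧ q = 3 ∧ p = 2) := by
  classical
  have hq : q.Prime := Fact.out
  have hp : p.Prime := Fact.out
  by_cases hs : ∀ v : V, v ≠ 0 → ∀ g : G, ρ g v = v → g = 1
  · exact Or.inl ⟨semireg q p hG ρ hρ hs, hs⟩
  right
  have h := half_of hhalf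
  obtain ⟨N, hN⟩ := IsPGroup.iff_card.1 hG
  have p2 : 2 ∣ Nat.card G → p = 2 := fun h => by
    rw [hN] at h
    exact ((Nat.prime_dvd_prime_iff_eq Nat.prime_two hp).1 (Nat.prime_two.dvd_of_dvd_pow h)).symm
  push Not at hs
  obtain ⟨v0, hv0, g0, hg0, hg1⟩ := hs
  have hn0 : St ρ v0 ≠ ⊥ := fun e => hg1 (mem_bot.1 (e ▸ mem_St.2 hg0))
  have hn : ∀ v : V, v ≠ 0 → St ρ v ≠ ⊥ := fun v hv e =>
    hn0 (card_eq_one.1 (by rw [h v0 v hv0 hv, e, card_bot]))
  have hpq : p ≠ q := by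
    rintro rfl
    obtain ⟨v, hv, hf⟩ := exists_fixed hG ρ
    refine hg1 (eq_one_of hρ fun w => ?_)
    by_cases hw : w = 0
    · rw [hw, map_zero]
    · exact mem_St.1 ((h.eq_of_le hw hv fun g _ => hf g).symm ▸ mem_St.2 (hf g0))
  haveI : NeZero (Nat.card G : ZMod q) := ⟨fun e => by
    rw [ZMod.natCast_eq_zero_iff, hN] at e
    exact hpq ((Nat.prime_dvd_prime_iff_eq hq hp).1 (hq.dvd_of_dvd_pow e)).symm⟩
  have hi := h.irr hρ hn
  have nab : ¬ ∀ x y : G, x * y = y * x := fun e => hv0 (hi.fpf hρ (fun g => e g g0) hg1 v0 hg0)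
  have hnc : ¬ IsCyclic G := fun hc => nab fun x y => by
    obtain ⟨g, hg⟩ := IsCyclic.exists_generator (α := G)
    exact comm_of_mem_zpowers (hg x) (hg y)
  have h2 : p = 2 → (2 : ZMod q) ≠ 0 := fun e e' => by
    have : ((2 : ℕ) : ZMod q) = 0 := by exact_mod_cast e'
    rw [ZMod.natCast_eq_zero_iff] at this
    exact hpq (e.trans ((Nat.prime_dvd_prime_iff_eq hq Nat.prime_two).1 this).symm)
  have hnq : ∀ n : ℕ, ¬ Nonempty (G ≃* QuaternionGroup n) := by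
    rintro n ⟨e⟩
    by_cases h1 : n = 1
    · subst h1
      haveI := QuaternionGroup.quaternionGroup_one_isCyclic
      exact hnc (isCyclic_of_surjective e.symm e.symm.surjective)
    haveI : Finite (QuaternionGroup n) := Finite.of_equiv _ e.toEquiv
    haveI : NeZero n := ⟨by
      rintro rfl
      exact (orderOf_pos (QuaternionGroup.a 1 : QuaternionGroup 0)).ne' QuaternionGroup.orderOf_a_one⟩
    obtain rfl := p2 (by
      rw [Nat.card_congr e.toEquiv, Nat.card_eq_fintype_card, QuaternionGroup.card]; omega)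
    obtain ⟨a, b, m, -, hm⟩ := exists_mcq_of_iso' (pGrp_top hG) h1 (topEquiv.trans e)
    obtain ⟨x, hx⟩ := exists_prime_orderOf_dvd_card' 2
      ((hG.to_subgroup (St ρ v0)).card_eq_or_dvd.resolve_left fun e => hn0 (card_eq_one.1 e))
    have hx1 : (x : G) ≠ 1 := fun e => by
      rw [show x = 1 from Subtype.ext e, orderOf_one] at hx; omega
    have hx2 : (x : G) ^ 2 = 1 := congrArg Subtype.val (hx ▸ pow_orderOf_eq_one x : x ^ 2 = 1)
    have := hm.eq_z_of_sq trivial hx2 hx1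
    exact hv0 (hi.fpf hρ (fun g => by rw [this]; exact hm.z_cen g trivial) hx1 v0 x.2)
  by_cases hd : ∃ n : ℕ, Nonempty (G ≃* DihedralGroup n)
  · obtain ⟨n, ⟨e⟩⟩ := hd
    have hc : Nat.card G = 2 * n := by rw [Nat.card_congr e.toEquiv, DihedralGroup.nat_card]
    obtain rfl := p2 (hc ▸ dvd_mul_right 2 n)
    have h3 : 3 ≤ n := by
      by_contra h3
      have h0 : 0 < Nat.card G := Nat.card_pos
      obtain rfl | rfl : n = 1 ∨ n = 2 := by omega
      · have : ∀ x y : DihedralGroup 1, x * y = y * x := by decide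
        exact nab fun x y => e.injective (by rw [map_mul, map_mul, this])
      · have : ∀ x y : DihedralGroup 2, x * y = y * x := by decide
        exact nab fun x y => e.injective (by rw [map_mul, map_mul, this])
    obtain ⟨a, b, m, rfl, hm⟩ := exists_mcd_of_iso' (pGrp_top hG) h3 (topEquiv.trans e)
    obtain ⟨k, hk, hV, hI⟩ := mc_count (h2 rfl) hρ hi hn hm.toMC
    rw [card_invol hm.toMC le_rfl fun y hy => ⟨fun _ => hy, fun _ => (hm.out trivial (hm.mul_not_mem hy)).sq⟩,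
      hm.card_a, Nat.card_zmod] at hI
    obtain ⟨rfl, e2⟩ := mers hq hpq.symm hk hI
    rw [Nat.card_zmod, pow_one] at hV
    exact Or.inl ⟨hV, m, e2, Or.inl ⟨e⟩⟩
  by_cases hsd : IsQuasiDihedral G
  · obtain ⟨a, b, m, hm⟩ := exists_mcs_top hsd
    have hc : Nat.card G = 2 ^ (m + 1) := card_top'.symm.trans hm.card
    obtain rfl := p2 (hc ▸ dvd_pow_self 2 (by omega))
    obtain ⟨k, hk, hV, hI⟩ := mc_count (h2 rfl) hρ hi hn hm.toMC
    rw [card_invol hm.toMC (zpowers_pow_le a 2) fun y hy => hm.sq_iff hy, card_zpowers', hm.ord_sq,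
      Nat.card_zmod] at hI
    obtain ⟨rfl, e2⟩ := mers hq hpq.symm hk hI
    rw [Nat.card_zmod, pow_one] at hV
    have := hm.three_le
    exact Or.inl ⟨hV, m - 1, e2, Or.inr ⟨hsd, by rw [hc]; congr 1; omega⟩⟩
  obtain ⟨H, W, hH, hW, hI, hHW, hx, hσ⟩ := Cfsg.Agent.S3380.result q p hG ρ hρ hi hnc hnq (not_exists.1 hd) hsd
  by_cases hp2 : p = 2
  swap
  · exact (imprim_odd hp hp2 h hρ hn hH hW hI hHW hσ).elim
  right
  subst hp2
  have f0 : ∀ x : Fin 2, x ≠ 0 → x = 1 := by decide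
  have f1 : ∀ x : Fin 2, x ≠ 1 → x = 0 := by decide
  have c : Im2 ρ H (W 0) (W 1) :=
    { idx := hH
      cpl := ⟨hI.pairwiseDisjoint (by decide : (0 : Fin 2) ≠ 1), codisjoint_iff.2 (eq_top_iff.2
        (hW ▸ iSup_le (Fin.forall_fin_two.2 ⟨le_sup_left, le_sup_right⟩)))⟩
      h0 := fun g hg => hHW g hg 0
      h1 := fun g hg => hHW g hg 1
      s0 := fun g hg w hw => by
        obtain ⟨σ, ho, hs⟩ := hσ g hg
        rw [← f0 _ (perm_ne hp ho 0), ← hs]; exact ⟨w, hw, rfl⟩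
      s1 := fun g hg w hw => by
        obtain ⟨σ, ho, hs⟩ := hσ g hg
        rw [← f1 _ (perm_ne hp ho 1), ← hs]; exact ⟨w, hw, rfl⟩ }
  obtain ⟨t, ht0, ht1⟩ := c.exists_t hG hρ hi (hx 0)
  obtain ⟨u, hu, hu0⟩ := c.exists_ne
  have hidx := c.index (fun u hu w hw h1 h3 => c.swap h (h2 rfl) ht0 ht1 hu hw h1 h3) hu hu0
  obtain ⟨j, -, hj⟩ := (Nat.dvd_prime_pow Nat.prime_two).1 (hN ▸ (St ρ u).index_dvd_card)
  have hV := card_of_isCompl c.cpl
  have hc := c.card_eq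
  rw [← hc, card_sub, Nat.card_zmod] at hV
  rw [card_sub, card_sub, Nat.card_zmod] at hc
  rw [hj, card_sub, Nat.card_zmod] at hidx
  have hd1 := Nat.pow_right_injective hq.two_le hc
  haveI : Nontrivial (W 0) := ⟨⟨⟨u, hu⟩, 0, fun e => hu0 (congrArg Subtype.val e)⟩⟩
  haveI : Module.Finite (ZMod q) (W 0) := Module.Finite.of_finite
  have hk : 1 ≤ Module.finrank (ZMod q) (W 0) := Module.finrank_pos
  have hq3 : 3 ≤ q := by have := hq.two_le; omega
  have hqk : q ≤ q ^ Module.finrank (ZMod q) (W 0) := Nat.le_self_pow (by omega) q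
  obtain ⟨j, rfl⟩ : ∃ i, j = i + 1 := ⟨j - 1, by
    by_contra e
    have : j = 0 := by omega
    rw [this] at hidx; omega⟩
  have hj1 : 1 ≤ j := by
    by_contra e
    have : j = 0 := by omega
    rw [this] at hidx; omega
  rcases Cfsg.Agent.S3784.result q 2 _ j hq Nat.prime_two hk hj1 (by rw [pow_succ] at hidx; omega) with
    ⟨h1, -⟩ | ⟨-, h1, -, h3⟩ | ⟨h1, -⟩
  · omega
  · exact Or.inl ⟨by rw [hV, h1, pow_one, sq], ⟨j, h3⟩, c.two_dim h hρ (h2 rfl) h1 (hd1 ▸ h1) ht0 ht1 hu hu0⟩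
  · refine Or.inr ⟨by rw [hV, h1], ?_, rfl⟩
    refine (Nat.prime_dvd_prime_iff_eq hq Nat.prime_three).1 (hq.dvd_of_dvd_pow (n := 2) ?_)
    rw [show 3 ^ 2 = 9 from rfl, ← h1]
    exact dvd_pow_self q (by omega)

end Cfsg.Agent.H3.HT
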