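import Mathlib

/-!
Counting solutions of `g ^ k = 1` in small alternating groups.
-/

set_option autoImplicit false
set_option maxRecDepth 100000

namespace Cfsg.Agent.H3.Nse

/-- the code of an element: the least `k ∈ {1, 2, 3, 4, 5}` with `g ^ k = 1`, else `0` -/
def code {A : Type*} [Group A] [DecidableEq A] (g : A) : ℕ :=
  if g = 1 then 1 else if g * g = 1 then 2 else if g * g * g = 1 then 3 else
    if g * g * g * g = 1 then 4 else if g * g * g * g * g = 1 then 5 else 0

/-- the counts of the codes -/
def counts (A : Type*) [Group A] [DecidableEq A] [Fintype A] : ℕ :=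
  ∑ g : A, 1000 ^ code g

theorem counts4 : counts (alternatingGroup (Fin 4)) = 008003001000 := by decide +kernel

theorem counts5 : counts (alternatingGroup (Fin 5)) = 024000020015001000 := by decide +kernel

theorem counts6 : counts (alternatingGroup (Fin 6)) = 144090080045001000 := by decide +kernel

end Cfsg.Agent.H3.Nse
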