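import Cfsg.Agent.H3.NseA
import Cfsg.Agent.H27.Nse

/-!
Numbers of elements of given order: general counting lemmas.
-/

set_option autoImplicit false

namespace Cfsg.Agent.H3.Nse

open Cfsg Subgroup Cfsg.Agent.FT Cfsg.Agent.H27

variable {G : Type*} [Group G] [Finite G] {m e : ℕ}

theorem dvd_of_ne (h : nse G m ≠ 0) : m ∣ Nat.card G := by
  obtain ⟨g, rfl⟩ := nse_ne_zero.1 h
  exact orderOf_dvd_natCard g

theorem zero_of_dvd (h : nse G e = 0) (hd : e ∣ m) : nse G m = 0 := by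
  by_contra h1
  obtain ⟨g, rfl⟩ := nse_ne_zero.1 h1
  exact nse_ne_zero.2 ⟨g ^ (orderOf g / e), orderOf_pow_orderOf_div (orderOf_pos g).ne' hd⟩ h

theorem zero_of_not_dvd (h : ¬ m ∣ Nat.card G) : nse G m = 0 := by
  by_contra h1
  exact h (dvd_of_ne h1)

theorem nd (h : nse G e = 0) (g : G) : ¬ e ∣ orderOf g := fun hd =>
  nse_ne_zero.2 ⟨g, rfl⟩ (zero_of_dvd h hd)

theorem ne_zero_prime {p : ℕ} (hp : p.Prime) (h : p ∣ Nat.card G) : nse G p ≠ 0 :=
  haveI := Fact.mk hp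
  nse_ne_zero.2 (exists_prime_orderOf_dvd_card' p h)

theorem nse_zero : nse G 0 = 0 := by
  by_contra h
  obtain ⟨g, hg⟩ := nse_ne_zero.1 h
  exact (orderOf_pos g).ne' hg

/-- number of elements of order `m` in `T` -/
noncomputable def cnt (T : Set G) (m : ℕ) : ℕ := {x | x ∈ T ∧ orderOf x = m}.ncard

theorem cnt_le (T : Set G) (m : ℕ) : cnt T m ≤ nse G m :=
  Set.ncard_le_ncard (t := {x : G | orderOf x = m}) (fun _ h => h.2) (Set.toFinite _)

theorem cnt_top (m : ℕ) : cnt ((⊤ : Subgroup G) : Set G) m = nse G m := by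
  show _ = {x : G | orderOf x = m}.ncard
  unfold cnt
  congr 1
  ext x
  simp

theorem cnt_one (K : Subgroup G) : cnt (K : Set G) 1 = 1 := by
  unfold cnt
  rw [Set.ncard_eq_one]
  refine ⟨1, ?_⟩
  ext x
  simp only [Set.mem_setOf_eq, orderOf_eq_one_iff, Set.mem_singleton_iff]
  exact ⟨fun h => h.2, fun h => ⟨h ▸ K.one_mem, h⟩⟩

theorem card_eq_sum (K : Subgroup G) (l : List ℕ) (hl : l.Nodup) (h : ∀ g : G, orderOf g ∈ l) :
    Nat.card K = (l.map (cnt (K : Set G))).sum := by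
  rw [← List.sum_toFinset _ hl]
  exact H28.ncard_eq_sum_of_fibers l.toFinset orderOf fun a _ => List.mem_toFinset.2 (h a)

theorem free_dvd (K : Subgroup G) [hK : K.Normal] {q : ℕ} (b m : ℕ) (hq : q.Prime)
    (hb : q ^ b ∣ Nat.card G) (hc : m.Coprime q) (h0 : nse G (m * q) = 0) :
    q ^ b ∣ cnt (K : Set G) m := by
  refine dvd_ncard_of_fibers (fun x => ConjClasses.mk x) fun a ha => ?_
  have e : {y | y ∈ {x | x ∈ (K : Set G) ∧ orderOf x = m} ∧ ConjClasses.mk y = ConjClasses.mk a} =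
      {y | IsConj a y} := by
    ext y
    constructor
    · intro h
      exact (ConjClasses.mk_eq_mk_iff_isConj.1 h.2).symm
    · intro h
      have h' : IsConj a y := h
      obtain ⟨c, rfl⟩ := isConj_iff.1 h'
      exact ⟨⟨hK.conj_mem a ha.1 c, by rw [orderOf_conj]; exact ha.2⟩,
        ConjClasses.mk_eq_mk_iff_isConj.2 h'.symm⟩
  rw [e, H28.ncard_isConj]
  have hn : ¬ q ∣ Nat.card C[a] := fun hd => by
    haveI := Fact.mk hq
    obtain ⟨y, hy⟩ := exists_prime_orderOf_dvd_card' q hd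
    refine nse_ne_zero.2 ⟨a * y, ?_⟩ h0
    have hcm : Commute a y := (mem_cen1.1 y.2).symm
    have h1 : orderOf a = m := ha.2
    rw [hcm.orderOf_mul_eq_mul_orderOf_of_coprime (by rw [h1, orderOf_coe, hy]; exact hc), h1,
      orderOf_coe, hy]
  rw [← card_mul_index C[a]] at hb
  exact (Nat.Coprime.pow_left b ((Nat.Prime.coprime_iff_not_dvd hq).2 hn)).dvd_of_dvd_mul_left hb

theorem free_dvd' {q : ℕ} (b m : ℕ) (hq : q.Prime)
    (hb : q ^ b ∣ Nat.card G) (hc : m.Coprime q) (h0 : nse G (m * q) = 0) : q ^ b ∣ nse G m :=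
  cnt_top (G := G) m ▸ free_dvd ⊤ b m hq hb hc h0

theorem syl_count {p : ℕ} (a : ℕ) (hp : p.Prime) (h1 : p ^ a ∣ Nat.card G)
    (h2 : ¬ p ^ (a + 1) ∣ Nat.card G) :
    ∃ n, n ∣ Nat.card G ∧ n % p = 1 ∧ (∀ k, p.Coprime k → n ∣ nse G (p ^ a * k)) ∧
      (nse G (p ^ a) ≠ 0 → nse G (p ^ a) = (p ^ a).totient * n) ∧
      ∑ e ∈ (p ^ a).divisors, nse G e ≤ p ^ a * n := by
  haveI := Fact.mk hp
  have hf : (Nat.card G).factorization p = a := by
    have h0 : Nat.card G ≠ 0 := Nat.card_pos.ne'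
    rw [hp.pow_dvd_iff_le_factorization h0] at h1 h2
    omega
  have hT : ∀ P : Subgroup G, Syl p P ⊤ ↔ Nat.card P = p ^ a := fun P => by
    rw [syl_top_iff hp]
    exact ⟨fun ⟨T, e⟩ => by rw [← e, T.card_eq_multiplicity, hf],
      fun h => ⟨Sylow.ofCard P (by rw [h, hf]), rfl⟩⟩
  have hn : {P : Subgroup G | Syl p P ⊤}.ncard = Nat.card (Sylow p G) := by
    rw [← Nat.card_range_of_injective (f := fun T : Sylow p G => (T : Subgroup G))
      (fun _ _ h => Sylow.ext h), Nat.card_coe_set_eq]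
    congr 1
    ext P
    exact syl_top_iff hp
  obtain ⟨P0, hP0⟩ := exists_syl p (⊤ : Subgroup G)
  refine ⟨{P : Subgroup G | Syl p P ⊤}.ncard, ?_, ?_, fun k hk => ?_, fun h => ?_, ?_⟩
  · rw [hn]
    obtain ⟨T⟩ : Nonempty (Sylow p G) := inferInstance
    exact T.card_dvd_index.trans (index_dvd_card _)
  · rw [hn]
    exact Eq.trans (card_sylow_modEq_one p G) (Nat.mod_eq_of_lt hp.one_lt)
  · have hk0 : k ≠ 0 := by
      rintro rfl
      exact hp.one_lt.ne' ((Nat.coprime_zero_right p).1 hk)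
    refine Dvd.intro_left _ (H28.ncard_eq_mul_of_fibers (s := {x : G | orderOf x = p ^ a * k})
      (fun x => ⟪x ^ k⟫) (fun x hx => (hT _).2 ?_)
      (n := {x | x ∈ {x : G | orderOf x = p ^ a * k} ∧ ⟪x ^ k⟫ = P0}.ncard) fun P hP => ?_).symm
    · have hx' : orderOf x = p ^ a * k := hx
      rw [card_zpowers', orderOf_pow_of_dvd hk0 (hx' ▸ dvd_mul_left _ _), hx',
        Nat.mul_div_cancel _ (Nat.pos_of_ne_zero hk0)]
    · obtain ⟨g, -, rfl⟩ := hP0.syl_trans hP
      rw [← Set.ncard_image_of_injective {x | x ∈ {x : G | orderOf x = p ^ a * k} ∧ ⟪x ^ k⟫ = P0}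
        (MulAut.conj g).injective]
      congr 1
      ext x
      constructor
      · rintro ⟨h3, h4⟩
        refine ⟨g⁻¹ * x * g⁻¹⁻¹, ⟨?_, ?_⟩, by simp [mul_assoc]⟩
        · show orderOf _ = _
          rw [orderOf_conj]
          exact h3
        · rw [conj_pow, ← cj_zpowers, h4, cj_inv_cj]
      · rintro ⟨y, ⟨h3, h4⟩, rfl⟩
        refine ⟨?_, ?_⟩
        · show orderOf (g * y * g⁻¹) = _
          rw [orderOf_conj]
          exact h3
        · show ⟪(g * y * g⁻¹) ^ k⟫ = _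
          rw [conj_pow, ← cj_zpowers, h4]
  · obtain ⟨x, hx⟩ := nse_ne_zero.1 h
    have h3 := ncard_eq_totient_mul (S := {x : G | orderOf x = p ^ a}) (fun _ h => h) fun x hx y e => by
      show orderOf y = _
      rw [← card_zpowers', e, card_zpowers']; exact hx
    refine h3.trans ?_
    congr 2
    ext P
    constructor
    · rintro ⟨y, hy, rfl⟩
      exact (hT _).2 ((card_zpowers' y).trans hy)
    · intro hP
      obtain ⟨g, -, rfl⟩ := ((hT ⟪x⟫).2 ((card_zpowers' x).trans hx)).syl_trans hP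
      exact ⟨g * x * g⁻¹, (orderOf_conj g x).trans hx, (cj_zpowers g x).symm⟩
  · rw [nse_sum (pow_ne_zero a hp.ne_zero)]
    have h3 : ∀ x : G, ∃ P : Subgroup G, x ^ p ^ a = 1 → Syl p P ⊤ ∧ x ∈ P := fun x => by
      by_cases hx : x ^ p ^ a = 1
      · have h4 : PGrp p ⟪x⟫ := fun r hr hd => by
          rw [card_zpowers'] at hd
          exact (Nat.prime_dvd_prime_iff_eq hr hp).1
            (hr.dvd_of_dvd_pow (hd.trans (orderOf_dvd_of_pow_eq_one hx)))
        obtain ⟨P, h5, h6⟩ := h4.exists_syl (le_top (a := ⟪x⟫))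
        exact ⟨P, fun _ => ⟨h5, h6 (mem_zpowers x)⟩⟩
      · exact ⟨⊥, fun h => absurd h hx⟩
    choose f hf' using h3
    refine H28.ncard_le_mul_of_fibers (s := {x : G | x ^ p ^ a = 1}) f (fun x hx => (hf' x hx).1)
      fun P hP => ?_
    refine le_trans ?_ ((hT P).1 hP).le
    exact Set.ncard_le_ncard (t := (P : Set G)) (fun x hx => hx.2 ▸ (hf' x hx.1).2) (Set.toFinite _)

theorem sum_list (d : ℕ) (l : List ℕ) (h : l.Nodup ∧ d.divisors = l.toFinset) (f : ℕ → ℕ) :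
    ∑ e ∈ d.divisors, f e = (l.map f).sum := by
  rw [h.2, List.sum_toFinset f h.1]

theorem frobL (d : ℕ) (l : List ℕ) (h : l.Nodup ∧ d.divisors = l.toFinset) (hd : d ∣ Nat.card G) :
    d ∣ (l.map (nse G)).sum := sum_list d l h _ ▸ nse_frob hd

theorem total {d : ℕ} (hd : d ≠ 0) (h : ∀ g : G, orderOf g ∣ d) :
    Nat.card G = ∑ e ∈ d.divisors, nse G e := by
  rw [nse_sum hd]
  exact (Nat.card_congr (Equiv.subtypeUnivEquiv fun g => orderOf_dvd_iff_pow_eq_one.1 (h g))).symm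

theorem totalL (d : ℕ) (l : List ℕ) (h : d ≠ 0 ∧ l.Nodup ∧ d.divisors = l.toFinset)
    (hd : ∀ g : G, orderOf g ∣ d) : Nat.card G = (l.map (nse G)).sum :=
  sum_list d l h.2 _ ▸ total h.1 hd

theorem tot (n k : ℕ) (h : n.totient = k) : k ∣ nse G n := h ▸ totient_dvd_nse n

theorem lower (V : Finset ℕ) (hV : ∀ v ∈ V, v ≠ 0 ∧ ∃ m, nse G m = v) : ∑ v ∈ V, v ≤ Nat.card G := by
  classical
  have h1 : ∀ v, ∃ m, v ∈ V → nse G m = v := fun v => by
    by_cases h : v ∈ V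
    · obtain ⟨m, hm⟩ := (hV v h).2
      exact ⟨m, fun _ => hm⟩
    · exact ⟨0, fun h' => absurd h' h⟩
  choose f hf using h1
  rw [total Nat.card_pos.ne' orderOf_dvd_natCard, Finset.sum_congr rfl fun v hv => (hf v hv).symm,
    ← Finset.sum_image (g := f) (f := nse G) fun v hv w hw e => by rw [← hf v hv, ← hf w hw, e]]
  refine Finset.sum_le_sum_of_subset fun m hm => ?_
  obtain ⟨v, hv, rfl⟩ := Finset.mem_image.1 hm
  exact Nat.mem_divisors.2 ⟨dvd_of_ne (by rw [hf v hv]; exact (hV v hv).1), Nat.card_pos.ne'⟩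

theorem dvd_235 {N : ℕ} (a b c : ℕ) (h : ∀ p, p.Prime → p ∣ N → p = 2 ∨ p = 3 ∨ p = 5)
    (h2 : ¬ 2 ^ (a + 1) ∣ N) (h3 : ¬ 3 ^ (b + 1) ∣ N) (h5 : ¬ 5 ^ (c + 1) ∣ N) :
    N ∣ 2 ^ a * 3 ^ b * 5 ^ c := by
  rw [Nat.dvd_iff_prime_pow_dvd_dvd]
  intro p k hp hk
  rcases Nat.eq_zero_or_pos k with rfl | hk0
  · exact one_dvd _
  have key : ∀ q j : ℕ, ¬ q ^ (j + 1) ∣ N → q ^ k ∣ N → q ^ k ∣ q ^ j := fun q j h1 h2 =>
    pow_dvd_pow q (by
      by_contra h3
      exact h1 ((pow_dvd_pow q (by omega)).trans h2))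
  rcases h p hp ((dvd_pow_self p hk0.ne').trans hk) with rfl | rfl | rfl
  · exact ((key _ _ h2 hk).mul_right _).mul_right _
  · exact ((key _ _ h3 hk).mul_left _).mul_right _
  · exact (key _ _ h5 hk).mul_left _

theorem two_of_odd {v : ℕ} (h : ∃ m, nse G m = v) (h1 : v % 2 = 1) (h2 : v ≠ 1) : nse G 2 = v := by
  obtain ⟨m, hm⟩ := h
  have h3 := nse_zero (G := G)
  have h4 := nse_one (G := G)
  rcases Nat.lt_or_ge 2 m with h5 | h5
  · have := even_nse (G := G) h5
    omega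
  · interval_cases m
    · omega
    · omega
    · exact hm

theorem code_eq {A : Type*} [Group A] [DecidableEq A] [Finite A] (g : A) :
    code g = if orderOf g ≤ 5 then orderOf g else 0 := by
  have e1 : g = 1 ↔ orderOf g ∣ 1 := by rw [orderOf_dvd_iff_pow_eq_one, pow_one]
  have e2 : g * g = 1 ↔ orderOf g ∣ 2 := by rw [orderOf_dvd_iff_pow_eq_one, pow_two]
  have e3 : g * g * g = 1 ↔ orderOf g ∣ 3 := by rw [orderOf_dvd_iff_pow_eq_one, pow_three, mul_assoc]
  have e4 : g * g * g * g = 1 ↔ orderOf g ∣ 4 := by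
    rw [orderOf_dvd_iff_pow_eq_one, pow_succ, pow_three, mul_assoc g g g]
  have e5 : g * g * g * g * g = 1 ↔ orderOf g ∣ 5 := by
    rw [orderOf_dvd_iff_pow_eq_one, pow_succ, pow_succ, pow_three, mul_assoc g g g]
  have h0 := orderOf_pos g
  simp only [code, e1, e2, e3, e4, e5]
  generalize orderOf g = o at h0
  by_cases h : o ≤ 5
  · interval_cases o <;> decide
  · have k : ∀ j, 0 < j → j ≤ 5 → ¬ o ∣ j := fun j h1 h2 h3 => by
      have := Nat.le_of_dvd h1 h3
      omega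
    rw [if_neg (k 1 (by omega) (by omega)), if_neg (k 2 (by omega) (by omega)),
      if_neg (k 3 (by omega) (by omega)), if_neg (k 4 (by omega) (by omega)),
      if_neg (k 5 (by omega) (by omega)), if_neg h]

theorem counts_eq (A : Type*) [Group A] [DecidableEq A] [Fintype A] :
    ∃ c, counts A = c + nse A 1 * 1000 + nse A 2 * 1000 ^ 2 + nse A 3 * 1000 ^ 3 + nse A 4 * 1000 ^ 4 +
      nse A 5 * 1000 ^ 5 ∧ c ≤ Nat.card A ∧ (c = 0 → ∀ m, 5 < m → nse A m = 0) := by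
  have h1 : ∀ g : A, code g ∈ Finset.range 6 := fun g => by
    rw [code_eq, Finset.mem_range]
    split_ifs <;> omega
  have h2 : ∀ k, 0 < k → k ≤ 5 → (Finset.univ.filter fun g : A => code g = k).card = nse A k := by
    intro k h3 h4
    rw [nse, Nat.card_eq_fintype_card, Fintype.card_subtype]
    congr 1
    ext g
    simp only [Finset.mem_filter, Finset.mem_univ, true_and, code_eq]
    split_ifs <;> omega
  refine ⟨(Finset.univ.filter fun g : A => code g = 0).card, ?_, ?_, fun h m hm => ?_⟩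
  · rw [counts, ← Finset.sum_fiberwise_of_maps_to (t := Finset.range 6) (g := code) fun g _ => h1 g,
      Finset.sum_congr rfl (g := fun k => (Finset.univ.filter fun g : A => code g = k).card * 1000 ^ k)]
    · simp only [Finset.sum_range_succ, Finset.sum_range_zero]
      rw [h2 1 (by omega) (by omega), h2 2 (by omega) (by omega), h2 3 (by omega) (by omega),
        h2 4 (by omega) (by omega), h2 5 (by omega) (by omega)]
      ring
    · intro k _
      rw [Finset.sum_congr rfl (g := fun _ => 1000 ^ k), Finset.sum_const, smul_eq_mul]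
      intro g hg
      rw [(Finset.mem_filter.1 hg).2]
  · rw [Nat.card_eq_fintype_card]
    exact Finset.card_le_univ _
  · by_contra h3
    obtain ⟨g, hg⟩ := nse_ne_zero.1 h3
    refine Finset.card_ne_zero_of_mem (a := g) ?_ h
    rw [Finset.mem_filter, code_eq, if_neg (by omega)]
    exact ⟨Finset.mem_univ _, rfl⟩

theorem nse_le (m : ℕ) : nse G m ≤ Nat.card G :=
  Nat.card_le_card_of_injective _ Subtype.val_injective

/-- the set of the numbers of elements of the same order -/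
def NS (G : Type*) [Group G] : Set ℕ := nse G '' Set.range (orderOf : G → ℕ)

theorem mem_NS {v : ℕ} : v ∈ NS G ↔ v ≠ 0 ∧ ∃ m, nse G m = v := by
  constructor
  · rintro ⟨m, hm, rfl⟩
    exact ⟨nse_ne_zero.2 hm, m, rfl⟩
  · rintro ⟨h, m, rfl⟩
    exact ⟨m, nse_ne_zero.1 h, rfl⟩

theorem of_NS {A : Type*} [Group A] [Finite A] (h : NS G = NS A) (h6 : ∀ m, 5 < m → nse A m = 0) :
    (∀ m, nse G m = 0 ∨ nse G m = 1 ∨ nse G m = nse A 2 ∨ nse G m = nse A 3 ∨ nse G m = nse A 4 ∨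
      nse G m = nse A 5) ∧ ∀ k, nse A k ≠ 0 → ∃ m, nse G m = nse A k := by
  refine ⟨fun m => ?_, fun k hk => ?_⟩
  · by_cases h0 : nse G m = 0
    · exact Or.inl h0
    have h1 : nse G m ∈ NS A := h ▸ mem_NS.2 ⟨h0, m, rfl⟩
    obtain ⟨-, k, hk⟩ := mem_NS.1 h1
    have h2 := nse_zero (G := A)
    have h3 := nse_one (G := A)
    rcases Nat.lt_or_ge 5 k with h5 | h5
    · have := h6 k h5
      omega
    · interval_cases k <;> omega
  · have h1 : nse A k ∈ NS G := h ▸ mem_NS.2 ⟨hk, k, rfl⟩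
    exact (mem_NS.1 h1).2

end Cfsg.Agent.H3.Nse
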