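import Cfsg.Agent.H3.NseB
import Cfsg.Agent.H10.SmallId
import Cfsg.Agent.S0494
import Cfsg.Agent.S0497

/-!
Recognition of `A₄`, `A₅`, `A₆` by the set of numbers of elements of the same order.
-/

set_option autoImplicit false

namespace Cfsg.Agent.H3.Nse

open Cfsg Subgroup Cfsg.Agent.FT Cfsg.Agent.H27

variable {G : Type*} [Group G] [Finite G]

theorem simple_of (hN : 1 < Nat.card G)
    (h : ∀ K : Subgroup G, K.Normal → Nat.card K = 1 ∨ Nat.card K = Nat.card G) : IsSimpleGroup G := by
  haveI : Nontrivial G := Finite.one_lt_card_iff_nontrivial.1 hN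
  refine ⟨fun K hK => ?_⟩
  rcases h K hK with h | h
  · exact Or.inl (card_eq_one.1 h)
  · exact Or.inr ((card_eq_iff_eq_top K).1 h)

theorem prime_facts {p : ℕ} (hp : p.Prime) (hd : p ∣ Nat.card G) (h2 : p ≠ 2) :
    nse G p ≠ 0 ∧ 2 ∣ nse G p ∧ p ∣ 1 + nse G p ∧ p - 1 ∣ nse G p :=
  ⟨ne_zero_prime hp hd, even_nse (lt_of_le_of_ne hp.two_le h2.symm), nse_prime hp hd,
    Nat.totient_prime hp ▸ totient_dvd_nse p⟩

/-! ### `A₄` -/

theorem rec4 (h : ∀ m, nse G m = 0 ∨ nse G m = 1 ∨ nse G m = 3 ∨ nse G m = 8)
    (h3 : ∃ m, nse G m = 3) (h8 : ∃ m, nse G m = 8) :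
    Nonempty (G ≃* alternatingGroup (Fin 4)) := by
  have s2 := two_of_odd h3 rfl (by omega)
  have big : ∀ m, 2 < m → nse G m = 0 ∨ nse G m = 8 := fun m hm => by
    have := h m
    have := even_nse (G := G) hm
    omega
  have low : 12 ≤ Nat.card G := lower {1, 3, 8} (by
    simp only [Finset.mem_insert, Finset.mem_singleton]
    rintro v (rfl | rfl | rfl)
    exacts [⟨by omega, 1, nse_one⟩, ⟨by omega, h3⟩, ⟨by omega, h8⟩])
  have key : ∀ p, p.Prime → p ∣ Nat.card G → p = 2 ∨ p = 3 := fun p hp hd => by
    by_cases h2 : p = 2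
    · exact Or.inl h2
    obtain ⟨a1, a2, a3, a4⟩ := prime_facts hp hd h2
    have e : nse G p = 8 := by have := h p; omega
    rw [e] at a3
    exact Or.inr ((Nat.prime_dvd_prime_iff_eq hp Nat.prime_three).1
      (hp.dvd_of_dvd_pow (n := 2) a3))
  have b4 := big 4 (by omega)
  have b8 := big 8 (by omega)
  have b3 := big 3 (by omega)
  have b6 := big 6 (by omega)
  have n8 : ¬ 2 ^ (2 + 1) ∣ Nat.card G := fun hd => by
    have := frobL 8 [1, 2, 4, 8] (by decide) hd
    simp only [List.map_cons, List.map_nil, List.sum_cons, List.sum_nil, nse_one] at this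
    omega
  have s4 : nse G 4 = 0 := by
    by_contra h4
    obtain ⟨n, -, a2, -, a4, -⟩ := syl_count 2 Nat.prime_two (dvd_of_ne h4) n8
    have := a4 h4
    rw [show Nat.totient (2 ^ 2) = 2 by decide +kernel, show 2 ^ 2 = 4 from rfl] at this
    omega
  have s9 : nse G 9 = 0 := by
    have := big 9 (by omega)
    have := tot (G := G) 9 6 (by decide +kernel)
    omega
  have n27 : ¬ 3 ^ (2 + 1) ∣ Nat.card G := fun hd => by
    have := frobL 27 [1, 3, 9, 27] (by decide +kernel) hd
    simp only [List.map_cons, List.map_nil, List.sum_cons, List.sum_nil, nse_one] at this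
    have := zero_of_dvd (m := 27) s9 (by norm_num)
    omega
  have n5 : ¬ 5 ^ (0 + 1) ∣ Nat.card G := fun hd => by
    have := key 5 Nat.prime_five hd
    omega
  have hN : Nat.card G ∣ 36 := dvd_235 2 2 0 (fun p hp hd => by have := key p hp hd; omega) n8 n27 n5
  have ho : ∀ g : G, orderOf g ∣ 6 := fun g =>
    (by decide +kernel : ∀ o ∈ Nat.divisors 36, ¬ 4 ∣ o → ¬ 9 ∣ o → o ∣ 6) _
      (Nat.mem_divisors.2 ⟨(orderOf_dvd_natCard g).trans hN, by omega⟩) (nd s4 g) (nd s9 g)
  have ht := totalL 6 [1, 2, 3, 6] (by decide) ho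
  simp only [List.map_cons, List.map_nil, List.sum_cons, List.sum_nil, nse_one] at ht
  have h12 : Nat.card G = 12 := by
    have h1 : Nat.card G = 12 ∨ Nat.card G = 20 := by omega
    rcases h1 with h1 | h1
    · exact h1
    · rw [h1] at hN
      omega
  have s6 : nse G 6 = 0 := by
    by_contra h6
    have : nse G 3 ≠ 0 := fun h => h6 (zero_of_dvd h (by norm_num))
    omega
  have ho' : ∀ g : G, orderOf g ∈ [1, 2, 3] := fun g =>
    (by decide : ∀ o ∈ Nat.divisors 6, ¬ 6 ∣ o → o ∈ [1, 2, 3]) _
      (Nat.mem_divisors.2 ⟨ho g, by omega⟩) (nd s6 g)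
  refine H10.NoCycNormal.equiv_A4 (fun K hK hc => ?_) h12
  have c1 := card_eq_sum K [1, 2, 3] (by decide) ho'
  simp only [List.map_cons, List.map_nil, List.sum_cons, List.sum_nil, cnt_one] at c1
  have c2 := free_dvd K 1 2 Nat.prime_three (by rw [h12]; norm_num) (by norm_num) s6
  have c3 := free_dvd K 2 3 Nat.prime_two (by rw [h12]; norm_num) (by norm_num) s6
  have c4 := cnt_le (K : Set G) 2
  have c5 := cnt_le (K : Set G) 3
  obtain ⟨x, hx⟩ := IsCyclic.exists_ofOrder_eq_natCard (α := K)
  have c6 := ho' x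
  rw [orderOf_coe, hx] at c6
  simp only [List.mem_cons, List.not_mem_nil, or_false] at c6
  refine card_eq_one.1 ?_
  omega

/-! ### `A₅` -/

theorem rec5 (h : ∀ m, nse G m = 0 ∨ nse G m = 1 ∨ nse G m = 15 ∨ nse G m = 20 ∨ nse G m = 24)
    (h15 : ∃ m, nse G m = 15) (h20 : ∃ m, nse G m = 20) (h24 : ∃ m, nse G m = 24) :
    Nonempty (G ≃* alternatingGroup (Fin 5)) := by
  have s2 := two_of_odd h15 rfl (by omega)
  have d2 : 2 ∣ Nat.card G := dvd_of_ne (by omega)
  have big : ∀ m, 2 < m → nse G m = 0 ∨ nse G m = 20 ∨ nse G m = 24 := fun m hm => by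
    have := h m
    have := even_nse (G := G) hm
    omega
  have low : 60 ≤ Nat.card G := lower {1, 15, 20, 24} (by
    simp only [Finset.mem_insert, Finset.mem_singleton]
    rintro v (rfl | rfl | rfl | rfl)
    exacts [⟨by omega, 1, nse_one⟩, ⟨by omega, h15⟩, ⟨by omega, h20⟩, ⟨by omega, h24⟩])
  have key : ∀ p, p.Prime → p ∣ Nat.card G →
      p = 2 ∨ (p = 3 ∧ nse G 3 = 20) ∨ (p = 5 ∧ nse G 5 = 24) := fun p hp hd => by
    by_cases h2 : p = 2
    · exact Or.inl h2
    obtain ⟨a1, a2, a3, a4⟩ := prime_facts hp hd h2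
    have e : nse G p = 20 ∨ nse G p = 24 := by have := h p; omega
    rcases e with e | e
    · rw [e] at a3 a4
      have := (by decide +kernel : ∀ p < 30, p ∣ 1 + 20 → p - 1 ∣ 20 → p = 3 ∨ p = 21) p
        (by have := Nat.le_of_dvd (by omega) a3; omega) a3 a4
      rcases this with rfl | rfl
      · exact Or.inr (Or.inl ⟨rfl, e⟩)
      · norm_num at hp
    · rw [e] at a3 a4
      have := (Nat.prime_dvd_prime_iff_eq hp Nat.prime_five).1 (hp.dvd_of_dvd_pow (n := 2) a3)
      subst this
      exact Or.inr (Or.inr ⟨rfl, e⟩)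
  have key' : ∀ p, p.Prime → p ∣ Nat.card G → p = 2 ∨ p = 3 ∨ p = 5 := fun p hp hd => by
    have := key p hp hd
    omega
  have h60 : Nat.card G = 60 ∧ nse G 3 = 20 ∧ nse G 5 = 24 ∧ nse G 6 = 0 ∧ nse G 15 = 0 := by
    by_cases d3 : 3 ∣ Nat.card G
    · have s3 : nse G 3 = 20 := by have := key 3 Nat.prime_three d3; omega
      have n9 : ¬ 3 ^ (1 + 1) ∣ Nat.card G := fun d9 => by
        have a1 := frobL 9 [1, 3, 9] (by decide) d9
        simp only [List.map_cons, List.map_nil, List.sum_cons, List.sum_nil, nse_one] at a1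
        have a2 := big 9 (by omega)
        have n27 : ¬ 3 ^ (2 + 1) ∣ Nat.card G := fun hd => by
          have a3 := frobL 27 [1, 3, 9, 27] (by decide +kernel) hd
          simp only [List.map_cons, List.map_nil, List.sum_cons, List.sum_nil, nse_one] at a3
          have := big 27 (by omega)
          have := tot (G := G) 27 18 (by decide +kernel)
          omega
        obtain ⟨n, -, -, -, a4, a5⟩ := syl_count 2 Nat.prime_three d9 n27
        rw [show 3 ^ 2 = 9 from rfl] at a4 a5
        rw [sum_list 9 [1, 3, 9] (by decide)] at a5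
        simp only [List.map_cons, List.map_nil, List.sum_cons, List.sum_nil, nse_one] at a5
        have := a4 (by omega)
        rw [show Nat.totient 9 = 6 by decide +kernel] at this
        omega
      obtain ⟨n, a1, -, a3, a4, -⟩ := syl_count 1 Nat.prime_three d3 n9
      rw [show 3 ^ 1 = 3 from rfl] at a3 a4
      have a5 := a4 (by omega)
      rw [show Nat.totient 3 = 2 by decide +kernel] at a5
      have hn : n = 10 := by omega
      subst hn
      have d5 : 5 ∣ Nat.card G := Dvd.dvd.trans (by norm_num) a1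
      have s5 : nse G 5 = 24 := by have := key 5 Nat.prime_five d5; omega
      have s6 : nse G 6 = 0 := by
        have b1 : 10 ∣ nse G 6 := a3 2 (by norm_num)
        have b2 := frobL 6 [1, 2, 3, 6] (by decide) (show 6 ∣ Nat.card G by omega)
        simp only [List.map_cons, List.map_nil, List.sum_cons, List.sum_nil, nse_one] at b2
        have := big 6 (by omega)
        omega
      have s15 : nse G 15 = 0 := by
        have b1 : 10 ∣ nse G 15 := a3 5 (by norm_num)
        have := tot (G := G) 15 8 (by decide +kernel)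
        have := big 15 (by omega)
        omega
      have n8 : ¬ 2 ^ (2 + 1) ∣ Nat.card G := fun hd => by
        have := free_dvd' 3 3 Nat.prime_two hd (by norm_num) s6
        omega
      have n25 : ¬ 5 ^ (1 + 1) ∣ Nat.card G := fun hd => by
        have := free_dvd' 2 3 Nat.prime_five hd (by norm_num) s15
        omega
      have hN : Nat.card G ∣ 60 := dvd_235 2 1 1 key' n8 n9 n25
      exact ⟨le_antisymm (Nat.le_of_dvd (by omega) hN) low, s3, s5, s6, s15⟩
    · exfalso
      have s3 : nse G 3 = 0 := zero_of_not_dvd d3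
      have s25 : nse G 25 = 0 := by
        by_contra h25
        have d25 := dvd_of_ne h25
        have s5 : nse G 5 = 24 := by have := key 5 Nat.prime_five (by omega); omega
        have a1 := frobL 25 [1, 5, 25] (by decide +kernel) d25
        simp only [List.map_cons, List.map_nil, List.sum_cons, List.sum_nil, nse_one] at a1
        have := big 25 (by omega)
        omega
      have s32 : nse G 32 = 0 := by
        have := tot (G := G) 32 16 (by decide +kernel)
        have := big 32 (by omega)
        omega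
      have s40 : nse G 40 = 0 := by
        have := tot (G := G) 40 16 (by decide +kernel)
        have := big 40 (by omega)
        omega
      have s80 := zero_of_dvd (m := 80) s40 (by norm_num)
      have ho : ∀ g : G, orderOf g ∣ 80 := fun g =>
        dvd_235 4 0 1 (fun p hp hd => key' p hp (hd.trans (orderOf_dvd_natCard g))) (nd s32 g) (nd s3 g)
          (nd s25 g)
      have ht := totalL 80 [1, 2, 4, 5, 8, 10, 16, 20, 40, 80] (by decide +kernel) ho
      simp only [List.map_cons, List.map_nil, List.sum_cons, List.sum_nil, nse_one] at ht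
      have b4 := big 4 (by omega)
      have b5 := big 5 (by omega)
      have b8 := big 8 (by omega)
      have b10 := big 10 (by omega)
      have b16 := big 16 (by omega)
      have b20 := big 20 (by omega)
      have up : Nat.card G ≤ 160 := by omega
      have n125 : ¬ 5 ^ (2 + 1) ∣ Nat.card G := fun hd => by
        have := Nat.le_of_dvd (by omega) hd
        omega
      have n256 : ¬ 2 ^ (7 + 1) ∣ Nat.card G := fun hd => by
        have := Nat.le_of_dvd (by omega) hd
        omega
      have hN : Nat.card G ∣ 3200 := dvd_235 7 0 2 key' n256 d3 n125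
      have n5 : 5 ∣ Nat.card G → 25 ∣ Nat.card G := fun d5 => by
        by_contra n25
        have s5 : nse G 5 = 24 := by have := key 5 Nat.prime_five d5; omega
        obtain ⟨n, a1, -, -, a4, -⟩ := syl_count 1 Nat.prime_five d5 n25
        rw [show 5 ^ 1 = 5 from rfl] at a4
        have a5 := a4 (by omega)
        rw [show Nat.totient 5 = 4 by decide +kernel] at a5
        have hn : n = 6 := by omega
        subst hn
        omega
      have t16 := tot (G := G) 16 8 (by decide +kernel)
      have t20 := tot (G := G) 20 8 (by decide +kernel)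
      have hc : Nat.card G ∈ [64, 80, 100, 128, 160] :=
        (by decide +kernel : ∀ N < 161, 60 ≤ N → N ∣ 3200 → N ∈ [64, 80, 100, 128, 160]) _
          (by omega) low hN
      simp only [List.mem_cons, List.not_mem_nil, or_false] at hc
      rcases (show Nat.card G = 64 ∨ Nat.card G = 128 ∨ Nat.card G = 100 by omega) with e | e | e
      · have s5 : nse G 5 = 0 := zero_of_not_dvd (by omega)
        have s10 : nse G 10 = 0 := zero_of_not_dvd (by omega)
        have s20 : nse G 20 = 0 := zero_of_not_dvd (by omega)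
        obtain ⟨m, hm⟩ := h20
        obtain ⟨g, rfl⟩ := nse_ne_zero.1 (show nse G m ≠ 0 by omega)
        have := (by decide +kernel : ∀ o ∈ Nat.divisors 80, ¬ 5 ∣ o →
          o = 1 ∨ o = 2 ∨ o = 4 ∨ o = 8 ∨ o = 16) _ (Nat.mem_divisors.2 ⟨ho g, by omega⟩) (nd s5 g)
        have s1 := nse_one (G := G)
        rcases this with a | a | a | a | a <;> rw [a] at hm <;> omega
      · have s5 : nse G 5 = 0 := zero_of_not_dvd (by omega)
        have s10 : nse G 10 = 0 := zero_of_not_dvd (by omega)
        have s20 : nse G 20 = 0 := zero_of_not_dvd (by omega)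
        omega
      · have s8 : nse G 8 = 0 := zero_of_not_dvd (by omega)
        have s16 : nse G 16 = 0 := zero_of_not_dvd (by omega)
        have s5 : nse G 5 = 24 := by have := key 5 Nat.prime_five (by omega); omega
        omega
  obtain ⟨h60, s3, s5, s6, s15⟩ := h60
  have ht := totalL 60 [1, 2, 3, 4, 5, 6, 10, 12, 15, 20, 30, 60] (by decide +kernel)
    fun g : G => h60 ▸ orderOf_dvd_natCard g
  simp only [List.map_cons, List.map_nil, List.sum_cons, List.sum_nil, nse_one] at ht
  have s4 : nse G 4 = 0 := by omega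
  have s10 : nse G 10 = 0 := by omega
  have ho' : ∀ g : G, orderOf g ∈ [1, 2, 3, 5] := fun g =>
    (by decide +kernel : ∀ o ∈ Nat.divisors 60, ¬ 4 ∣ o → ¬ 6 ∣ o → ¬ 10 ∣ o → ¬ 15 ∣ o →
      o ∈ [1, 2, 3, 5]) _ (Nat.mem_divisors.2 ⟨h60 ▸ orderOf_dvd_natCard g, by omega⟩) (nd s4 g)
      (nd s6 g) (nd s10 g) (nd s15 g)
  haveI : IsSimpleGroup G := simple_of (by omega) fun K hK => by
    have c1 := card_eq_sum K [1, 2, 3, 5] (by decide) ho'
    simp only [List.map_cons, List.map_nil, List.sum_cons, List.sum_nil, cnt_one] at c1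
    have c2 := free_dvd K 1 2 Nat.prime_three (by rw [h60]; norm_num) (by norm_num) s6
    have c3 := free_dvd K 1 2 Nat.prime_five (by rw [h60]; norm_num) (by norm_num) s10
    have c4 := free_dvd K 2 3 Nat.prime_two (by rw [h60]; norm_num) (by norm_num) s6
    have c5 := free_dvd K 1 3 Nat.prime_five (by rw [h60]; norm_num) (by norm_num) s15
    have c6 := free_dvd K 2 5 Nat.prime_two (by rw [h60]; norm_num) (by norm_num) s10
    have c7 := free_dvd K 1 5 Nat.prime_three (by rw [h60]; norm_num) (by norm_num) s15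
    have c8 := cnt_le (K : Set G) 2
    have c9 := cnt_le (K : Set G) 3
    have c10 := cnt_le (K : Set G) 5
    have c11 := card_subgroup_dvd_card K
    have e2 : cnt (K : Set G) 2 = 0 ∨ cnt (K : Set G) 2 = 15 := by omega
    have e3 : cnt (K : Set G) 3 = 0 ∨ cnt (K : Set G) 3 = 20 := by omega
    have e5 : cnt (K : Set G) 5 = 0 ∨ cnt (K : Set G) 5 = 12 ∨ cnt (K : Set G) 5 = 24 := by omega
    rw [h60] at c11 ⊢
    rw [c1] at c11 ⊢
    rcases e2 with e2 | e2 <;> rcases e3 with e3 | e3 <;> rcases e5 with e5 | e5 | e5 <;>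
      rw [e2, e3, e5] at c11 ⊢ <;> omega
  exact S0494.result h60

/-! ### `A₆` -/

theorem rec6 (h : ∀ m, nse G m = 0 ∨ nse G m = 1 ∨ nse G m = 45 ∨ nse G m = 80 ∨ nse G m = 90 ∨
      nse G m = 144)
    (h45 : ∃ m, nse G m = 45) (h80 : ∃ m, nse G m = 80) (h90 : ∃ m, nse G m = 90)
    (h144 : ∃ m, nse G m = 144) : Nonempty (G ≃* alternatingGroup (Fin 6)) := by
  have s2 := two_of_odd h45 rfl (by omega)
  have d2 : 2 ∣ Nat.card G := dvd_of_ne (by omega)
  have big : ∀ m, 2 < m → nse G m = 0 ∨ nse G m = 80 ∨ nse G m = 90 ∨ nse G m = 144 := fun m hm => by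
    have := h m
    have := even_nse (G := G) hm
    omega
  have low : 360 ≤ Nat.card G := lower {1, 45, 80, 90, 144} (by
    simp only [Finset.mem_insert, Finset.mem_singleton]
    rintro v (rfl | rfl | rfl | rfl | rfl)
    exacts [⟨by omega, 1, nse_one⟩, ⟨by omega, h45⟩, ⟨by omega, h80⟩, ⟨by omega, h90⟩,
      ⟨by omega, h144⟩])
  have p7 : Nat.Prime 7 := by norm_num
  have key : ∀ p, p.Prime → p ∣ Nat.card G → p = 2 ∨ (p = 3 ∧ nse G 3 = 80) ∨
      (p = 5 ∧ nse G 5 = 144) ∨ (p = 7 ∧ nse G 7 = 90) := fun p hp hd => by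
    by_cases h2 : p = 2
    · exact Or.inl h2
    obtain ⟨a1, a2, a3, a4⟩ := prime_facts hp hd h2
    have e : nse G p = 80 ∨ nse G p = 90 ∨ nse G p = 144 := by have := h p; omega
    rcases e with e | e | e
    · rw [e] at a3 a4
      have := (Nat.prime_dvd_prime_iff_eq hp Nat.prime_three).1 (hp.dvd_of_dvd_pow (n := 4) a3)
      subst this
      exact Or.inr (Or.inl ⟨rfl, e⟩)
    · rw [e] at a3 a4
      have := (by decide +kernel : ∀ p < 100, p ∣ 1 + 90 → p - 1 ∣ 90 → p = 7 ∨ p = 91) p
        (by have := Nat.le_of_dvd (by omega) a3; omega) a3 a4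
      rcases this with rfl | rfl
      · exact Or.inr (Or.inr (Or.inr ⟨rfl, e⟩))
      · norm_num at hp
    · rw [e] at a3 a4
      have := (by decide +kernel : ∀ p < 150, p ∣ 1 + 144 → p - 1 ∣ 144 → p = 5 ∨ p = 145) p
        (by have := Nat.le_of_dvd (by omega) a3; omega) a3 a4
      rcases this with rfl | rfl
      · exact Or.inr (Or.inr (Or.inl ⟨rfl, e⟩))
      · norm_num at hp
  have b4 := big 4 (by omega)
  have b8 := big 8 (by omega)
  have s4 : 4 ∣ Nat.card G → nse G 4 = 90 := fun hd => by
    have a1 := frobL 4 [1, 2, 4] (by decide) hd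
    simp only [List.map_cons, List.map_nil, List.sum_cons, List.sum_nil, nse_one] at a1
    omega
  have n16 : ¬ 2 ^ (3 + 1) ∣ Nat.card G := fun hd => by
    have a0 := s4 (by omega)
    have a1 := frobL 8 [1, 2, 4, 8] (by decide) (show 8 ∣ Nat.card G by omega)
    have a2 := frobL 16 [1, 2, 4, 8, 16] (by decide +kernel) hd
    simp only [List.map_cons, List.map_nil, List.sum_cons, List.sum_nil, nse_one] at a1 a2
    have := big 16 (by omega)
    omega
  have h75 : 7 ∣ Nat.card G → 5 ∣ Nat.card G := fun d7 => by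
    have s7 : nse G 7 = 90 := by have := key 7 p7 d7; omega
    have n49 : ¬ 7 ^ (1 + 1) ∣ Nat.card G := fun hd => by
      have a1 := frobL 49 [1, 7, 49] (by decide +kernel) hd
      simp only [List.map_cons, List.map_nil, List.sum_cons, List.sum_nil, nse_one] at a1
      have := big 49 (by omega)
      have := tot (G := G) 49 42 (by decide +kernel)
      omega
    obtain ⟨n, a1, -, -, a4, -⟩ := syl_count 1 p7 d7 n49
    rw [show 7 ^ 1 = 7 from rfl] at a4
    have a5 := a4 (by omega)
    rw [show Nat.totient 7 = 6 by decide +kernel] at a5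
    have hn : n = 15 := by omega
    subst hn
    omega
  have h360 : Nat.card G = 360 ∧ nse G 3 = 80 ∧ nse G 5 = 144 := by
    by_cases d5 : 5 ∣ Nat.card G
    · have s5 : nse G 5 = 144 := by have := key 5 Nat.prime_five d5; omega
      have n25 : ¬ 5 ^ (1 + 1) ∣ Nat.card G := fun d25 => by
        have a1 := frobL 25 [1, 5, 25] (by decide +kernel) d25
        simp only [List.map_cons, List.map_nil, List.sum_cons, List.sum_nil, nse_one] at a1
        have a2 := big 25 (by omega)
        have n125 : ¬ 5 ^ (2 + 1) ∣ Nat.card G := fun hd => by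
          have a3 := frobL 125 [1, 5, 25, 125] (by decide +kernel) hd
          simp only [List.map_cons, List.map_nil, List.sum_cons, List.sum_nil, nse_one] at a3
          have := big 125 (by omega)
          have := tot (G := G) 125 100 (by decide +kernel)
          omega
        obtain ⟨n, -, a3, -, a4, -⟩ := syl_count 2 Nat.prime_five d25 n125
        rw [show 5 ^ 2 = 25 from rfl] at a4
        have := a4 (by omega)
        rw [show Nat.totient 25 = 20 by decide +kernel] at this
        omega
      obtain ⟨n, a1, -, a3, a4, -⟩ := syl_count 1 Nat.prime_five d5 n25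
      rw [show 5 ^ 1 = 5 from rfl] at a3 a4
      have a5 := a4 (by omega)
      rw [show Nat.totient 5 = 4 by decide +kernel] at a5
      have hn : n = 36 := by omega
      subst hn
      have s3 : nse G 3 = 80 := by have := key 3 Nat.prime_three (by omega); omega
      have s15 : nse G 15 = 0 := by
        have b1 : 36 ∣ nse G 15 := a3 3 (by norm_num)
        have b2 := frobL 15 [1, 3, 5, 15] (by decide +kernel) (show 15 ∣ Nat.card G by omega)
        simp only [List.map_cons, List.map_nil, List.sum_cons, List.sum_nil, nse_one] at b2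
        have := big 15 (by omega)
        omega
      have n7 : ¬ 7 ∣ Nat.card G := fun d7 => by
        have s7 : nse G 7 = 90 := by have := key 7 p7 d7; omega
        have b1 : 36 ∣ nse G 35 := a3 7 (by norm_num)
        have b2 := frobL 35 [1, 5, 7, 35] (by decide +kernel) (show 35 ∣ Nat.card G by omega)
        simp only [List.map_cons, List.map_nil, List.sum_cons, List.sum_nil, nse_one] at b2
        have := big 35 (by omega)
        omega
      have n27 : ¬ 3 ^ (2 + 1) ∣ Nat.card G := fun hd => by
        have := free_dvd' 3 5 Nat.prime_three hd (by norm_num) s15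
        omega
      have hN : Nat.card G ∣ 360 := dvd_235 3 2 1 (fun p hp hd => by
        rcases key p hp hd with a | a | a | a
        · omega
        · omega
        · omega
        · exact absurd (a.1 ▸ hd) n7) n16 n27 n25
      exact ⟨le_antisymm (Nat.le_of_dvd (by omega) hN) low, s3, s5⟩
    · exfalso
      have s9 : 27 ∣ Nat.card G → nse G 3 = 80 ∧ nse G 9 = 0 := fun hd => by
        have s3 : nse G 3 = 80 := by have := key 3 Nat.prime_three (by omega); omega
        have a1 := frobL 9 [1, 3, 9] (by decide) (show 9 ∣ Nat.card G by omega)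
        have a2 := frobL 27 [1, 3, 9, 27] (by decide +kernel) hd
        simp only [List.map_cons, List.map_nil, List.sum_cons, List.sum_nil, nse_one] at a1 a2
        have := big 9 (by omega)
        have := big 27 (by omega)
        have := tot (G := G) 27 18 (by decide +kernel)
        omega
      have n243 : ¬ 3 ^ (4 + 1) ∣ Nat.card G := fun hd => by
        obtain ⟨s3, s9⟩ := s9 (by omega)
        have a2 := frobL 243 [1, 3, 9, 27, 81, 243] (by decide +kernel) hd
        simp only [List.map_cons, List.map_nil, List.sum_cons, List.sum_nil, nse_one] at a2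
        have := zero_of_dvd (m := 27) s9 (by norm_num)
        have := zero_of_dvd (m := 81) s9 (by norm_num)
        have := zero_of_dvd (m := 243) s9 (by norm_num)
        omega
      have key' : ∀ p, p.Prime → p ∣ Nat.card G → p = 2 ∨ p = 3 ∨ p = 5 := fun p hp hd => by
        rcases key p hp hd with a | a | a | a
        · omega
        · omega
        · omega
        · exact absurd (h75 (a.1 ▸ hd)) d5
      have hN : Nat.card G ∣ 648 := dvd_235 3 4 0 key' n16 n243 d5
      have e : Nat.card G = 648 :=
        (by decide +kernel : ∀ N < 649, 360 ≤ N → N ∣ 648 → N = 648) _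
          (by have := Nat.le_of_dvd (by omega) hN; omega) low hN
      obtain ⟨s3, s9⟩ := s9 (by omega)
      have s8 : nse G 8 = 0 := by
        by_contra h8
        obtain ⟨n, -, a2, -, a4, -⟩ := syl_count 3 Nat.prime_two (dvd_of_ne h8) n16
        have := a4 h8
        rw [show Nat.totient (2 ^ 3) = 4 by decide +kernel, show 2 ^ 3 = 8 from rfl] at this
        omega
      have ho : ∀ g : G, orderOf g ∣ 12 := fun g =>
        dvd_235 2 1 0 (fun p hp hd => key' p hp (hd.trans (orderOf_dvd_natCard g))) (nd s8 g) (nd s9 g)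
          fun hd => d5 (hd.trans (orderOf_dvd_natCard g))
      have ht := totalL 12 [1, 2, 3, 4, 6, 12] (by decide +kernel) ho
      simp only [List.map_cons, List.map_nil, List.sum_cons, List.sum_nil, nse_one] at ht
      have := big 6 (by omega)
      have := big 12 (by omega)
      omega
  obtain ⟨h360, s3, s5⟩ := h360
  have s4' := s4 (by omega)
  have ht := totalL 360 [1, 2, 3, 4, 5, 6, 8, 9, 10, 12, 15, 18, 20, 24, 30, 36, 40, 45, 60, 72, 90,
    120, 180, 360] (by decide +kernel) fun g : G => h360 ▸ orderOf_dvd_natCard g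
  simp only [List.map_cons, List.map_nil, List.sum_cons, List.sum_nil, nse_one] at ht
  have s6 : nse G 6 = 0 := by omega
  have s8 : nse G 8 = 0 := by omega
  have s9 : nse G 9 = 0 := by omega
  have s10 : nse G 10 = 0 := by omega
  have s12 : nse G 12 = 0 := by omega
  have s15 : nse G 15 = 0 := by omega
  have s20 : nse G 20 = 0 := by omega
  have ho' : ∀ g : G, orderOf g ∈ [1, 2, 3, 4, 5] := fun g =>
    (by decide +kernel : ∀ o ∈ Nat.divisors 360, ¬ 6 ∣ o → ¬ 8 ∣ o → ¬ 9 ∣ o → ¬ 10 ∣ o → ¬ 15 ∣ o →
      o ∈ [1, 2, 3, 4, 5]) _ (Nat.mem_divisors.2 ⟨h360 ▸ orderOf_dvd_natCard g, by omega⟩) (nd s6 g)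
      (nd s8 g) (nd s9 g) (nd s10 g) (nd s15 g)
  haveI : IsSimpleGroup G := simple_of (by omega) fun K hK => by
    have c1 := card_eq_sum K [1, 2, 3, 4, 5] (by decide) ho'
    simp only [List.map_cons, List.map_nil, List.sum_cons, List.sum_nil, cnt_one] at c1
    have c2 := free_dvd K 2 2 Nat.prime_three (by rw [h360]; norm_num) (by norm_num) s6
    have c3 := free_dvd K 1 2 Nat.prime_five (by rw [h360]; norm_num) (by norm_num) s10
    have c2' := free_dvd K 2 4 Nat.prime_three (by rw [h360]; norm_num) (by norm_num) s12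
    have c3' := free_dvd K 1 4 Nat.prime_five (by rw [h360]; norm_num) (by norm_num) s20
    have c4 := free_dvd K 3 3 Nat.prime_two (by rw [h360]; norm_num) (by norm_num) s6
    have c5 := free_dvd K 1 3 Nat.prime_five (by rw [h360]; norm_num) (by norm_num) s15
    have c6 := free_dvd K 3 5 Nat.prime_two (by rw [h360]; norm_num) (by norm_num) s10
    have c7 := free_dvd K 2 5 Nat.prime_three (by rw [h360]; norm_num) (by norm_num) s15
    have c8 := cnt_le (K : Set G) 2
    have c8' := cnt_le (K : Set G) 4
    have c9 := cnt_le (K : Set G) 3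
    have c10 := cnt_le (K : Set G) 5
    have c11 := card_subgroup_dvd_card K
    have e2 : cnt (K : Set G) 2 = 0 ∨ cnt (K : Set G) 2 = 45 := by omega
    have e4 : cnt (K : Set G) 4 = 0 ∨ cnt (K : Set G) 4 = 45 ∨ cnt (K : Set G) 4 = 90 := by omega
    have e3 : cnt (K : Set G) 3 = 0 ∨ cnt (K : Set G) 3 = 40 ∨ cnt (K : Set G) 3 = 80 := by omega
    have e5 : cnt (K : Set G) 5 = 0 ∨ cnt (K : Set G) 5 = 72 ∨ cnt (K : Set G) 5 = 144 := by omega
    rw [h360] at c11 ⊢
    rw [c1] at c11 ⊢
    rcases e2 with e2 | e2 <;> rcases e3 with e3 | e3 | e3 <;> rcases e4 with e4 | e4 | e4 <;>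
      rcases e5 with e5 | e5 | e5 <;> rw [e2, e3, e4, e5] at c11 ⊢ <;> omega
  exact S0497.result h360

theorem card_alt (n : ℕ) (hn : 2 ≤ n) : 2 * Nat.card (alternatingGroup (Fin n)) = n.factorial := by
  haveI : Nontrivial (Fin n) := Fin.nontrivial_iff_two_le.2 hn
  rw [two_mul_nat_card_alternatingGroup, Nat.card_perm, Nat.card_fin]

theorem recog (n : ℕ) (hn : n = 4 ∨ n = 5 ∨ n = 6) (h : NS G = NS (alternatingGroup (Fin n))) :
    Nonempty (G ≃* alternatingGroup (Fin n)) := by
  obtain ⟨c, h1, h2, h3⟩ := counts_eq (alternatingGroup (Fin n))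
  have a1 := nse_le (G := alternatingGroup (Fin n)) 1
  have a2 := nse_le (G := alternatingGroup (Fin n)) 2
  have a3 := nse_le (G := alternatingGroup (Fin n)) 3
  have a4 := nse_le (G := alternatingGroup (Fin n)) 4
  have a5 := nse_le (G := alternatingGroup (Fin n)) 5
  have a6 := card_alt n (by omega)
  rcases hn with rfl | rfl | rfl
  · rw [counts4] at h1
    rw [show Nat.factorial 4 = 24 from rfl] at a6
    obtain ⟨b1, b2⟩ := of_NS h (h3 (by omega))
    have e2 : nse (alternatingGroup (Fin 4)) 2 = 3 := by omega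
    have e3 : nse (alternatingGroup (Fin 4)) 3 = 8 := by omega
    have e4 : nse (alternatingGroup (Fin 4)) 4 = 0 := by omega
    have e5 : nse (alternatingGroup (Fin 4)) 5 = 0 := by omega
    exact rec4 (fun m => by have := b1 m; omega) (e2 ▸ b2 2 (by omega)) (e3 ▸ b2 3 (by omega))
  · rw [counts5] at h1
    rw [show Nat.factorial 5 = 120 from rfl] at a6
    obtain ⟨b1, b2⟩ := of_NS h (h3 (by omega))
    have e2 : nse (alternatingGroup (Fin 5)) 2 = 15 := by omega
    have e3 : nse (alternatingGroup (Fin 5)) 3 = 20 := by omega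
    have e4 : nse (alternatingGroup (Fin 5)) 4 = 0 := by omega
    have e5 : nse (alternatingGroup (Fin 5)) 5 = 24 := by omega
    exact rec5 (fun m => by have := b1 m; omega) (e2 ▸ b2 2 (by omega)) (e3 ▸ b2 3 (by omega))
      (e5 ▸ b2 5 (by omega))
  · rw [counts6] at h1
    rw [show Nat.factorial 6 = 720 from rfl] at a6
    obtain ⟨b1, b2⟩ := of_NS h (h3 (by omega))
    have e2 : nse (alternatingGroup (Fin 6)) 2 = 45 := by omega
    have e3 : nse (alternatingGroup (Fin 6)) 3 = 80 := by omega
    have e4 : nse (alternatingGroup (Fin 6)) 4 = 90 := by omega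
    have e5 : nse (alternatingGroup (Fin 6)) 5 = 144 := by omega
    exact rec6 (fun m => by have := b1 m; omega) (e2 ▸ b2 2 (by omega)) (e3 ▸ b2 3 (by omega))
      (e4 ▸ b2 4 (by omega)) (e5 ▸ b2 5 (by omega))

end Cfsg.Agent.H3.Nse
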