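import Cfsg.Agent.H3.Quad5

/-! The central decomposition of a quadratic pair. -/

set_option autoImplicit false
set_option linter.unusedSectionVars false
set_option linter.style.haveILetI false
set_option linter.unusedSimpArgs false

namespace Cfsg.Agent.H3.Qd

open Cfsg.Agent.H19 Cfsg.Agent.H3.Dk Polynomial LinearMap Module
open scoped commutatorElement MatrixGroups

variable {k M : Type*} [Field k] [AddCommGroup M] [Module k M] [FiniteDimensional k M]
  {G H N : Subgroup (End k M)ˣ} {α β γ δ ε η x y z : End k M} {g : (End k M)ˣ}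

/-- the units commuting with `η` -/
def CenU (η : End k M) : Subgroup (End k M)ˣ where
  carrier := {g | g.1 * η = η * g.1}
  one_mem' := by simp
  mul_mem' := fun {a b} ha hb => by
    change a.1 * b.1 * η = η * (a.1 * b.1)
    rw [mul_assoc, hb, ← mul_assoc, ha, mul_assoc]
  inv_mem' := fun {a} ha => (Commute.units_inv_left (show Commute a.1 η from ha)).eq

/-- the units fixing `η` -/
def FixU (η : End k M) : Subgroup (End k M)ˣ where
  carrier := {g | g.1 * η = η}
  one_mem' := by simp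
  mul_mem' := fun {a b} ha hb => by
    change a.1 * b.1 * η = η
    rw [mul_assoc, hb, ha]
  inv_mem' := fun {a} ha => by
    change (a⁻¹).1 * η = η
    rw [Units.inv_mul_eq_iff_eq_mul]; exact ha.symm

/-- the part of `G` generated by the quadratic elements centralising all root subgroups -/
def C1 (G : Subgroup (End k M)ˣ) : Subgroup (End k M)ˣ :=
  Subgroup.closure (quadraticElements G ∩ Subgroup.centralizer (G0 G : Set (End k M)ˣ))

theorem C1_le : C1 G ≤ G := (Subgroup.closure_le _).2 fun _ h => h.1.1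
theorem C1_comm : Comm (C1 G) (G0 G) := comm_iff_le.2 ((Subgroup.closure_le _).2 fun _ h => h.2)

theorem In.cenU (h : In H x) (hc : Comm H N) : N ≤ CenU x := fun g hg => by
  obtain ⟨a, ha, e⟩ := h
  have := congrArg Units.val (hc a ha g hg)
  rw [Units.val_mul, Units.val_mul, e] at this
  change g.1 * x = x * g.1
  linear_combination (norm := noncomm_ring) -this

theorem fam_C1 (h : Q G η) (hc : G0 G ≤ CenU η) : Fam k (C1 G) η := fun c => by
  rcases eq_or_ne c 0 with rfl | c0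
  · simpa using In.zero
  have q : Q G (c • η) := ⟨by simp [h.sq], smul_ne_zero c0 h.ne, h.fam.smul c⟩
  refine ⟨_, Subgroup.subset_closure ⟨q.un_mem, fun g hg => Units.ext ?_⟩, rfl⟩
  simp [mul_add, add_mul, show g.1 * η = η * g.1 from hc hg]

theorem closure_C1 : Subgroup.closure (quadraticElements (C1 G)) = C1 G :=
  le_antisymm ((Subgroup.closure_le _).2 fun _ h => h.1) (Subgroup.closure_mono fun g h =>
    have q := mem_quad.1 h.1
    mem_quad.2 ⟨q.sq, q.ne, fam_C1 q fun a ha => by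
      have := congrArg Units.val (h.2 a ha)
      change a.1 * (g.1 - 1) = (g.1 - 1) * a.1
      rw [Units.val_mul, Units.val_mul] at this
      linear_combination (norm := noncomm_ring) this⟩)

theorem cj_C1 (hg : g ∈ G) : cj g (C1 G) = C1 G := by
  have key : ∀ g ∈ G, cj g (C1 G) ≤ C1 G := fun g hg => by
    refine Subgroup.map_le_iff_le_comap.2 ((Subgroup.closure_le _).2 fun a ha =>
      Subgroup.subset_closure ⟨mem_quad.2 ?_, fun b hb => ?_⟩)
    · simpa [mul_sub, sub_mul] using (mem_quad.1 ha.1).conj hg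
    · have := ha.2 _ (mem_cj.1 ((cj_G0 hg).symm ▸ hb))
      change b * (g * a * g⁻¹) = g * a * g⁻¹ * b
      calc _ = g * (g⁻¹ * b * g * a) * g⁻¹ := by group
        _ = _ := by rw [this]; group
  refine le_antisymm (key g hg) ?_
  have := cj_mono g (key g⁻¹ (inv_mem hg))
  rwa [cj_cj, mul_inv_cancel, cj_one] at this

theorem exists_Qm (h : Q G η) : ∃ α, Qm G α := by
  obtain ⟨α, hα, e⟩ := (InvImage.wf rk wellFounded_lt).has_min {α | Q G α} ⟨η, h⟩
  exact ⟨α, hα, fun β hβ => not_lt.1 (e β hβ)⟩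

variable (h2 : ringChar k ≠ 2) (h3 : Nat.card k ≠ 3)
include h2 h3

theorem peel (hη : Q G η) (hα : Qm G α) (h : α * η * α ≠ 0) :
    ∃ η₁, Qm G η₁ ∧ Ee G η η₁ ∧ rk (η - η₁) < rk η := by
  obtain ⟨b, c1, c2, e, f, -⟩ := exists_idem h2 h3 hα hη.sq hη.fam h
  have c1' : ∀ x, α * (b * x) = b * (α * x) := fun x => by rw [← mul_assoc, c1, mul_assoc]
  have c2' : ∀ x, η * (b * x) = b * (η * x) := fun x => by rw [← mul_assoc, c2, mul_assoc]
  have e' : ∀ x, b * (α * (η * (α * x))) = α * x := fun x => by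
    simpa only [mul_assoc] using congrArg (· * x) e
  have e'' : ∀ x, b * (η * (α * (η * (α * x)))) = η * (α * x) := fun x => by rw [← c2', e']
  have h1 : Ee G η (b * (η * α * η)) :=
    Ee.of_eq (x := b * (α * η)) (y := b * (η * α)) f (by simp only [mul_assoc, c2'])
      (by simp only [mul_assoc])
  have h0 : b * (η * α * η) ≠ 0 := fun e1 => h (by
    simpa only [mul_assoc, c1', e', mul_zero, zero_mul] using congrArg (α * · * α) e1)
  refine ⟨_, hα.of_rk ⟨h1.mul hη.sq h1, h0, f⟩ ((rk_mono' (ker_le_mul _ _)).trans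
    ((rk_mono (range_mul_le _ _)).trans (rk_mono' (ker_le_mul _ _)))), h1, not_le.1 fun e1 => h0 ?_⟩
  have := zero_of_range (z := b * (η * α)) (range_eq ((range_sub_le _ _).trans (sup_le le_rfl h1.range)) e1).ge
    (by simp only [mul_sub, mul_assoc, c1', c2', e'', sub_self])
  simpa only [mul_assoc] using this

variable (hG : NoUn k G)
include hG

theorem cen_of_nil (hη : Q G η) (h : ∀ α, Qm G α → α * η * α = 0) : G0 G ≤ CenU η := by
  let Y : End k M → Prop := fun ζ => ∀ α, Qm G α → α * ζ * α = 0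
  have yc : ∀ ζ x, Y ζ → In G x → x * x = 0 → Y ((1 + x) * ζ * (1 - x)) := fun ζ x hζ hx e α hα => by
    have u := hx.un_mem e
    change α * ((un x e).1 * ζ * ((un x e)⁻¹).1) * α = 0
    generalize un x e = g at u
    simpa [mul_assoc] using congrArg (· * (g⁻¹).1) (hζ _ (hα.conj (inv_mem u)))
  have y0 : ∀ ζ α, Qm G α → Y ζ → ζ * ζ = 0 → Fam k G ζ → rk ζ ≤ rk α → ζ = 0 :=
    fun ζ α hα hζ e f r => by_contra fun z0 => by
      obtain ⟨β, h1, -⟩ := exists_adj h2 h3 hG (hα.of_rk ⟨e, z0, f⟩ r)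
      exact (h1.symm h2 h3).2.2 (hζ β h1.2.1)
  have key : ∀ α, Qm G α → α * η = η * α := fun α hα => by
    have e := h α hα
    have y1 : Y (α * η - η * α) := fun β hβ => by
      have h4 := yc η α h hα.fam.one hα.sq β hβ
      have h5 := h β hβ
      simp only [nc k (End k M), mul_zero3 e] at h4 h5 ⊢
      linear_combination (norm := abel1) h4 - h5
    have y2 : Y (η * α * η) := fun β hβ => by
      have h4 := yc _ η y1 hη.fam.one hη.sq β hβ
      have h5 := y1 β hβ
      have : (2 : k) • (β * (η * α * η) * β) = 0 := by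
        simp only [nc k (End k M), hη.sq, mul_zero' hη.sq] at h4 h5 ⊢
        linear_combination (norm := module) h4 - h5
      exact (smul_eq_zero.1 this).resolve_left (Ring.two_ne_zero h2)
    have z := y0 _ α hα y2 (by simp only [mul_assoc, mul_zero' hη.sq, mul_zero])
      (theta_fam (Ring.two_ne_zero h2) hη.sq hα.sq hη.fam hα.fam
        (by simp only [mul_assoc, mul_zero3 e, mul_zero]))
      ((rk_mono (range_mul_le _ _)).trans (rk_mono' (ker_le_mul _ _)))
    exact sub_eq_zero.1 (y0 _ α hα y1 (by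
      simp only [nc k (End k M), mul_zero3 e, mul_zero3 z, mul_zero' hη.sq, mul_zero' hα.sq]; simp)
      (hα.fam.comm hη.fam.one hη.sq hα.sq e z) (by
        rw [← rk_neg, neg_sub]; exact rk_comm_le z))
  refine iSup₂_le fun A hA a ha => ?_
  obtain ⟨α, hα, rfl⟩ := mem_roots.1 hA
  have h1 := (mem_EE hα.sq).1 ha
  change a.1 * η = η * a.1
  rcases eq_or_ne (a.1 - 1) 0 with e | h0
  · simp [sub_eq_zero.1 e]
  · linear_combination (norm := noncomm_ring) key _ (h1.qm hα h0)

theorem Q_induction {p : End k M → Prop} (h0 : ∀ η, Q G η → G0 G ≤ CenU η → p η)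
    (h1 : ∀ η, Qm G η → p η) (h4 : ∀ η η₁, Q G η → Qm G η₁ → Ee G η η₁ → Q G (η - η₁) → p (η - η₁) → p η)
    (hη : Q G η) : p η := by
  induction' hn : rk η using Nat.strong_induction_on with n ih generalizing η
  by_cases h : ∀ α, Qm G α → α * η * α = 0
  · exact h0 η hη (cen_of_nil h2 h3 hG hη h)
  push Not at h
  obtain ⟨α, hα, h⟩ := h
  obtain ⟨η₁, q, e, r⟩ := peel h2 h3 hη hα h
  by_cases z : η - η₁ = 0
  · exact sub_eq_zero.1 z ▸ h1 η₁ q
  have e' := (Ee.refl hη.fam).sub hη.sq e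
  have q' : Q G (η - η₁) := ⟨e'.mul hη.sq e', z, e'.fam⟩
  exact h4 η η₁ hη q e q' (ih _ (hn ▸ r) q' rfl)

theorem sup_C1 (hg : Subgroup.closure (quadraticElements G) = G) : G0 G ⊔ C1 G = G := by
  refine le_antisymm (sup_le G0_le C1_le) (hg.ge.trans ((Subgroup.closure_le _).2 fun a ha => ?_))
  obtain ⟨b, hb, e⟩ := Q_induction h2 h3 hG (p := In (G0 G ⊔ C1 G))
    (fun η q c => (fam_C1 q c).one.mono le_sup_right)
    (fun η q => ((Ee.refl q.fam).in q.sq).mono ((EE_le_G0 q).trans le_sup_left))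
    (fun η η₁ q q₁ e _ h => (h.add (((Ee.refl q₁.fam).in q₁.sq).mono ((EE_le_G0 q₁).trans le_sup_left))
      (((Ee.refl q.fam).sub q.sq e).mul q.sq e)).congr (by abel)) (mem_quad.1 ha)
  rwa [show a = b from Units.ext (by rw [e]; abel)]

theorem cj_of_le_G0 (hg : Subgroup.closure (quadraticElements G) = G) (hle : N ≤ G0 G)
    (hN : ∀ g ∈ G0 G, cj g N = N) (h : g ∈ G) : cj g N = N :=
  cj_eq_self_of_mem_sup hN (fun _ hc => (C1_comm.mono le_rfl hle).cj_eq hc)
    ((sup_C1 h2 h3 hG hg).symm ▸ h)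

theorem cj_of_le_C1 (hg : Subgroup.closure (quadraticElements G) = G) (hle : N ≤ C1 G)
    (hN : ∀ g ∈ C1 G, cj g N = N) (h : g ∈ G) : cj g N = N :=
  cj_eq_self_of_mem_sup (fun _ hc => (C1_comm.mono hle le_rfl).symm.cj_eq hc) hN
    ((sup_C1 h2 h3 hG hg).symm ▸ h)

omit hG in
theorem Q_cases (hF : NoFix G) (hg : Subgroup.closure (quadraticElements G) = G) (hη : Q G η) :
    G0 G ≤ CenU η ∨ ∃ α, Qm G α ∧ In (GG G α) η := by
  have hG := hF.noUn
  refine Q_induction h2 h3 hG (p := fun η => G0 G ≤ CenU η ∨ ∃ α, Qm G α ∧ In (GG G α) η)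
    (fun η _ c => Or.inl c) (fun η q => Or.inr ⟨η, q, ((Ee.refl q.fam).in q.sq).mono (EE_le_GG q .refl)⟩)
    (fun η η₁ q q₁ e q' h => ?_) hη
  have e' := (Ee.refl q.fam).sub q.sq e
  have key : ¬ GG G η₁ ≤ CenU (η - η₁) := fun c => q'.ne (LinearMap.ext fun m => by
    have fx : ∀ g ∈ GG G η₁, cj g (FixU (η - η₁)) ≤ FixU (η - η₁) := fun g hg x hx => by
      obtain ⟨a, ha, rfl⟩ := exists_of_mem_cj hx
      change g.1 * a.1 * (g⁻¹).1 * (η - η₁) = η - η₁
      rw [mul_assoc, show (g⁻¹).1 * (η - η₁) = _ from c (inv_mem hg), mul_assoc, ← mul_assoc a.1,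
        show a.1 * (η - η₁) = _ from ha, ← mul_assoc, show g.1 * (η - η₁) = _ from c hg,
        Units.mul_inv_cancel_right]
    have := GG_le_of h2 h3 (N := FixU (η - η₁)) .refl (fun g hg => le_antisymm (fx g hg) (by
      have := cj_mono g (fx g⁻¹ (inv_mem hg))
      rwa [cj_cj, mul_inv_cancel, cj_one] at this)) fun a ha => by
        have := ((mem_EE q₁.sq).1 ha).right (e.mul q.sq e')
        change a.1 * (η - η₁) = η - η₁
        linear_combination (norm := noncomm_ring) this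
    exact hF _ (GG_le_G0.trans G0_le) (fun g => cj_of_le_G0 h2 h3 hG hg GG_le_G0 fun _ => cj_GG h2 h3 hG)
      (GG_ne_bot q₁) _ fun g hg => congrArg (fun f : End k M => f m) (this hg))
  rcases h with h | ⟨α, hα, h⟩
  · exact absurd (GG_le_G0.trans h) key
  by_cases hc : Cn G α η₁
  · exact Or.inr ⟨α, hα, (h.add (((Ee.refl q₁.fam).in q₁.sq).mono (EE_le_GG q₁ hc))
      (e'.mul q.sq e)).congr (by abel)⟩
  · exact absurd (h.cenU (GG_comm h2 h3 hG hc)) key

omit hG in
theorem decomp (n : ℕ) : ∀ G : Subgroup (End k M)ˣ, finrank k (sp k G) = n → NoFix G →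
    Subgroup.closure (quadraticElements G) = G →
    ∃ (ι : Type) (_ : Finite ι) (Gi : ι → Subgroup (End k M)ˣ),
      (∀ i, Gi i ≤ G ∧ ∀ g ∈ G, cj g (Gi i) = Gi i) ∧ (∀ i j, i ≠ j → Comm (Gi i) (Gi j)) ∧
      (⨆ i, Gi i) = G ∧ (∀ i, IsQuasisimple (Gi i) ∧
        Subgroup.closure (quadraticElements G ∩ (Gi i : Set (End k M)ˣ)) = Gi i) ∧
      quadraticElements G ⊆ ⋃ i, (Gi i : Set (End k M)ˣ) := by
  induction n using Nat.strong_induction_on with
  | _ n ih =>
  intro G hn hF hg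
  have hG := hF.noUn
  by_cases hex : ∃ α, Qm G α
  swap
  · have : quadraticElements G = ∅ := Set.eq_empty_of_forall_notMem fun a ha =>
      hex (exists_Qm (mem_quad.1 ha))
    rw [this, Subgroup.closure_empty] at hg
    exact ⟨Empty, inferInstance, Empty.elim, (·.elim), (·.elim), by rw [iSup_of_empty, hg], (·.elim), by simp [this]⟩
  obtain ⟨α, hα⟩ := hex
  obtain ⟨ι, _, Gi, a1, a2, a3, a4, a5⟩ := ih _ (hn ▸ Submodule.finrank_lt_finrank_of_lt
    (lt_of_le_of_ne (sp_mono (C1_le (G := G))) fun e => by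
      obtain ⟨β, h1, o⟩ := exists_adj h2 h3 hG hα
      have c : ∀ x ∈ sp k (C1 G), β * x = x * β := fun x hx => by
        induction hx using Submodule.span_induction with
        | mem x hx =>
          have : (1 + β) * x = x * (1 + β) :=
            In.cenU hx C1_comm (EE_le_G0 h1.2.1 (un_mem_EE (Ee.refl h1.2.1.fam) o.sq2))
          linear_combination (norm := noncomm_ring) this
        | zero => simp
        | add x y _ _ h1 h2 => rw [mul_add, add_mul, h1, h2]
        | smul c x _ h1 => rw [mul_smul_comm, smul_mul_assoc, h1]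
      exact hα.ne (by rw [← o.e1', c α (e ▸ hα.fam.one.mem_sp), mul_zero' o.sq1])))
    (C1 G) rfl (fun N hN hn => hF N (hN.trans C1_le) fun g => cj_of_le_C1 h2 h3 hG hg hN hn) closure_C1
  obtain ⟨r, a, b1, b2, b3⟩ := exists_reps h2 h3 hG
  have qs : quadraticElements (C1 G) ⊆ quadraticElements G := fun x hx =>
    have q := mem_quad.1 hx
    mem_quad.2 ⟨q.sq, q.ne, q.fam.mono C1_le⟩
  refine ⟨Fin r ⊕ ι, inferInstance, Sum.elim (fun i => GG G (a i)) Gi, ?_, ?_, ?_, ?_, fun x hx => ?_⟩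
  · rintro (i | i)
    · exact ⟨GG_le_G0.trans G0_le, fun g => cj_of_le_G0 h2 h3 hG hg GG_le_G0 fun _ => cj_GG h2 h3 hG⟩
    · exact ⟨(a1 i).1.trans C1_le, fun g => cj_of_le_C1 h2 h3 hG hg (a1 i).1 (a1 i).2⟩
  · rintro (i | i) (j | j) h
    · exact GG_comm h2 h3 hG (b2 i j fun e => h (congrArg _ e))
    · exact (C1_comm.mono (a1 j).1 GG_le_G0).symm
    · exact C1_comm.mono (a1 i).1 GG_le_G0
    · exact a2 i j fun e => h (congrArg _ e)
  · rw [iSup_sum]
    refine Eq.trans (congrArg₂ _ (le_antisymm (iSup_le fun _ => GG_le_G0) (iSup₂_le fun A hA => ?_)) a3)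
      (sup_C1 h2 h3 hG hg)
    obtain ⟨β, hβ, rfl⟩ := mem_roots.1 hA
    obtain ⟨i, hi⟩ := b3 β hβ
    exact le_iSup_of_le i (EE_le_GG hβ hi)
  · rintro (i | i)
    · refine ⟨GG_qs h2 h3 hG (b1 i), le_antisymm ((Subgroup.closure_le _).2 fun _ h => h.2)
        (iSup₂_le ?_)⟩
      rintro _ ⟨β, hβ, h, rfl⟩ x hx
      rcases eq_or_ne (x.1 - 1) 0 with e | h0
      · rw [show x = 1 from Units.ext (sub_eq_zero.1 e)]; exact one_mem _
      · exact Subgroup.subset_closure ⟨mem_quad.2 (((mem_EE hβ.sq).1 hx).qm hβ h0).toQ, EE_le_GG hβ h hx⟩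
    · exact ⟨(a4 i).1, le_antisymm ((Subgroup.closure_le _).2 fun _ h => h.2)
        ((a4 i).2.ge.trans (Subgroup.closure_mono (Set.inter_subset_inter_left _ qs)))⟩
  · have q := mem_quad.1 hx
    rcases Q_cases h2 h3 hF hg q with h | ⟨β, hβ, b, hb, e⟩
    · obtain ⟨i, hi⟩ := Set.mem_iUnion.1 (a5 (mem_quad.2 ⟨q.sq, q.ne, fam_C1 q h⟩))
      exact Set.mem_iUnion.2 ⟨Sum.inr i, hi⟩
    · obtain ⟨i, hi⟩ := b3 β hβ
      refine Set.mem_iUnion.2 ⟨Sum.inl i, ?_⟩
      rw [show x = b from Units.ext (by rw [e]; abel)]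
      change b ∈ ⨆ A ∈ Cp G (a i), A
      rwa [Cp_eq h2 h3 hi]

end Cfsg.Agent.H3.Qd
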