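import Mathlib
import Cfsg.Agent.L1.SRG

/-! The strongly regular graph of a rank three action. -/

set_option autoImplicit false

namespace Cfsg.Agent.H3
open MulAction Finset

theorem r3 {G Ω : Type*} [Group G] [Fintype Ω] [MulAction G Ω] [IsPretransitive G Ω] (a b c : Ω) {k l : ℕ}
    (hΩ : Fintype.card Ω = 1 + k + l) (hb : (orbit (stabilizer G a) b).ncard = k)
    (hc : (orbit (stabilizer G a) c).ncard = l) (hkl : k ≠ l) (hk : k ≠ 1) (hl : l ≠ 1) :
    ∃ (Γ : SimpleGraph Ω) (_ : DecidableRel Γ.Adj) (lam mu : ℕ), Γ.IsSRGWith (1 + k + l) k lam mu ∧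
      (∀ (g : G) x y, Γ.Adj (g • x) (g • y) ↔ Γ.Adj x y) ∧ (∀ y, Γ.Adj a y ↔ y ∈ orbit (stabilizer G a) b) ∧
      (∀ y, (y ≠ a ∧ ¬ Γ.Adj a y) ↔ y ∈ orbit (stabilizer G a) c) := by
  classical
  let R : Ω → Ω → Prop := fun x y => ∃ g : G, g • a = x ∧ g • b = y
  have hR : ∀ (g : G) x y, R (g • x) (g • y) ↔ R x y := fun g x y =>
    ⟨fun ⟨u, h1, h2⟩ => ⟨g⁻¹ * u, by rw [mul_smul, h1, inv_smul_smul],
      by rw [mul_smul, h2, inv_smul_smul]⟩, fun ⟨u, h1, h2⟩ => ⟨g * u, by rw [mul_smul, h1],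
      by rw [mul_smul, h2]⟩⟩
  have hRa : ∀ y, R a y ↔ y ∈ orbit (stabilizer G a) b := fun y =>
    ⟨fun ⟨u, h1, h2⟩ => ⟨⟨u, h1⟩, h2⟩, fun ⟨u, h⟩ => ⟨u.1, u.2, h⟩⟩
  have himg : ∀ (g : G) (P Q : Ω → Prop), (∀ x, Q (g • x) ↔ P x) → {x | Q x}.ncard = {x | P x}.ncard :=
    fun g P Q h => by
      rw [← Set.ncard_image_of_injective {x | P x} (MulAction.injective g)]
      congr 1; ext y
      obtain ⟨x, rfl⟩ := MulAction.surjective g y
      exact (h x).trans ((MulAction.injective g).mem_set_image (s := {x | P x})).symm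
  have hna : ∀ y, (orbit (stabilizer G a) y).ncard ≠ 1 → a ∉ orbit (stabilizer G a) y :=
    fun y h h' => h (by
      rw [← orbit_eq_iff.mpr h', Set.ncard_eq_one]
      exact ⟨a, Set.eq_singleton_iff_unique_mem.mpr ⟨mem_orbit_self a, by
        rintro _ ⟨u, rfl⟩; exact u.2⟩⟩)
  have ha1 := hna b (by omega)
  have ha2 := hna c (by omega)
  have hbc : Disjoint (orbit (stabilizer G a) b) (orbit (stabilizer G a) c) := by
    rw [Set.disjoint_left]
    intro x h1 h2
    rw [← orbit_eq_iff.mpr h1, orbit_eq_iff.mpr h2] at hb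
    omega
  have hall : ∀ y, y = a ∨ y ∈ orbit (stabilizer G a) b ∨ y ∈ orbit (stabilizer G a) c := by
    have : insert a (orbit (stabilizer G a) b ∪ orbit (stabilizer G a) c) = Set.univ := by
      apply Set.eq_of_subset_of_ncard_le (Set.subset_univ _)
      rw [Set.ncard_insert_of_notMem (by simp [ha1, ha2]), Set.ncard_union_eq hbc, hb, hc,
        Set.ncard_univ, Nat.card_eq_fintype_card, hΩ]
      omega
    intro y
    have h : y ∈ insert a (orbit (stabilizer G a) b ∪ orbit (stabilizer G a) c) := this ▸ trivial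
    exact h
  have hout : ∀ x, {y | R x y}.ncard = k := fun x => by
    obtain ⟨g, rfl⟩ := exists_smul_eq G a x
    rw [himg g (R a) _ (hR g a), ← hb]
    congr 1; ext y; exact hRa y
  have hin : {x | R x a}.ncard = k := by
    have h1 := card_mul_eq_card_mul R (s := univ) (t := univ) (m := k) (n := {x | R x a}.ncard)
      (fun x _ => by rw [← hout x, ← Set.ncard_coe_finset]; congr 1; ext; simp [bipartiteAbove])
      (fun y _ => by
        obtain ⟨g, rfl⟩ := exists_smul_eq G a y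
        rw [← himg g (fun x => R x a) (fun x => R x (g • a)) (fun x => hR g x a),
          ← Set.ncard_coe_finset]
        congr 1; ext; simp [bipartiteBelow])
    rw [card_univ, hΩ] at h1
    exact (Nat.eq_of_mul_eq_mul_left (by omega) h1).symm
  have hirr : ∀ x, ¬ R x x := fun x h => by
    obtain ⟨g, rfl⟩ := exists_smul_eq G a x
    exact ha1 ((hRa a).mp ((hR g a a).mp h))
  have hinv : ∀ x y, R x a → y ∈ orbit (stabilizer G a) x → R y a := by
    rintro x _ hx ⟨g, rfl⟩
    have := (hR g.1 x a).mpr hx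
    rwa [g.2] at this
  have hba : R b a := by
    by_contra hn
    have h1 : {x | R x a} ⊆ orbit (stabilizer G a) c := fun x hx => by
      rcases hall x with rfl | h | h
      · exact absurd hx (hirr _)
      · exact absurd (hinv x b hx (mem_orbit_symm.1 h)) hn
      · exact h
    have h2 : 0 < k := hb ▸ (Set.ncard_pos (Set.toFinite _)).2 ⟨b, mem_orbit_self b⟩
    obtain ⟨x, hx⟩ := (Set.ncard_pos (Set.toFinite _)).1 (hin ▸ h2 : 0 < {x | R x a}.ncard)
    have h3 : orbit (stabilizer G a) c ⊆ {x | R x a} := fun y hy =>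
      hinv x y hx (by rw [orbit_eq_iff.mpr (h1 hx)]; exact hy)
    rw [Set.Subset.antisymm h1 h3] at hin
    omega
  have hsym : ∀ x y, R x y → R y x := by
    rintro _ _ ⟨g, rfl, rfl⟩; exact (hR g b a).mpr hba
  let Γ : SimpleGraph Ω := ⟨R, ⟨hsym⟩, ⟨hirr⟩⟩
  refine ⟨Γ, inferInstance, {x | R a x ∧ R b x}.ncard, {x | R a x ∧ R c x}.ncard,
    H14.srg_of_ncard hΩ (fun v => ?_) ?_ fun v w h h' => ?_, hR, hRa, fun y => ⟨fun ⟨h1, h2⟩ => ?_, fun h => ?_⟩⟩
  · simp only [and_self]; exact hout v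
  · rintro _ _ ⟨g, rfl, rfl⟩
    exact himg g _ _ fun x => and_congr (hR g a x) (hR g b x)
  · obtain ⟨g, rfl⟩ := exists_smul_eq G a v
    obtain ⟨w, rfl⟩ := MulAction.surjective g w
    rcases hall w with rfl | h1 | ⟨u, rfl⟩
    · exact absurd rfl h
    · exact absurd ((hR g a w).mpr ((hRa w).mpr h1)) h'
    · refine himg (g * u.1) _ _ fun x => and_congr ?_ ?_
      · have := hR (g * u.1) a x
        rwa [mul_smul g u.1 a, u.2] at this
      · have := hR (g * u.1) c x
        rwa [mul_smul g u.1 c] at this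
  · rcases hall y with h | h | h
    · exact absurd h h1
    · exact absurd ((hRa y).2 h) h2
    · exact h
  · exact ⟨fun e => ha2 (e ▸ h), fun e => Set.disjoint_left.1 hbc ((hRa y).1 e) h⟩

end Cfsg.Agent.H3
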