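import Mathlib

/-! A tight configuration in a strongly regular graph with parameters `(1782, 416, 100, 96)`. -/

set_option autoImplicit false

namespace Cfsg.Agent.H3
open Finset

theorem tight {Ω : Type*} [Fintype Ω] (Γ : SimpleGraph Ω) [DecidableRel Γ.Adj] (h : Γ.IsSRGWith 1782 416 100 96)
    (a : Ω) (y : ℕ → Ω) (e : ℕ → ℕ → Bool) (ha : ∀ i < 21, ¬ Γ.Adj a (y i))
    (hi : ∀ i < 21, ∀ j < 21, y i = y j → i = j) (he : ∀ i < 21, ∀ j < 21, Γ.Adj (y i) (y j) ↔ e i j = true)
    (h0 : ∀ j < 21, e 0 j = false)
    (h16 : ∀ i < 21, i ≠ 0 → ((Finset.range 21).filter fun j => e i j = true).card = 16)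
    (hc : ∀ i < 21, ∀ j < 21, {x | ¬ Γ.Adj a x ∧ Γ.Adj (y i) x ∧ Γ.Adj (y j) x}.ncard =
      if i = j then 320 else if e i j = true then 76 else 48) (z : Ω) (hz : Γ.Adj a z) :
    ((Finset.Ico 1 21).filter fun i => Γ.Adj (y i) z).card = if Γ.Adj (y 0) z then 10 else 3 := by
  classical
  let A : ℕ → Ω → ℤ := fun i x => if Γ.Adj (y i) x then 1 else 0
  let E : ℕ → ℕ → ℤ := fun i j => if e i j = true then 1 else 0
  let c : ℕ → ℤ := fun i => if i = 0 then -7 else 1
  let N : Finset Ω := univ.filter fun x => Γ.Adj a x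
  have hN : N.card = 416 := by
    rw [← h.regular a, ← SimpleGraph.card_neighborFinset_eq_degree, SimpleGraph.neighborFinset_eq_filter]
  have hii : ∀ i < 21, e i i = false := fun i hi' => by
    have := (he i hi' i hi').not.1 (Γ.loopless.irrefl _)
    simpa using this
  have hM : ∀ i < 21, ∀ j < 21, ∑ x ∈ N, A i x * A j x = 48 + 48 * (if i = j then 1 else 0) - 24 * E i j := by
    intro i hi' j hj'
    have e1 : ∑ x ∈ N, A i x * A j x =
        ((univ.filter fun x => Γ.Adj (y i) x ∧ Γ.Adj (y j) x).filter fun x => Γ.Adj a x).card := by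
      rw [filter_comm, card_filter]
      push_cast
      refine sum_congr rfl fun x _ => ?_
      simp only [A]
      by_cases h1 : Γ.Adj (y i) x <;> by_cases h2 : Γ.Adj (y j) x <;> simp [h1, h2]
    have e2 := card_filter_add_card_filter_not (s := univ.filter fun x => Γ.Adj (y i) x ∧ Γ.Adj (y j) x)
      (fun x => Γ.Adj a x)
    have e3 : ((univ.filter fun x => Γ.Adj (y i) x ∧ Γ.Adj (y j) x).filter fun x => ¬ Γ.Adj a x).card =
        if i = j then 320 else if e i j = true then 76 else 48 := by
      rw [← hc i hi' j hj', ← Set.ncard_coe_finset]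
      congr 1
      ext x; simp [and_comm]
    have e4 : (univ.filter fun x => Γ.Adj (y i) x ∧ Γ.Adj (y j) x).card =
        if i = j then 416 else if e i j = true then 100 else 96 := by
      have e5 : (univ.filter fun x => Γ.Adj (y i) x ∧ Γ.Adj (y j) x).card =
          Fintype.card (Γ.commonNeighbors (y i) (y j)) := by
        rw [Fintype.card_subtype]; rfl
      split_ifs with h1 h2
      · subst h1
        rw [← h.regular (y i), ← SimpleGraph.card_neighborFinset_eq_degree, SimpleGraph.neighborFinset_eq_filter]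
        simp
      · rw [e5]; exact h.of_adj _ _ ((he i hi' j hj').2 h2)
      · rw [e5]; exact h.of_not_adj (fun h3 => h1 (hi i hi' j hj' h3)) fun h3 => h2 ((he i hi' j hj').1 h3)
    rw [e3, e4] at e2
    rw [e1]
    simp only [E]
    by_cases h1 : i = j
    · subst h1
      rw [if_pos rfl, if_pos rfl] at e2
      rw [if_pos rfl, if_neg (by simp [hii i hi'])]
      omega
    · by_cases h2 : e i j = true
      · simp only [h1, h2, if_true, if_false] at e2 ⊢; omega
      · simp only [h1, h2, if_false] at e2 ⊢; simp at e2 ⊢; omega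
  have hA : ∀ i < 21, ∑ x ∈ N, A i x = 96 := fun i hi' => by
    have := hM i hi' i hi'
    simp only [E, hii i hi', if_true] at this
    rw [show (96 : ℤ) = 48 + 48 * 1 - 24 * (if false = true then 1 else 0) by simp, ← this]
    refine sum_congr rfl fun x _ => ?_
    simp only [A]; split_ifs <;> simp
  have hc13 : ∑ j ∈ range 21, c j = 13 := by simp only [c]; decide
  have hrow : ∀ i < 21, ∑ j ∈ range 21, c j * (48 + 48 * (if i = j then 1 else 0) - 24 * E i j) = 288 := by
    intro i hi'
    have e1 : ∀ j, c j * (48 + 48 * (if i = j then 1 else 0) - 24 * E i j) =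
        48 * c j + 48 * (if i = j then c j else 0) - 24 * (c j * E i j) := fun j => by
      split_ifs <;> ring
    simp only [e1, sum_sub_distrib, sum_add_distrib, ← mul_sum, hc13, sum_ite_eq, mem_range, hi', if_true]
    by_cases h1 : i = 0
    · subst h1
      rw [sum_eq_zero (fun j hj => by simp [E, h0 j (mem_range.1 hj)])]
      simp [c]
    · have e2 : ∑ j ∈ range 21, c j * E i j = 16 := by
        have := h16 i hi' h1
        rw [card_filter] at this
        rw [show (16 : ℤ) = ((16 : ℕ) : ℤ) from rfl, ← this]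
        push_cast
        refine sum_congr rfl fun j hj => ?_
        by_cases h2 : j = 0
        · subst h2
          have : e i 0 = false := by
            have h3 := (he 0 (by norm_num) i hi').not.2 (by simp [h0 i hi'])
            have h4 := (he i hi' 0 (by norm_num)).not.1 fun h5 => h3 h5.symm
            simpa using h4
          simp [E, this]
        · simp [c, E, h2]
      rw [e2]; simp [c, h1]
  have hS : ∑ x ∈ N, (∑ i ∈ range 21, c i * A i x - 3) ^ 2 = 0 := by
    have e1 : ∀ x, (∑ i ∈ range 21, c i * A i x - 3) ^ 2 =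
        ∑ i ∈ range 21, ∑ j ∈ range 21, c i * (c j * (A i x * A j x)) - 6 * ∑ i ∈ range 21, c i * A i x + 9 :=
      fun x => by
        rw [sub_sq, sq (∑ i ∈ range 21, c i * A i x), sum_mul_sum]
        congr 1
        · congr 1
          · exact sum_congr rfl fun i _ => sum_congr rfl fun j _ => by ring
          · ring
    simp only [e1, sum_add_distrib, sum_sub_distrib, ← mul_sum]
    rw [sum_comm, sum_comm (s := N)]
    have e2 : ∑ i ∈ range 21, ∑ x ∈ N, c i * ∑ j ∈ range 21, c j * (A i x * A j x) =
        ∑ i ∈ range 21, c i * 288 := sum_congr rfl fun i hi' => by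
      rw [← mul_sum, sum_comm, ← hrow i (mem_range.1 hi')]
      congr 1
      exact sum_congr rfl fun j hj => by rw [← mul_sum, hM i (mem_range.1 hi') j (mem_range.1 hj)]
    have e3 : ∑ i ∈ range 21, ∑ x ∈ N, c i * A i x = ∑ i ∈ range 21, c i * 96 := sum_congr rfl fun i hi' => by
      rw [← mul_sum, hA i (mem_range.1 hi')]
    rw [e2, e3, ← sum_mul, ← sum_mul, hc13, sum_const, hN]
    norm_num
  have hz0 := (sum_eq_zero_iff_of_nonneg fun x _ => sq_nonneg _).1 hS z (by simpa [N] using hz)
  rw [sq_eq_zero_iff, range_eq_Ico, sum_eq_sum_Ico_succ_bot (by norm_num)] at hz0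
  have e5 : ∑ i ∈ Ico (0 + 1) 21, c i * A i z = (((Finset.Ico 1 21).filter fun i => Γ.Adj (y i) z).card : ℤ) := by
    rw [card_filter]
    push_cast
    refine sum_congr rfl fun i hi' => ?_
    have : i ≠ 0 := by have := (mem_Ico.1 hi').1; omega
    simp [c, A, this]
  rw [e5] at hz0
  simp only [c, A, if_true] at hz0
  split_ifs at hz0 ⊢ <;> omega

end Cfsg.Agent.H3
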