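import Cfsg.Agent.H3.RI9

/-! Root involutions, part 10: the Suzuki groups do not occur for a connected commuting graph. -/

set_option autoImplicit false
set_option linter.unusedSectionVars false
set_option linter.unusedVariables false

namespace Cfsg.Agent.H3.Rt
open Subgroup

universe u
variable {G : Type u} [Group G] [Finite G] {D : Set G}

theorem mem_norm_of {V : Subgroup G} {g : G} (g2 : g * g = 1) (h : ∀ v ∈ V, g * v * g⁻¹ ∈ V) :
    g ∈ normalizer (V : Set G) := mem_normalizer_iff.2 fun v => ⟨h v, fun m => by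
  have := h _ m
  rwa [iv g2, show g * (g * v * g) * g = v by apply W; simp only [mul_assoc, r2 g2]] at this⟩

/-- conjugation action on an invariant set -/
@[reducible] def cact (S : Subgroup G) (F : Set G) (i : ∀ r ∈ S, ∀ f ∈ F, r * f * r⁻¹ ∈ F) : MulAction S F where
  smul r f := ⟨r * f * r⁻¹, i r r.2 f f.2⟩
  one_smul f := Subtype.ext (by show (1 : G) * f * 1⁻¹ = f; simp)
  mul_smul r s f := Subtype.ext (by show (r * s : G) * f * ((r : G) * s)⁻¹ = r * (s * f * (s : G)⁻¹) * (r : G)⁻¹; group)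

theorem fix2 {S T : Subgroup G} (hS : IsPGroup 2 S) (hT : IsPGroup 2 T) {F : Set G}
    (iS : ∀ r ∈ S, ∀ f ∈ F, r * f * r⁻¹ ∈ F) (iT : ∀ r ∈ T, ∀ f ∈ F, r * f * r⁻¹ ∈ F)
    (nf : ∀ f ∈ F, ∃ r ∈ T, r * f ≠ f * r) {e : G} (he : e ∈ F) (c : ∀ r ∈ S, r * e = e * r) :
    ∃ y ∈ F, e ≠ y ∧ ∀ r ∈ S, r * y = y * r := by
  haveI : Fact (Nat.Prime 2) := ⟨Nat.prime_two⟩
  have ev : 2 ∣ Nat.card F := by
    by_contra k
    letI := cact T F iT
    obtain ⟨f, hf⟩ := hT.nonempty_fixed_point_of_prime_not_dvd_card F k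
    obtain ⟨r, hr, n⟩ := nf f f.2
    exact n (mul_inv_eq_iff_eq_mul.1 (congrArg Subtype.val (hf ⟨r, hr⟩)))
  letI := cact S F iS
  obtain ⟨y, hy, ne⟩ := hS.exists_fixed_point_of_prime_dvd_card_of_fixed_point F ev (a := ⟨e, he⟩)
    fun r => Subtype.ext (mul_inv_eq_iff_eq_mul.2 (c r r.2))
  exact ⟨y, y.2, fun k => ne (Subtype.ext k), fun r hr => mul_inv_eq_iff_eq_mul.1 (congrArg Subtype.val (hy ⟨r, hr⟩))⟩

theorem ex_invol {H : Type*} [Group H] : ∀ (k : ℕ) (g : H), g ^ 2 ^ k = 1 → g ≠ 1 → ∃ i : ℕ, g ^ i ≠ 1 ∧ g ^ i * g ^ i = 1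
  | 0, g, e, n => absurd (by simpa using e) n
  | k + 1, g, e, n => by
    by_cases j : g ^ 2 = 1
    · exact ⟨1, by simpa using n, by rwa [pow_one, ← pow_two]⟩
    · obtain ⟨i, h⟩ := ex_invol k (g ^ 2) (by rwa [← pow_mul, ← pow_succ']) j
      exact ⟨2 * i, by rwa [pow_mul]⟩

theorem cen_cl {H : Type*} [Group H] {S : Set H} {z g : H} (c : ∀ s ∈ S, s * z = z * s) (hg : g ∈ closure S) :
    g * z = z * g := mc1.1 ((show closure S ≤ centralizer {z} from (closure_le _).2 fun s hs => mc1.2 (c s hs)) hg)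

/-- the global hypotheses -/
structure Gl (D : Set G) (d x : G) : Prop where
  h : OT D
  gen : closure D = ⊤
  cl : Cls D
  dd : DD D
  O : pCore 2 G = ⊥
  hd : d ∈ D
  hx : x ∈ D
  n : Adj d x

namespace Gl
variable {d x a a' b e r u v w y : G} (L : Gl D d x)
include L

theorem cj (g : G) (ha : a ∈ D) : g * a * g⁻¹ ∈ D := L.h.cjc (L.gen ▸ mem_top g) ha
theorem adjE (ha : a ∈ EE D d) : Adj a x := (ha.2 x L.hx).1 L.n
theorem dE : d ∈ EE D d := ⟨L.hd, .refl _ _⟩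
theorem cmE (ha : a ∈ EE D d) (hb : b ∈ EE D d) (hu : u ∈ D) (c : a * u = u * a) : b * u = u * b :=
  L.h.sa_c ha.1 hb.1 (ha.2.symm.trans hb.2) hu c

theorem mulE {d : G} (ha : a ∈ EE D d) (hb : b ∈ EE D d) (ne : a ≠ b) : a * b ∈ EE D d :=
  have m := L.h.thmE L.gen L.cl L.O ha.1 hb.1 (ha.2.symm.trans hb.2) ne
  ⟨m, ha.2.trans (L.h.dd_sa ha.1 hb.1 (L.h.sa_cm ha.1 hb.1 (ha.2.symm.trans hb.2)).symm m)⟩

theorem other (ha : a ∈ EE D d) : ∃ b ∈ EE D d, a ≠ b := by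
  obtain ⟨c, hc, e, m⟩ := L.h.trip L.cl L.dd ha.1
  exact ⟨c, ⟨hc, ha.2.trans (L.h.dd_sa' ha.1 hc e m)⟩, fun k => L.h.ne1 m (by rw [← k, L.h.s2 ha.1])⟩

theorem n2E {d : G} (ha : a ∈ EE D d) (hb : b ∈ EE D d) (hy : y ∈ D) (c : y * a = a * y) (ny : ¬ SA D d y)
    (hv : v ∈ D) (e : v * (y * (a * b)) = y * (a * b) * v) : y * v = v * y := by
  by_cases k : a = b
  · rw [k, L.h.s2 hb.1, mul_one] at e; exact e.symm
  · have m := L.mulE ha hb k
    exact L.h.N2 hy m.1 (L.h.sa_c ha.1 m.1 (ha.2.symm.trans m.2) hy c.symm).symm (fun j => ny (j ▸ m.2)) hv e.symm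

theorem ex_y (Z : center G = ⊥) (conn : CR D x d) : ∃ y ∈ D, y * d = d * y ∧ ¬ SA D d y ∧ Adj y x := by
  have h := L.h
  by_contra k
  push Not at k
  have k' : ∀ y ∈ D, y * d = d * y → ¬ SA D d y → y * x = x * y := fun y hy c n => h.cm _ hy _ L.hx (k y hy c n)
  obtain ⟨c, hc, c1, c2⟩ := h.common L.cl L.dd L.hx conn
  have nc : ¬ SA D d c := fun s => h.nadj hc L.hx c2 ((s x L.hx).1 L.n)
  obtain ⟨s, hs, n1, n2⟩ : ∃ s ∈ D, Adj d s ∧ Adj c s := by
    by_contra j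
    push Not at j
    haveI : (closure {s | s ∈ D ∧ Adj d s}).Normal := by
      rw [← normalizer_eq_top_iff, eq_top_iff, ← L.gen, closure_le]
      intro u hu
      by_cases a : Adj d u
      · exact le_normalizer (subset_closure ⟨hu, a⟩)
      · refine mem_norm_of (h.s2 hu) fun v hv => closure_cj (fun t ht =>
          Subgroup.subset_closure (show _ ∈ {s | s ∈ D ∧ Adj d s} from ⟨L.cj u ht.1, ?_⟩)) hv
        have := ht.2.conj u
        rwa [← h.cm _ L.hd _ hu a, mul_inv_cancel_right] at this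
    have := normal_top L.gen L.cl (M := closure {s | s ∈ D ∧ Adj d s}) L.hx (subset_closure ⟨L.hx, L.n⟩)
    have : c ∈ center G := mem_center_iff.2 (cen_of_gen this fun s hs => (h.cm _ hc _ hs.1 (j s hs.1 hs.2)).symm)
    rw [Z, mem_bot] at this
    exact h.ne1 hc this
  obtain ⟨e, he, γ, hγ, m⟩ := h.line L.cl L.dd L.hd hc c1 hs n1 n2
  have nN := OO_norm (closure (EE D d ∪ EE D c ∪ {s}))
  have hV := OO_pg (closure (EE D d ∪ EE D c ∪ {s}))
  have VY := OO_le (closure (EE D d ∪ EE D c ∪ {s}))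
  have nE : ∀ a ∈ EE D d, a ∈ normalizer (OO (closure (EE D d ∪ EE D c ∪ {s})) : Set G) := fun a ha =>
    nN (subset_closure (Or.inl (Or.inl ha)))
  have ns := nN (subset_closure (Or.inr rfl))
  generalize OO (closure (EE D d ∪ EE D c ∪ {s})) = V at *
  have cE : ∀ a ∈ EE D d, a * γ = γ * a := fun a ha =>
    L.cmE L.dE ha hγ.1 (h.sa_c hc hγ.1 hγ.2 L.hd c1).symm
  have nγ : ¬ SA D d γ := fun j => nc (j.trans hγ.2.symm)
  obtain ⟨s', hs', mq, eq⟩ := h.fib hV hs he.1 ((he.2 s hs).1 n1).symm ns (nE e he) hγ.1 m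
  have q2 : s * s' * (s * s') = 1 := by
    apply W; simp only [mul_assoc, rc (h.cm_mod hV hs hs' mq).symm, r2 (h.s2 hs), r2 (h.s2 hs'), one_mul]
  generalize s * s' = q at *
  have qq : ∀ u, q * (q * u * q⁻¹) * q⁻¹ = u := fun u => by rw [iv q2]; apply W; simp only [mul_assoc, r2 q2]
  obtain ⟨f, hf, ne⟩ := L.other he
  have ha := L.mulE he hf ne
  have a2 := h.s2 ha.1
  have na : Adj s (γ * f * s * (γ * f)) := by
    have e1 : γ * f * s * (γ * f) = e * γ * (e * f * s * (e * f)) * (e * γ)⁻¹ := by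
      rw [_root_.mul_inv_rev, iv (h.s2 he.1), iv (h.s2 hγ.1)]; apply W
      simp only [mul_assoc, rc (cE e he), rc (cE f hf), rc (L.cmE he hf he.1 rfl), r2 (h.s2 he.1)]
    have hb := h.cj s hs _ ha.1
    have nb := mul_mem (mul_mem (nE _ ha) ns) (nE _ ha)
    rw [e1]
    refine h.adj_mod hV hs hb (L.cj _ hb) ns ?_ (((ha.2 s hs).1 n1).symm.self_cj (h.s2 hs) a2)
    have := mul_mem (nm' nb (h.s2 hb) m) (inv_mem m)
    simpa only [mul_assoc] using this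
  obtain ⟨-, t, ht, t1, t2, t3, -⟩ := h.nonexc hγ.1 hf.1 (cE f hf).symm hs na
  have tE : ∀ a ∈ EE D d, a * t = t * a := fun a ha => L.cmE hf ha ht t2.symm
  have zq : q * (t * (γ * f)) = t * (γ * f) * q := by
    refine cen_cl ?_ (VY mq)
    rintro u ((hu | hu) | rfl)
    · apply W; simp only [mul_assoc, rc (tE u hu), rc (cE u hu), rc (L.cmE hf hu hf.1 rfl)]
    · have k := hγ.2.symm.trans hu.2
      apply W; simp only [mul_assoc, rc (h.sa_c hγ.1 hu.1 k ht t1.symm), rc (h.sa_cm hγ.1 hu.1 k),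
        rc (h.sa_c hγ.1 hu.1 k hf.1 (cE f hf).symm)]
    · exact t3.symm
  have cq : ∀ u ∈ D, u ∈ normalizer (V : Set G) → u * d = d * u → q * u * q⁻¹ * d = d * (q * u * q⁻¹) :=
    fun u hu nu c => (h.cm _ L.hd _ (L.cj q hu) fun j => h.nadj L.hd hu c.symm
      (h.adj_mod hV L.hd (L.cj q hu) hu (nE d L.dE) (by
        have := mul_mem mq (nm nu (inv_mem mq)); rw [iv (h.s2 hu)] at this; simpa only [mul_assoc] using this) j)).symm
  have sq := fun {u v : G} (k : SA D u v) => h.SA_conj (L.gen ▸ mem_top q) k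
  have c3 := cq f hf.1 (nE f hf) (L.cmE L.dE hf L.hd rfl)
  have E1 : q * t * q⁻¹ * (e * (q * f * q⁻¹)) = t * (γ * f) := by
    rw [← qq e, eq, conj_mul, conj_mul, zq, mul_inv_cancel_right]
  have n3 : ¬ SA D d t := fun j => h.nadj hγ.1 hs (L.n2E ⟨ht, j⟩ hf hγ.1 t1.symm nγ hs (by
    rw [← mul_assoc γ, ← t1, mul_assoc t, t3])) ((hγ.2 s hs).1 n2)
  have n4 : ¬ SA D d (q * t * q⁻¹) := fun j => by
    have j1 := sq j
    have j2 := sq he.2
    rw [qq] at j1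
    rw [eq] at j2
    exact h.nadj hf.1 hs (L.n2E ⟨ht, j1⟩ ⟨hγ.1, j2⟩ hf.1 t2.symm (fun i => nγ (hf.2.trans (i.symm.trans j2))) hs (by
      rw [← mul_assoc f, ← t2, mul_assoc t f, cE f hf, t3])) ((hf.2 s hs).1 n1)
  have n5 : ¬ SA D d (q * f * q⁻¹) := fun j => nγ (j.trans (eq ▸ sq (hf.2.symm.trans he.2)))
  have hf' := L.cj q hf.1
  have ht' := L.cj q ht
  generalize q * f * q⁻¹ = f' at *
  generalize q * t * q⁻¹ = t' at *
  have E2 : t' = t * (γ * f) * (f' * e) := by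
    rw [← E1]; apply W; simp only [mul_assoc, r2 (h.s2 hf'), r2 (h.s2 he.1)]
  have c4 : t' * d = d * t' := by
    rw [E2]; apply W
    simp only [mul_assoc, rc (tE d L.dE), rc (cE d L.dE), rc (L.cmE hf L.dE hf.1 rfl), rc c3.symm,
      rc (L.cmE he L.dE he.1 rfl)]
  refine h.nadj ha.1 L.hx ?_ (L.adjE ha)
  have E3 : e * f = t' * (t * (γ * f')) := by
    rw [← r2 (h.s2 ht') (e * f), mul_right_inj, ← mul_left_inj f, mul_assoc t, mul_assoc γ,
      ← L.cmE L.dE hf hf' c3.symm, ← mul_assoc γ, ← mul_assoc t, ← E1]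
    apply W; simp only [mul_assoc, r2 (h.s2 hf'), r2 (h.s2 hf.1)]
  rw [E3]; apply W
  simp only [mul_assoc, rc (k' t' ht' c4 n4), rc (k' t ht (tE d L.dE).symm n3), rc (k' γ hγ.1 (cE d L.dE).symm nγ),
    rc (k' f' hf' c3 n5)]

section W
variable {V : Subgroup G} (hV : IsPGroup 2 V) (nE : ∀ a ∈ EE D d, a ∈ normalizer (V : Set G))
  (nx : x ∈ normalizer (V : Set G))
include hV nE nx

theorem cE (ha : a ∈ EE D d) (hu : u ∈ V) (m : a * u ∈ D) (hb : b ∈ EE D d) : b * u = u * b := by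
  have a2 := L.h.s2 ha.1
  have c := L.cmE ha hb m (L.h.cm_mod hV ha.1 m (by rwa [r2 a2]))
  rwa [← mul_assoc, L.cmE ha hb ha.1 rfl, mul_assoc, mul_assoc, mul_right_inj] at c

theorem w4 (ha : a ∈ EE D d) (ha' : a' ∈ EE D d) (ne : a ≠ a') (hu : u ∈ V) (m : a * u ∈ D) (m' : a' * u ∈ D) :
    u = 1 := by
  by_contra k
  have a2 := L.h.s2 ha.1
  have hb := L.mulE ha ha' ne
  have c := L.cE hV nE nx ha hu m hb
  have s := L.h.dd_sa' hb.1 m (by rw [← mul_assoc, L.cmE ha hb ha.1 rfl, mul_assoc, c, mul_assoc]) (by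
    rwa [← L.cmE ha ha' ha.1 rfl, mul_assoc, r2 a2])
  have := L.mulE ha ⟨m, hb.2.trans s⟩ (fun e => k (by simpa using e))
  rw [r2 a2] at this
  exact L.h.nmem hV this.1 L.hx nx (L.adjE this) hu

variable (W1 : ∀ w ∈ V, ∀ w' ∈ V, w * w' = w' * w) (W2 : ∀ w ∈ V, w * w = 1)
  (nr : r ∈ normalizer (V : Set G)) (rz : ∀ z, x * z = z * x → (∀ a ∈ EE D d, a * z = z * a) → r * z = z * r)
  (rE : ∀ a ∈ EE D d, r * a = a * r)
include W1

theorem w3 (ha : a ∈ EE D d) (hu : u ∈ V) (hv : v ∈ V) (m : a * u ∈ D) (m' : a * v ∈ D) : a * (u * v) ∈ D := by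
  obtain ⟨f, -, hw, e⟩ := L.h.fib hV L.hx ha.1 (L.adjE ha).symm nx (nE a ha) m (by rwa [r2 (L.h.s2 ha.1)])
  have := L.cj (x * f) m'
  rwa [← conj_mul, e, W1 _ hw v hv, mul_inv_cancel_right, mul_assoc] at this

include W2 nr rz rE

theorem w5 (ha : a ∈ EE D d) (hu : u ∈ V) (m : a * u ∈ D) : r * u = u * r := by
  have h := L.h
  obtain ⟨b, hb, ne⟩ := L.other ha
  have b2 := h.s2 hb.1
  have hc := h.cj x L.hx b hb.1
  obtain ⟨f, hf, hu', e⟩ := h.fib hV hb.1 hc (by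
    have := (L.adjE hb).cj b2; rwa [b2, one_mul] at this) (nE b hb)
    (mul_mem (mul_mem (nE b hb) nx) (nE b hb)) (L.cj u hc) (by
      have := mul_mem (nm' (mul_mem (mul_mem (nE b hb) nx) (nE b hb)) (h.s2 hc) hu) (inv_mem hu)
      simpa only [mul_assoc] using this)
  have m' : b * (b * f) ∈ D := by rwa [r2 b2]
  generalize b * f = u' at *
  have c1 := fun {c : G} (hc : c ∈ EE D d) => L.cE hV nE nx ha hu m hc
  have c2 := fun {c : G} (hc : c ∈ EE D d) => L.cE hV nE nx hb hu' m' hc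
  have u2 := W2 u hu
  have v2 := W2 u' hu'
  have z := rz (u * u') (by
    rw [iv u2, iv v2] at e
    calc x * (u * u') = b * u * (u * (b * x * b) * u) * (b * u') := by
          apply W; simp only [mul_assoc, r2 u2, r2 b2, rc (c1 hb).symm]
      _ = _ := by rw [← e]; apply W; simp only [mul_assoc, r2 v2, r2 b2, rc (c1 hb).symm, rc (c2 hb).symm])
    fun c hc => by apply W; simp only [mul_assoc, rc (c1 hc), rc (c2 hc)]
  have cj : ∀ c ∈ EE D d, ∀ w, c * w ∈ D → c * (r * w * r⁻¹) ∈ D := fun c hc w k => by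
    have := L.cj r k; rwa [← conj_mul, rE c hc, mul_inv_cancel_right] at this
  have e1 : r * u * r⁻¹ * u = r * u' * r⁻¹ * u' := by
    have : r * u * r⁻¹ * (r * u' * r⁻¹) = u * u' := by rw [conj_mul, z, mul_inv_cancel_right]
    rw [← r2 (W2 _ (nm nr hu)) (r * u' * r⁻¹), this, mul_assoc _ _ u', mul_assoc u, v2, mul_one]
  have := L.w4 hV nE nx ha hb ne (mul_mem (nm nr hu) hu) (L.w3 hV nE nx W1 ha (nm nr hu) hu (cj a ha u m) m)
    (e1 ▸ L.w3 hV nE nx W1 hb (nm nr hu') hu' (cj b hb u' m') m')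
  rwa [mul_eq_one_iff_eq_inv, iv u2, mul_inv_eq_iff_eq_mul] at this

theorem w7 (hw : w ∈ V) (c : d * w = w * d) : r * w = w * r := by
  have h := L.h
  have w2 := W2 w hw
  have cj : ∀ a ∈ D, w * a * w ∈ D := fun a ha => by have := L.cj w ha; rwa [iv w2] at this
  have c1 : ∀ a ∈ EE D d, a * w = w * a := fun a ha => by
    by_cases k : d = a
    · exact k ▸ c
    have a2 := h.s2 ha.1
    have := L.w4 hV nE nx ha (L.mulE L.dE ha k) (fun e => h.ne1 L.hd (by simpa using e))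
      (mul_mem (nm' (nE a ha) a2 hw) hw) (by simpa only [mul_assoc, r2 a2] using cj a ha.1) (by
        have := cj _ (L.mulE L.dE ha k).1
        simpa only [mul_assoc, r2 a2, rc c.symm] using this)
    rw [← mul_one (w * a), ← this]; apply W; simp only [mul_assoc, r2 a2, r2 w2]
  obtain ⟨f, hf, hu, e⟩ := h.fib hV L.hd L.hx L.n (nE d L.dE) nx (L.cj w L.hx) (by
    have := mul_mem (nm' nx (h.s2 L.hx) hw) (inv_mem hw)
    simpa only [mul_assoc] using this)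
  have m : d * (d * f) ∈ D := by rwa [r2 (h.s2 L.hd)]
  generalize d * f = u at *
  have u2 := W2 u hu
  have z := rz (u * w) (by
    rw [iv u2, iv w2] at e
    calc x * (u * w) = u * (u * x * u) * w := by apply W; simp only [mul_assoc, r2 u2]
      _ = _ := by rw [e]; apply W; simp only [mul_assoc, r2 w2])
    fun a ha => by apply W; simp only [mul_assoc, rc (c1 a ha), rc (L.cE hV nE nx L.dE hu m ha)]
  rwa [← mul_assoc, L.w5 hV nE nx W1 W2 nr rz rE L.dE hu m, mul_assoc, mul_assoc, mul_right_inj] at z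

theorem w8 (hw : w ∈ V) : r * r * w = w * (r * r) := by
  have d2 := L.h.s2 L.hd
  have w2 := W2 w hw
  have hw' := nm nr hw
  have v2 := W2 _ hw'
  have c := L.w5 hV nE nx W1 W2 nr rz rE L.dE (mul_mem (nm' (nE d L.dE) d2 hw) hw) (by
    have := L.cj w L.hd; rw [iv w2] at this; simpa only [mul_assoc, r2 d2] using this)
  have e : r * w * r⁻¹ * d * (r * w * r⁻¹) = w * d * w := by
    have c' := rE d L.dE
    calc _ = d * (r * (d * w * d * w) * r⁻¹) := by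
          apply W; simp only [mul_assoc, r2 d2, rc c', rc (Commute.inv_left c').eq, inv_mul_cancel_left]
      _ = _ := by rw [c, mul_inv_cancel_right]; simp only [mul_assoc, r2 d2]
  have := L.w7 hV nE nx W1 W2 nr rz rE (mul_mem hw hw') (by
    have c := W1 _ hw _ hw'
    generalize r * w * r⁻¹ = v at *
    calc d * (w * v) = w * (w * d * w) * v := by apply W; simp only [mul_assoc, r2 w2]
      _ = _ := by rw [← e]; apply W; simp only [mul_assoc, r2 v2])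
  calc r * r * w = r * (w * (w * (r * w * r⁻¹))) * r := by rw [r2 w2]; group
    _ = r * w * r⁻¹ * (r * (w * (r * w * r⁻¹))) * r := by group
    _ = _ := by 
      rw [this, W1 _ hw _ hw']; generalize r * w * r⁻¹ = v at *; apply W; simp only [mul_assoc, r2 v2]

end W

theorem noSz (Z : center G = ⊥) (conn : CR D x d) {X S : Subgroup G} (hX : X = closure (EE D d ∪ {x}))
    (S2 : IsPGroup 2 S) (SX : S ≤ X) (SE : ∀ r ∈ S, ∀ a ∈ EE D d, r * a = a * r)
    (DC : ∀ g ∈ X, g * d * g⁻¹ * d = d * (g * d * g⁻¹) ∨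
      ∃ a ∈ EE D d, ∃ r1 ∈ S, ∃ r2 ∈ S, g⁻¹ * a * g = r1 * g⁻¹ * r2)
    (hr : r ∈ S) {i : ℕ} {z : G} (hz : z ∈ S) (cz : ∀ g ∈ X, g * z = z * g) (ha : (r * r) ^ i * z ∈ EE D d) :
    False := by
  have h := L.h
  obtain ⟨y0, hy0, c0, n0, n1⟩ := L.ex_y Z conn
  obtain ⟨e, he, y', hy', m⟩ := h.line L.cl L.dd L.hd hy0 c0 L.hx L.n n1
  have nN : X ≤ _ := (hX.le.trans (closure_mono (Set.union_subset_union_left _ Set.subset_union_left))).trans
    (OO_norm (closure (EE D d ∪ EE D y0 ∪ {x})))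
  have hV := OO_pg (closure (EE D d ∪ EE D y0 ∪ {x}))
  generalize OO (closure (EE D d ∪ EE D y0 ∪ {x})) = V at *
  have mE : ∀ a ∈ EE D d, a ∈ X := fun a ha => hX ▸ subset_closure (Or.inl ha)
  have mx : x ∈ X := hX ▸ subset_closure (Or.inr rfl)
  have e2 := h.s2 he.1
  have aF : ∀ f ∈ D, e * f ∈ V → Adj x f := fun f hf m => h.adj_mod hV L.hx he.1 hf (nN mx) m (L.adjE he).symm
  obtain ⟨y, ⟨hy, my⟩, ne, cy⟩ := fix2 S2 hV (F := {f | f ∈ D ∧ e * f ∈ V})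
    (fun r hr f hf => ⟨L.cj r hf.1, by
      have := nm (nN (SX hr)) hf.2; rwa [← conj_mul, SE r hr e he, mul_inv_cancel_right] at this⟩)
    (fun v hv f hf => ⟨L.cj v hf.1, by
      have := mul_mem (mul_mem (nm' (nN (mE e he)) e2 hv) hf.2) (inv_mem hv)
      simpa only [mul_assoc, r2 e2] using this⟩)
    (fun f hf => by
      have m' : x * (e * y' * x * (e * y')⁻¹) ∈ V := by
        have := mul_mem (nm' (nN mx) (h.s2 L.hx) m) (inv_mem m); simpa only [mul_assoc] using this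
      refine ⟨_, m', fun k => h.nadj L.hx hf.1 (h.N2 L.hx (L.cj _ L.hx) (h.cm_mod hV L.hx (L.cj _ L.hx) m')
        (fun j => ?_) hf.1 k) (aF f hf.1 hf.2)⟩
      exact h.nadj he.1 L.hx (h.N2 he.1 hy'.1 (h.cm_mod hV he.1 hy'.1 m)
        (fun k => n0 (he.2.trans (k ▸ hy'.2.symm))) L.hx (mul_inv_eq_iff_eq_mul.1 j.symm)) (L.adjE he))
    (e := e) ⟨he.1, by rw [e2]; exact one_mem _⟩ fun r hr => SE r hr e he
  have cey := h.cm_mod hV he.1 hy my
  have ny : y ∈ normalizer (V : Set G) := by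
    have := mul_mem (nN (mE e he)) (le_normalizer my); rwa [r2 e2] at this
  have fin : e * y * x ≠ x * (e * y) := fun k => h.nadj he.1 L.hx (h.N2 he.1 hy cey ne L.hx k) (L.adjE he)
  have v2 : e * y * (e * y) = 1 := by apply W; simp only [mul_assoc, rc cey.symm, r2 e2, r2 (h.s2 hy), one_mul]
  have Sv : ∀ r ∈ S, r * (e * y) = e * y * r := fun r hr => by
    apply W; simp only [mul_assoc, rc (SE r hr e he), rc (cy r hr)]
  have base : ∀ g ∈ X, Commute (e * y) (g * (e * y) * g⁻¹) := fun g hg => by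
    rcases DC g hg with k | ⟨a, ha, r1, h1, r2, h2, k⟩
    · have s : SA D d (g * d * g⁻¹) := h.locX L.cl L.dd L.hd L.hx L.n (L.cj g L.hd)
        (hX ▸ mul_mem (mul_mem hg (mE d L.dE)) (inv_mem hg)) k
      have he' : g * e * g⁻¹ ∈ EE D d := ⟨L.cj g he.1, s.trans (h.SA_conj (L.gen ▸ mem_top g) he.2)⟩
      have m2 : g * e * g⁻¹ * (g * y * g⁻¹) ∈ V := by rw [conj_mul]; exact nm (nN hg) my
      have k1 := L.cmE he he' hy cey
      have k2 := L.cmE he' he (L.cj g hy) (h.cm_mod hV he'.1 (L.cj g hy) m2)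
      have k3 := h.cm _ hy _ (L.cj g hy) fun j => h.nadj hy he'.1 k1.symm (h.adj_mod hV hy (L.cj g hy) he'.1 ny
        (by rwa [← h.cm_mod hV he'.1 (L.cj g hy) m2]) j)
      rw [← conj_mul]
      exact (Commute.mul_right (L.cmE he' he he'.1 rfl) k2).mul_left (Commute.mul_right k1.symm k3)
    · have hb := L.cj g⁻¹ ha.1
      have nb := nN (mul_mem (mul_mem (inv_mem hg) (mE a ha)) hg)
      rw [inv_inv] at hb
      generalize e * y = v at *
      have b2 := h.s2 hb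
      have k1 := h.cm_mod hV hb (L.cj v hb) (by
        have := mul_mem (nm' nb b2 my) (inv_mem my); simpa only [mul_assoc] using this)
      have k2 : Commute v (g⁻¹ * a * g * v * (g⁻¹ * a * g)⁻¹) := by
        rw [iv b2]; rw [iv v2] at k1
        generalize g⁻¹ * a * g = b at *
        show v * (b * v * b) = b * v * b * v
        simpa only [mul_assoc] using k1.symm
      rw [k, show r1 * g⁻¹ * r2 * v * (r1 * g⁻¹ * r2)⁻¹ = r1 * g⁻¹ * (r2 * v * r2⁻¹) * (r1 * g⁻¹)⁻¹ by group,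
        Sv r2 h2, mul_inv_cancel_right] at k2
      have k3 := k2.symm.conj (g * r1⁻¹)
      rwa [show g * r1⁻¹ * (r1 * g⁻¹ * v * (r1 * g⁻¹)⁻¹) * (g * r1⁻¹)⁻¹ = v by group,
        show g * r1⁻¹ * v * (g * r1⁻¹)⁻¹ = g * (r1⁻¹ * v * r1⁻¹⁻¹) * g⁻¹ by group, Sv _ (inv_mem h1),
        mul_inv_cancel_right] at k3
  generalize e * y = v at *
  have gc : ∀ s ∈ {w | ∃ g ∈ X, w = g * v * g⁻¹}, ∀ t ∈ {w | ∃ g ∈ X, w = g * v * g⁻¹}, s * t = t * s := by
    rintro _ ⟨g, hg, rfl⟩ _ ⟨k, hk, rfl⟩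
    have := (base _ (mul_mem (inv_mem hg) hk)).conj g
    rw [show g * (g⁻¹ * k * v * (g⁻¹ * k)⁻¹) * g⁻¹ = k * v * k⁻¹ by group] at this
    exact this.eq
  have W1 : ∀ w ∈ closure {w | ∃ g ∈ X, w = g * v * g⁻¹}, ∀ w' ∈ closure {w | ∃ g ∈ X, w = g * v * g⁻¹},
      w * w' = w' * w := fun w hw w' hw' => cen_cl (fun s hs => (cen_cl (fun t ht => gc t ht s hs) hw').symm) hw
  have W2 : ∀ w ∈ closure {w | ∃ g ∈ X, w = g * v * g⁻¹}, w * w = 1 := fun w hw => by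
    induction hw using closure_induction with
    | mem w hw => obtain ⟨g, -, rfl⟩ := hw; rw [conj_mul, v2]; simp
    | one => simp
    | mul a b ha hb a2 b2 => apply W; simp only [mul_assoc, rc (W1 b hb a ha), r2 a2, r2 b2, one_mul]
    | inv a _ a2 => rwa [iv a2]
  have nW : X ≤ normalizer (closure {w | ∃ g ∈ X, w = g * v * g⁻¹} : Set G) := le_norm fun g hg w => closure_cj (by
    rintro _ ⟨k, hk, rfl⟩
    exact subset_closure ⟨g * k, mul_mem hg hk, by group⟩)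
  have hW : IsPGroup 2 (closure {w | ∃ g ∈ X, w = g * v * g⁻¹}) := hV.to_le ((closure_le _).2 (by
    rintro _ ⟨k, hk, rfl⟩
    exact nm (nN hk) my))
  obtain ⟨s, hs, ms, es⟩ := h.sw_in (K := X) L.hx ha.1 (L.adjE ha).symm.2 mx (mE _ ha)
  have k1 : Commute (r * r) (s * v * s⁻¹) := L.w8 hW (fun a ha => nW (mE a ha)) (nW mx) W1 W2 (nW (SX hr))
    (fun z c1 c2 => cen_cl (by rintro u (hu | rfl); exacts [c2 u hu, c1]) (hX ▸ SX hr)) (SE r hr)
    (subset_closure ⟨s, ms, rfl⟩)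
  have k2 : Commute z (s * v * s⁻¹) := by
    have := Commute.conj (Sv z hz) s; rwa [cz s ms, mul_inv_cancel_right] at this
  have := ((k1.pow_left i).mul_left k2).conj s⁻¹
  rw [← es] at this
  exact fin (by simpa [mul_assoc] using this.symm.eq)

theorem eq_of {X : Subgroup G} (hX : X = closure (EE D d ∪ {x})) (ha : a ∈ EE D d) (ha' : a' ∈ D) (m' : a' ∈ X)
    (m : a * a' ∈ OO X) : a = a' := by
  by_contra ne
  have k := L.mulE ha ⟨ha', L.h.locX L.cl L.dd L.hd L.hx L.n ha' (hX ▸ m')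
    (L.cmE ha L.dE ha' (L.h.cm_mod (OO_pg X) ha.1 ha' m)).symm⟩ ne
  exact L.h.nmem (OO_pg X) k.1 L.hx (OO_norm X (hX ▸ subset_closure (Or.inr rfl))) (L.adjE k) m

theorem cenO {X : Subgroup G} (hX : X = closure (EE D d ∪ {x})) {q g : G} (hq : q ∈ OO X) (hg : g ∈ X) :
    g * q = q * g := by
  have mE : ∀ a ∈ EE D d, a ∈ X := fun a ha => hX ▸ subset_closure (Or.inl ha)
  have mx : x ∈ X := hX ▸ subset_closure (Or.inr rfl)
  have k : ∀ q ∈ OO X, ∀ a ∈ EE D d, a * q = q * a := fun q hq a ha =>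
    eq_mul_inv_iff_mul_eq.1 (L.eq_of hX ha (L.cj q ha.1)
      (mul_mem (mul_mem (OO_le X hq) (mE a ha)) (inv_mem (OO_le X hq))) (by
        have := mul_mem (nm' (OO_norm X (mE a ha)) (L.h.s2 ha.1) hq) (inv_mem hq)
        simpa only [mul_assoc] using this))
  refine cen_cl ?_ (hX ▸ hg)
  rintro u (hu | rfl)
  · exact k q hq u hu
  · obtain ⟨s, -, ms, e⟩ := L.h.sw_in (K := X) L.hd L.hx L.n.2 (mE d L.dE) mx
    have := Commute.conj (k _ (nm (OO_norm X (inv_mem ms)) hq) d L.dE) s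
    rw [e] at this
    simpa [mul_assoc] using this.eq

theorem coe_cl {d : G} : (closure (EE D d) : Set G) = EE D d ∪ {1} := by
  refine Set.Subset.antisymm (fun g hg => ?_) (by rintro g (m | rfl); exacts [subset_closure m, one_mem _])
  induction hg using closure_induction with
  | mem w hw => exact Or.inl hw
  | one => exact Or.inr rfl
  | mul a b _ _ ha hb =>
    rcases ha with ha | rfl
    · rcases hb with hb | rfl
      · by_cases k : a = b
        · exact Or.inr (k ▸ L.h.s2 ha.1)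
        · exact Or.inl (L.mulE ha hb k)
      · exact Or.inl (by simpa using ha)
    · simpa using hb
  | inv a _ ha =>
    rcases ha with ha | rfl
    · rw [iv (L.h.s2 ha.1)]; exact Or.inl ha
    · exact Or.inr inv_one

theorem final (Z : center G = ⊥) (conn : CR D x d) : ∃ (F : Type) (_ : Field F) (_ : Fintype F),
    Fintype.card F = Nat.card (closure (EE D d)) ∧
      Nonempty (closure (EE D d ∪ {x}) ≃* Matrix.ProjectiveSpecialLinearGroup (Fin 2) F) := by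
  have h := L.h
  have lA : closure (EE D d) ≤ closure (EE D d ∪ {x}) := closure_mono Set.subset_union_left
  generalize hX : closure (EE D d ∪ {x}) = X at *
  replace hX := hX.symm
  have mE : ∀ a ∈ EE D d, a ∈ X := fun a ha => hX ▸ subset_closure (Or.inl ha)
  have mx : x ∈ X := hX ▸ subset_closure (Or.inr rfl)
  obtain ⟨H, _, _, Ω, _, ⟨M⟩⟩ := h.modelX L.cl L.dd L.hd L.hx L.n hX mx (mE d L.dE)
  have kO : ∀ z : X, M.ψ z = 1 → (z : G) ∈ OO X := fun z hz => ⟨z, M.ker.le hz, rfl⟩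
  have i1 : ∀ a : X, (a : G) ∈ EE D d → M.ψ a ∈ M.S.I0 := fun a ha =>
    M.I0_of ha.1 (Subtype.ext (L.cmE L.dE ha L.hd rfl)) (adj_coe.1 (L.adjE ha))
  have i2 : ∀ s ∈ M.S.I0, ∃ a : X, (a : G) ∈ EE D d ∧ M.ψ a = s := fun s hs => by
    obtain ⟨a, ha, c, e⟩ := M.of_I0 hs
    exact ⟨a, ⟨ha, h.locX L.cl L.dd L.hd L.hx L.n ha (hX ▸ a.2) (congrArg Subtype.val c)⟩, e⟩
  have P2 := M.Q2.comap_of_ker_isPGroup M.ψ M.kp
  have SE : ∀ r : X, M.ψ r ∈ M.S.Q → ∀ a ∈ EE D d, (r : G) * a = a * r := fun r hr a ha =>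
    (eq_mul_inv_iff_mul_eq.1 (L.eq_of hX ha (L.cj r ha.1) (r * ⟨a, mE a ha⟩ * r⁻¹).2
      (kO (⟨a, mE a ha⟩ * (r * ⟨a, mE a ha⟩ * r⁻¹)) (by
        have k := i1 ⟨a, mE a ha⟩ ha
        rw [map_mul, map_mul, map_mul, map_inv, ← M.S.I0_comm M.S.nil_Q k hr, mul_inv_cancel_right, k.2.2])))).symm
  rcases M.ty with k | k
  · obtain ⟨F, _, _, hF, ⟨f⟩⟩ := k.iso
    have cz : ∀ z : X, M.ψ z = 1 → ∀ g : X, g * z = z * g := fun z hz g => Subtype.ext (L.cenO hX (kO z hz) g.2)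
    have ab : IsMulCommutative (M.S.Q.comap M.ψ) := ⟨⟨fun p p' => Subtype.ext (by
      show p.1 * p'.1 = p'.1 * p.1
      rcases M.S.mem_Q0_iff.1 (k.Q_eq.le p.2) with e | e
      · exact (cz _ e _).symm
      · obtain ⟨a, ha, e'⟩ := i2 _ e
        have c1 : p'.1 * a = a * p'.1 := Subtype.ext (SE _ p'.2 _ ha)
        have c2 := cz (a⁻¹ * p.1) (by rw [map_mul, map_inv, e', inv_mul_cancel]) p'.1
        rw [← mul_inv_cancel_left a p.1, mul_assoc, ← c2, ← mul_assoc, ← c1, mul_assoc])⟩⟩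
    haveI : Fact (Nat.Prime 2) := ⟨Nat.prime_two⟩
    have bot := H4.inf_commutator_inf_center_eq_bot ab (by
      obtain ⟨n, hn⟩ := IsPGroup.iff_card.1 P2
      rw [hn, index_comap_of_surjective _ M.surj]
      exact Nat.Coprime.pow_left _ (Nat.coprime_two_left.2 M.S.odd_index_Q))
    have inj : Function.Injective M.ψ := (injective_iff_map_eq_one _).2 fun z hz =>
      mem_bot.1 (bot.le ⟨⟨show M.ψ z ∈ M.S.Q from hz ▸ one_mem _, M.pf ▸ mem_top z⟩, mem_center_iff.2 (cz z hz)⟩)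
    refine ⟨F, _, inferInstance, ?_, ⟨(MulEquiv.ofBijective M.ψ ⟨inj, M.surj⟩).trans f⟩⟩
    have : M.S.Q0 = ((closure (EE D d)).subgroupOf X).map M.ψ := by
      ext s
      rw [M.S.mem_Q0_iff]
      constructor
      · rintro (rfl | hs)
        · exact one_mem _
        · obtain ⟨a, ha, e⟩ := i2 s hs
          exact ⟨a, subset_closure ha, e⟩
      · rintro ⟨a, ha, rfl⟩
        rcases (L.coe_cl.le ha : (a : G) ∈ EE D d ∪ {1}) with m | m
        · exact Or.inr (i1 a m)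
        · exact Or.inl (by rw [show a = 1 from Subtype.ext m, map_one])
    rw [hF, H13.R1.q, this, card_map_of_injective inj, Nat.card_congr (subgroupOfEquivOfLe lA).toEquiv]
  · exfalso
    obtain ⟨ρ, hρ, n⟩ : ∃ ρ ∈ M.S.Q, ρ * ρ ≠ 1 := by
      by_contra j
      push Not at j
      refine k.nab ⟨⟨fun p p' => Subtype.ext ?_⟩⟩
      show p.1 * p'.1 = p'.1 * p.1
      rw [← iv (j _ (mul_mem p.2 p'.2)), _root_.mul_inv_rev, iv (j _ p.2), iv (j _ p'.2)]
    obtain ⟨j, hj⟩ := M.Q2 ⟨_, mul_mem hρ hρ⟩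
    obtain ⟨i, h1, h2⟩ := ex_invol j (ρ * ρ) (congrArg Subtype.val hj) n
    obtain ⟨a, ha, ea⟩ := i2 _ (M.S.mem_I0_of_mem_Q (pow_mem (mul_mem hρ hρ) i) h1 h2)
    obtain ⟨r, rfl⟩ := M.surj ρ
    have hz : M.ψ (((r * r) ^ i)⁻¹ * a) = 1 := by rw [map_mul, map_inv, map_pow, map_mul, ea, inv_mul_cancel]
    refine L.noSz Z conn hX (P2.map X.subtype) (map_subtype_le _) (by rintro _ ⟨r, hr, rfl⟩; exact SE r hr)
      (fun g hg => ?_) (r := (r : G)) ⟨r, hρ, rfl⟩ (i := i) (z := ((((r * r) ^ i)⁻¹ * a : X) : G))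
      ⟨_, show M.ψ _ ∈ M.S.Q from hz ▸ one_mem _, rfl⟩ (fun g hg => L.cenO hX (kO _ hz) hg) (by simpa using ha)
    by_cases m : M.ψ ⟨g, hg⟩ ∈ M.S.H
    · exact Or.inl (congrArg Subtype.val ((M.memH _).1 m))
    right
    obtain ⟨q1, h1, δ, hδ, q2, h2, e⟩ := M.S.exists_canon' (mt inv_mem_iff.1 m)
    obtain ⟨v, hv, κ, hκ, rfl⟩ := M.S.exists_V_mul_K hδ
    rw [k.V_eq, mem_bot] at hv
    obtain ⟨s, hs, r', hr', e'⟩ := (M.S.setT _ (M.S.K_mul_t_invol hκ).1 (M.S.K_mul_t_not_mem hκ)).exists_struct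
    obtain ⟨b, hb, rfl⟩ := i2 s hs
    obtain ⟨r1, e1⟩ := M.surj (q1 * r'⁻¹ * q1⁻¹)
    have hr'' : r' ∈ M.S.Q := hr'
    refine ⟨b, hb, r1, ⟨r1, show M.ψ r1 ∈ M.S.Q from e1 ▸ mul_mem (mul_mem h1 (inv_mem hr'')) (inv_mem h1), rfl⟩,
      ((r1 * ⟨g, hg⟩⁻¹)⁻¹ * (⟨g, hg⟩⁻¹ * b * ⟨g, hg⟩) : X),
      ⟨(r1 * ⟨g, hg⟩⁻¹)⁻¹ * (⟨g, hg⟩⁻¹ * b * ⟨g, hg⟩), show M.ψ _ ∈ M.S.Q from ?_, rfl⟩, by simp [mul_assoc]⟩
    have e2 : κ * M.S.t * M.ψ b * (κ * M.S.t) = r'⁻¹ * (κ * M.S.t) * r' := e'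
    have i3 := iv (M.S.K_mul_t_invol hκ).1
    have c := M.S.I0_comm M.S.nil_Q hs h2
    rw [hv, one_mul, mul_assoc q1] at e
    simp only [map_mul, map_inv, e1]
    rw [← inv_inv (M.ψ ⟨g, hg⟩), e, inv_inv]
    generalize κ * M.S.t = t at e2 i3 ⊢
    rw [show (q1 * r'⁻¹ * q1⁻¹ * (q1 * t * q2))⁻¹ * (q1 * t * q2 * M.ψ b * (q1 * t * q2)⁻¹) =
      q2⁻¹ * t⁻¹ * r' * (t * (q2 * M.ψ b * q2⁻¹) * t⁻¹) * q1⁻¹ by group, ← c, mul_inv_cancel_right, i3, e2,
      show q2⁻¹ * t * r' * (r'⁻¹ * t * r') * q1⁻¹ = q2⁻¹ * (t * t) * r' * q1⁻¹ by group, mul_eq_one_iff_eq_inv.2 i3.symm, mul_one]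
    exact mul_mem (mul_mem (inv_mem h2) hr'') (inv_mem h1)

end Gl

theorem OT.EE_eq (h : OT D) {d : G} (hd : d ∈ D) : sameCommutingClass D d = EE D d :=
  Set.ext fun e => ⟨fun m => ⟨m.1, (h.sa_iff hd m.1).1 m⟩, fun m => (h.sa_iff hd m.1).2 m.2⟩

end Cfsg.Agent.H3.Rt
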