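import Cfsg.Agent.H3.RI1

/-! Root involutions, part 2: components, Lemma S, Lemma AB. -/

set_option autoImplicit false
set_option linter.unusedSectionVars false
set_option linter.unusedVariables false

namespace Cfsg.Agent.H3.Rt
open Subgroup

variable {G : Type*} [Group G]

/-- reachability in the odd graph -/
abbrev FR (D : Set G) : G → G → Prop := Relation.ReflTransGen (OddAdj D)

theorem oa {D : Set G} {a b : G} (ha : a ∈ D) (hb : b ∈ D) (n : Adj a b) : FR D a b :=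
  Relation.ReflTransGen.single ⟨ha, hb, n⟩

theorem FR.symm {D : Set G} {a b : G} (h : FR D a b) : FR D b a := by
  induction h with
  | refl => exact .refl
  | tail _ n ih => exact (oa n.2.1 n.1 (Adj.symm n.2.2)).trans ih

theorem FR.nb {D : Set G} {a b : G} (h : FR D a b) (ne : b ≠ a) : ∃ c ∈ D, Adj a c := by
  rcases h.cases_head with e | ⟨c, n, -⟩
  · exact absurd e.symm ne
  · exact ⟨c, n.2.1, n.2.2⟩

theorem FR.mem {D : Set G} {a b : G} (h : FR D a b) (ha : a ∈ D) : b ∈ D := by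
  induction h with
  | refl => exact ha
  | tail _ n _ => exact n.2.1

/-- isolated vertices -/
def Iso (D : Set G) : Set G := {w | w ∈ D ∧ ∀ b ∈ D, ¬ Adj w b}

theorem iso_eq (D : Set G) : {w | IsIsolatedElem (OddAdj D) D w} = Iso D := by
  ext w
  exact ⟨fun h => ⟨h.1, fun b hb n => (h.2 b).1 ⟨h.1, hb, n⟩⟩,
    fun h => ⟨h.1, fun b => ⟨fun n => h.2 b n.2.1 n.2.2, fun n => h.2 b n.1 (Adj.symm n.2.2)⟩⟩⟩

/-- a single class under the generated subgroup -/
def Cls (D : Set G) : Prop := ∀ a ∈ D, ∀ b ∈ D, ∃ g ∈ closure D, g * a * g⁻¹ = b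

/-- same neighbours in the odd graph -/
def SA (D : Set G) (u v : G) : Prop := ∀ x ∈ D, Adj u x ↔ Adj v x

theorem SA.symm {D : Set G} {u v : G} (h : SA D u v) : SA D v u := fun x hx => (h x hx).symm
theorem SA.trans {D : Set G} {u v w : G} (h : SA D u v) (h' : SA D v w) : SA D u w :=
  fun x hx => (h x hx).trans (h' x hx)
theorem SA.refl (D : Set G) (u : G) : SA D u u := fun _ _ => Iff.rfl

/-- the members of `X_c` not adjacent to `y` -/
def HS (D : Set G) (c y : G) : Set G := {u | u ∈ D ∧ u * c = c * u ∧ u * c ∈ D ∧ ¬ Adj u y}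

namespace RI
variable {D : Set G} (h : RI D) {a b c d e x y : G}
include h

theorem comp_cj {a' : G} (ha : a ∈ D) (ha' : a' ∈ D) (hd : d ∈ D) (n : Adj a a') : FR D a (d * a * d) := by
  have a2 := h.s2 ha
  have d2 := h.s2 hd
  have m := h.cj a ha d hd
  have key : ∀ z ∈ D, Adj a z → Adj d z → FR D a (d * a * d) := fun z hz n1 n2 =>
    ((oa ha hz n1).trans (oa hz (h.cj z hz d hd) (n2.symm.self_cj (h.s2 hz) d2))).trans
      (oa (h.cj z hz d hd) m (n1.symm.cj d2))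
  by_cases k : Adj a d
  · exact oa ha m (k.self_cj a2 d2)
  by_cases nc : a * d = d * a
  · rw [← nc, mul_assoc, d2, mul_one]
  obtain ⟨f, hf, h1, h2, h3⟩ := h.nv ha hd k nc
  have f2 := h.s2 hf
  have e1 : d * a * d * f = a := by apply W; simp only [mul_assoc, r3 h3, rc h2, r2 d2, r2 f2]
  have e2 : d * (a * d * a) = f := by apply W; simp only [mul_assoc, r3 h3, rc h1, rc h2, r2 d2, r2 a2, r2 f2]
  rcases h.lemA m hf (by apply W; simp only [mul_assoc, r3 h3, rc h1, rc h2, r2 d2, r2 f2]) (e1.symm ▸ ha) ha'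
    (e1.symm ▸ n) with k1 | k1
  · exact (oa ha ha' n).trans (oa ha' m k1.symm)
  rcases h.lemA hd (h.cj d hd a ha) (by apply W; simp only [mul_assoc, r3 h3, rc h1, rc h2, r2 d2, r2 a2, r2 f2])
    (e2.symm ▸ hf) ha' (e2.symm ▸ k1) with k2 | k2
  · exact key a' ha' n k2
  · refine key _ (h.cj a' ha' a ha) ?_ ?_
    · have := n.cj a2; rwa [a2, one_mul] at this
    · have := k2.cj a2
      rwa [show a * (a * d * a) * a = d by apply W; simp only [mul_assoc, r2 a2]] at this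

theorem iso_cj {g w : G} (hg : g ∈ closure D) (hw : w ∈ Iso D) : g * w * g⁻¹ ∈ Iso D :=
  ⟨h.cjc hg hw.1, fun b hb n => hw.2 _ (h.cjc (inv_mem hg) hb) (by
    have := n.conj g⁻¹; simpa [mul_assoc] using this)⟩

theorem iso_pgroup [Finite G] : IsPGroup 2 (closure (Iso D)) :=
  pgroup_closure (fun t ht => h.s2 ht.1) (fun s hs t ht => by
    have := h.iso_cj (subset_closure ht.1) hs; rwa [iv (h.s2 ht.1)] at this)
    fun s hs t ht => ⟨2, h.p4 hs.1 ht.1 (hs.2 t ht.1)⟩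

theorem iso_norm {g w : G} (hg : g ∈ closure D) (hw : w ∈ closure (Iso D)) : g * w * g⁻¹ ∈ closure (Iso D) := by
  induction hw using closure_induction with
  | mem x hx => exact subset_closure (h.iso_cj hg hx)
  | one => simp
  | mul x y _ _ hx hy => have := mul_mem hx hy; simpa [mul_assoc] using this
  | inv x _ hx => have := inv_mem hx; simpa [mul_assoc] using this

/-- a member of `D` in a `2`-subgroup normalised by `D` is isolated -/
theorem iso_of_mem {Q : Subgroup G} (hQ : IsPGroup 2 Q) (n : ∀ b ∈ D, ∀ q ∈ Q, b * q * b ∈ Q) (hd : d ∈ D)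
    (m : d ∈ Q) : d ∈ Iso D :=
  ⟨hd, fun b hb => not_adj_of_mem hQ (h.s2 hd) (k := 1) (by
    have := mul_mem m (n b hb d m); simpa [pow_two, mul_assoc] using this)⟩

theorem iso_inter [Finite G] (hd : d ∈ D) (m : d ∈ closure (Iso D)) : d ∈ Iso D :=
  h.iso_of_mem h.iso_pgroup (fun b hb q hq => by
    have := h.iso_norm (subset_closure hb) hq; rwa [iv (h.s2 hb)] at this) hd m

theorem cm_iso {a' b' : G} (ha : a ∈ D) (hb : b ∈ D) (ha' : a' ∈ D) (hb' : b' ∈ D) (n : Adj a a') (n' : Adj b b')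
    (k : ¬ FR D a b) (nc : a * b ≠ b * a) : a * b * a * b ∈ Iso D := by
  have a2 := h.s2 ha
  have b2 := h.s2 hb
  have na : ¬ Adj a b := fun j => k (oa ha hb j)
  have m := h.cmD ha hb na nc
  have q := h.q4 ha hb na
  refine ⟨m, fun x hx j => k ?_⟩
  have key : ∀ {u v u' : G}, u ∈ D → v ∈ D → u' ∈ D → Adj u u' → u * v * u * v = v * u * v * u →
      u * v * u * v ∈ D → Adj (u * v * u * v) x → FR D u x := fun {u v u'} hu hv hu' n1 q1 m1 j1 => by
    have e : u * (v * u * v) = u * v * u * v := by simp only [mul_assoc]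
    rcases h.lemA hu (h.cj u hu v hv) (by rw [e, q1]) (e ▸ m1) hx (e ▸ j1) with k1 | k1
    · exact oa hu hx k1
    · exact (h.comp_cj hu hu' hv n1).trans (oa (h.cj u hu v hv) hx k1)
  exact (key ha hb ha' n q m j).trans (key hb ha hb' n' q.symm (q ▸ m) (q ▸ j)).symm

theorem X_comp {a' : G} (ha : a ∈ D) (ha' : a' ∈ D) (n : Adj a a') (he : e ∈ D) (c : e * a = a * e)
    (m : e * a ∈ D) : FR D a e ∨ e ∈ Iso D := by
  by_contra k
  rw [not_or] at k
  refine k.2 ⟨he, fun x hx j => k.1 ?_⟩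
  have a2 := h.s2 ha
  have e2 := h.s2 he
  have e1 : a * (e * a) = e := by apply W; simp only [mul_assoc, rc c, r2 a2]
  have e3 : e * (e * a) = a := r2 e2 a
  rcases h.lemA ha m (by apply W; simp only [mul_assoc, rc c, r2 a2]) (e1.symm ▸ he) hx (e1.symm ▸ j) with k1 | k1
  · exact (oa ha hx k1).trans (oa hx he j.symm)
  rcases h.lemA he m (by apply W; simp only [mul_assoc, rc c, r2 e2]) (e3.symm ▸ ha) ha' (e3.symm ▸ n) with k2 | k2
  · exact (oa ha ha' n).trans (oa ha' he k2.symm)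
  · exact (((oa ha ha' n).trans (oa ha' m k2.symm)).trans (oa m hx k1)).trans (oa hx he j.symm)

theorem fr_conj (ha : a ∈ D) (r : FR D a b) : ∃ g ∈ closure D, g * a * g⁻¹ = b := by
  induction r with
  | refl => exact ⟨1, one_mem _, by simp⟩
  | tail _ n ih =>
    obtain ⟨g, hg, e⟩ := ih
    obtain ⟨s, hs, -, e'⟩ := h.swap' n.1 n.2.1 n.2.2.2
    exact ⟨s * g, mul_mem (subset_closure hs) hg, by
      rw [← e', ← e, _root_.mul_inv_rev, iv (h.s2 hs)]; simp only [mul_assoc]⟩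

theorem cls_of_conn (c : IsConnectedSet (OddAdj D) D) : Cls D := fun a ha b hb => h.fr_conj ha (c a ha b hb)

theorem SA_conj {g u v : G} (hg : g ∈ closure D) (s : SA D u v) : SA D (g * u * g⁻¹) (g * v * g⁻¹) := fun x hx => by
  have := s _ (h.cjc (inv_mem hg) hx)
  rw [← adj_conj g, ← adj_conj (a := v) g] at this
  simpa [mul_assoc] using this

theorem SA_cj {u v : G} (hd : d ∈ D) (s : SA D u v) : SA D (d * u * d) (d * v * d) := by
  have := h.SA_conj (subset_closure hd) s; rwa [iv (h.s2 hd)] at this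

theorem SA_of_le [Finite G] (cl : Cls D) {u v : G} (hu : u ∈ D) (hv : v ∈ D)
    (le : ∀ x ∈ D, Adj u x → Adj v x) : SA D u v := by
  obtain ⟨g, hg, e⟩ := cl v hv u hu
  have : {x | x ∈ D ∧ Adj u x} = {x | x ∈ D ∧ Adj v x} := by
    refine Set.eq_of_subset_of_ncard_le (fun x hx => ⟨hx.1, le x hx.1 hx.2⟩) ?_ (Set.toFinite _)
    refine Set.ncard_le_ncard_of_injOn (fun x => g * x * g⁻¹) (fun x hx => ⟨h.cjc hg hx.1, e ▸ hx.2.conj g⟩)
      (fun x _ y _ e => by simpa using e) (Set.toFinite _)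
  intro x hx
  exact ⟨le x hx, fun j => (this.symm ▸ (⟨hx, j⟩ : x ∈ {x | x ∈ D ∧ Adj v x}) : x ∈ {x | x ∈ D ∧ Adj u x}).2⟩

theorem SA_mul [Finite G] (cl : Cls D) (hb : b ∈ D) (hc : c ∈ D) (bc : b * c = c * b) (m : b * c ∈ D)
    (s : SA D b c) : SA D (b * c) b :=
  h.SA_of_le cl m hb fun x hx j => (h.lemA hb hc bc m hx j).elim id (s x hx).2

theorem S_nc {u : G} (hc : c ∈ D) (hy : y ∈ D) (n : Adj c y) (hu : u ∈ HS D c y) : u * y ≠ y * u := fun e =>
  h.lemN hc hy (hu.2.1 ▸ hu.2.2.1) (h.ne1 hu.1) (h.s2 hu.1) hu.2.1 e n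

theorem S_map {u : G} (hc : c ∈ D) (hy : y ∈ D) (n : Adj c y) (hu : u ∈ HS D c y) : u * y * u * y ∈ HS D y c := by
  obtain ⟨f, hf, h1, h2, h3⟩ := h.nv hu.1 hy hu.2.2.2 (h.S_nc hc hy n hu)
  have u2 := h.s2 hu.1
  have y2 := h.s2 hy
  have f2 := h.s2 hf
  rw [show u * y * u * y = f by apply W; simp only [mul_assoc, r2 u2, r2 y2, r3 h3, rc h1, rc h2]]
  refine ⟨hf, h2, ?_, h.lemN (z := u) hf hc ?_ (h.ne1 hu.1) u2 h1.symm hu.2.1⟩
  · rw [show f * y = u * y * u by apply W; simp only [mul_assoc, r2 u2, r2 y2, r3 h3, rc h1, rc h2]]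
    exact h.cj y hy u hu.1
  · rw [show f * u = y * u * y by apply W; simp only [mul_assoc, r2 u2, r2 y2, r3 h3, rc h1, rc h2]]
    exact h.cj u hu.1 y hy

theorem S_adj {u : G} (hc : c ∈ D) (hy : y ∈ D) (n : Adj c y) (hu : u ∈ HS D c y) : Adj (u * c) y := by
  have u2 := h.s2 hu.1
  have e : u * (u * c) = c := r2 u2 c
  exact (h.lemA hu.1 hu.2.2.1 (by apply W; simp only [mul_assoc, rc hu.2.1.symm, r2 u2]) (e.symm ▸ hc) hy
    (e.symm ▸ n)).resolve_left hu.2.2.2

theorem X_nadj {u v : G} (hc : c ∈ D) (hu : u ∈ D) (hv : v ∈ D) (uc : u * c = c * u) (m : u * c ∈ D)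
    (vc : v * c = c * v) : ¬ Adj u v :=
  h.lemN hu hv m (h.ne1 hc) (h.s2 hc) uc.symm vc.symm

theorem S_inj {u v : G} (hc : c ∈ D) (hy : y ∈ D) (n : Adj c y) (hu : u ∈ HS D c y) (hv : v ∈ HS D c y)
    (e : u * y * u * y = v * y * v * y) : u = v := by
  have u2 := h.s2 hu.1
  have v2 := h.s2 hv.1
  have y2 := h.s2 hy
  have e1 : u * y * u = v * y * v := mul_right_cancel e
  have e2 : u * v * y = y * (u * v) := by
    rw [show u * v * y = u * (v * y * v) * v by apply W; simp only [mul_assoc, r2 v2], ← e1]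
    apply W; simp only [mul_assoc, r2 u2]
  have ad := h.S_adj hc hy n hu
  have uc := hu.2.1.symm
  have vc := hv.2.1.symm
  obtain ⟨k, hk, k2, h1, h2, h3⟩ := h.na hu.1 hv.1 (h.X_nadj hc hu.1 hv.1 hu.2.1 hu.2.2.1 hv.2.1)
  rcases hk with rfl | hk
  · rw [mul_one] at h3
    by_contra ne
    refine h.lemN (z := u * v) hu.2.2.1 hy ?_ (fun j => ne ?_) ?_ ?_ e2 ad
    · rw [show u * c * (u * v) = v * c by apply W; simp only [mul_assoc, rc uc, rc vc, r2 u2]]
      exact hv.2.2.1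
    · rw [← iv u2]; exact inv_eq_of_mul_eq_one_right j
    · apply W; simp only [mul_assoc, rc h3, r2 u2, r2 v2, one_mul]
    · apply W; simp only [mul_assoc, rc h3, rc uc, rc vc, r2 u2]
  · have ek : k = (u * v) * (u * v) := by apply W; simp only [mul_assoc, r3 h3, rc h1, rc h2, r2 u2, r2 v2]
    have kc : k * c = c * k := by rw [ek]; apply W; simp only [mul_assoc, rc uc, rc vc]
    refine (h.lemN (z := k) hu.2.2.1 hy ?_ (h.ne1 hk) k2 ?_ ?_ ad).elim
    · rw [show u * c * k = v * (u * c) * v by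
        apply W; simp only [mul_assoc, r3 h3, rc h1, rc h2, rc uc, rc vc, rc kc, r2 u2, r2 v2]]
      exact h.cj _ hu.2.2.1 v hv.1
    · apply W; simp only [mul_assoc, rc h1, rc kc]
    · rw [ek, mul_assoc, e2, ← mul_assoc, e2, mul_assoc]

/-- Lemma S -/
theorem lemS [Finite G] {u : G} (hc : c ∈ D) (hy : y ∈ D) (n : Adj c y) (hu : u ∈ HS D c y) :
    ∃ f ∈ HS D y c, f * c * f * c = u := by
  have le : (HS D c y).ncard ≤ (HS D y c).ncard :=
    Set.ncard_le_ncard_of_injOn (fun u => u * y * u * y) (fun u hu => h.S_map hc hy n hu)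
      (fun u hu v hv e => h.S_inj hc hy n hu hv e) (Set.toFinite _)
  obtain ⟨f, hf, e⟩ := Set.surj_on_of_inj_on_of_ncard_le (s := HS D y c) (t := HS D c y)
    (fun f _ => f * c * f * c) (fun f hf => h.S_map hy hc n.symm hf)
    (fun u v hu hv e => h.S_inj hy hc n.symm hu hv e) le (Set.toFinite _) u hu
  exact ⟨f, hf, e.symm⟩

/-- Lemma AB -/
theorem lemAB [Finite G] {T : Set G} (hT : T ⊆ D) (c : ∀ s ∈ T, ∀ t ∈ T, t * s * t ∈ T)
    (na : ∀ s ∈ T, ∀ t ∈ T, ¬ Adj s t) (q : ∀ s ∈ T, ∀ t ∈ T, s * t ≠ t * s → s * t * s * t ∈ T)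
    (tr : ∀ s ∈ T, ∀ t ∈ T, ∃ g, (∀ u ∈ T, g * u * g⁻¹ ∈ T) ∧ g * s * g⁻¹ = t) :
    ∀ s ∈ T, ∀ t ∈ T, s * t = t * s := by
  intro s hs t ht
  by_contra nc
  haveI : Fact (Nat.Prime 2) := ⟨Nat.prime_two⟩
  have P := pgroup_closure (fun t ht => h.s2 (hT ht)) c fun s hs t ht => ⟨2, h.p4 (hT hs) (hT ht) (na s hs t ht)⟩
  haveI := P.isNilpotent
  haveI : Nontrivial (closure T) := ⟨⟨⟨s, subset_closure hs⟩, 1, fun e => h.ne1 (hT hs) (congrArg Subtype.val e)⟩⟩
  have lt := IsSolvable.commutator_lt_top_of_nontrivial (closure T)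
  have le : closure T ≤ ⁅closure T, closure T⁆ := by
    rw [closure_le]
    intro u hu
    obtain ⟨g, hg, e⟩ := tr _ (q s hs t ht nc) u hu
    have := commutator_mem_commutator (subset_closure (hg s hs)) (subset_closure (hg t ht))
    rw [← conjugate_commutatorElement, commutatorElement_def, iv (h.s2 (hT hs)), iv (h.s2 (hT ht)), e] at this
    exact this
  rw [← map_subtype_commutator] at le
  refine lt.ne (eq_top_iff.2 fun u _ => ?_)
  obtain ⟨v, hv, e⟩ := le u.2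
  rwa [← show v = u from Subtype.ext e]

theorem SA_cm [Finite G] (cl : Cls D) {s t : G} (hs : s ∈ D) (ht : t ∈ D) (na : ¬ Adj s t) (nc : s * t ≠ t * s)
    (a : SA D s (t * s * t)) : SA D (s * t * s * t) s := by
  have e : s * (t * s * t) = s * t * s * t := by simp only [mul_assoc]
  rw [← e]
  exact h.SA_mul cl hs (h.cj s hs t ht) (by rw [e, h.q4 hs ht na]) (e ▸ h.cmD hs ht na nc) a

theorem SA_comm [Finite G] (cl : Cls D) (hd : d ∈ D) (he : e ∈ D) (s : SA D d e) : d * e = e * d := by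
  have c : ∀ s ∈ {u | u ∈ D ∧ SA D d u}, ∀ t ∈ {u | u ∈ D ∧ SA D d u}, t * s * t ∈ {u | u ∈ D ∧ SA D d u} :=
    fun s hs t ht => ⟨h.cj s hs.1 t ht.1, by
      have := h.SA_cj ht.1 (ht.2.symm.trans hs.2)
      rw [h.s2 ht.1, one_mul] at this
      exact ht.2.trans this⟩
  have na : ∀ s ∈ {u | u ∈ D ∧ SA D d u}, ∀ t ∈ {u | u ∈ D ∧ SA D d u}, ¬ Adj s t := fun s hs t ht j =>
    (((hs.2.symm.trans ht.2) t ht.1).1 j).1 rfl
  refine h.lemAB (T := {u | u ∈ D ∧ SA D d u}) (fun _ hu => hu.1) c na (fun s hs t ht nc => ?_)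
    (fun s hs t ht => ?_) d ⟨hd, SA.refl _ _⟩ e ⟨he, s⟩
  · exact ⟨h.cmD hs.1 ht.1 (na s hs t ht) nc, hs.2.trans
      (h.SA_cm cl hs.1 ht.1 (na s hs t ht) nc (hs.2.symm.trans (c s hs t ht).2)).symm⟩
  · obtain ⟨g, hg, e⟩ := cl s hs.1 t ht.1
    refine ⟨g, fun u hu => ⟨h.cjc hg hu.1, ?_⟩, e⟩
    have := h.SA_conj hg (hs.2.symm.trans hu.2)
    rw [e] at this
    exact ht.2.trans this

theorem SA_of_C (hd : d ∈ D) (he : e ∈ D) (le : ∀ x ∈ D, x * e = e * x → x * d = d * x)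
    (le' : ∀ x ∈ D, x * d = d * x → x * e = e * x) (hx : x ∈ D) (j : Adj e x) : Adj d x := by
  by_contra na
  obtain ⟨f, hf, h1, h2, h3⟩ := h.nv hd hx na fun c => h.nadj he hx (le' x hx c.symm).symm j
  refine h.lemN (z := f) hx he ?_ (h.ne1 hf) (h.s2 hf) h2 (le' f hf h1) j.symm
  rw [show x * f = d * x * d by apply W; simp only [mul_assoc, r3 h3, r2 (h.s2 hd)]]
  exact h.cj x hx d hd

theorem C_of_SA [Finite G] (cl : Cls D) (hd : d ∈ D) (he : e ∈ D) (s : SA D d e) (hx : x ∈ D)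
    (xd : x * d = d * x) : x * e = e * x := by
  by_contra nc
  have x2 := h.s2 hx
  have e2 := h.s2 he
  have na : ¬ Adj e x := fun j => h.nadj hd hx xd.symm ((s x hx).2 j)
  have s1 : SA D e (x * e * x) := by
    have := h.SA_cj hx s
    rw [xd, mul_assoc, x2, mul_one] at this
    exact s.symm.trans this
  have s2 := h.SA_cm cl he hx na (Ne.symm nc) s1
  obtain ⟨c, hc, h1, h2, h3⟩ := h.nv he hx na (Ne.symm nc)
  have c2 := h.s2 hc
  rw [show e * x * e * x = c by apply W; simp only [mul_assoc, r3 h3, rc h1, rc h2, r2 e2, r2 x2]] at s2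
  rw [show x * e * x = e * c by apply W; simp only [mul_assoc, r3 h3, rc h1, rc h2, r2 e2, r2 x2]] at s1
  have hw : e * c ∈ D := by
    rw [show e * c = x * e * x by apply W; simp only [mul_assoc, r3 h3, rc h1, rc h2, r2 e2, r2 x2]]
    exact h.cj e he x hx
  have : ∃ y ∈ D, Adj c y ∧ ¬ Adj x y := by
    by_contra k
    push Not at k
    exact nc (h.SA_comm cl hx he ((h.SA_of_le cl hc hx k).symm.trans s2))
  obtain ⟨y, hy, n1, n2⟩ := this
  obtain ⟨f, hf, ef⟩ := h.lemS (u := x) hc hy n1 ⟨hx, h2.symm, by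
    rw [show x * c = e * x * e by apply W; simp only [mul_assoc, r3 h3, rc h1, rc h2, r2 e2, r2 x2]]
    exact h.cj x hx e he, n2⟩
  have n3 : ¬ Adj f c := hf.2.2.2
  have n4 : ¬ Adj f e := fun j => n3 ((s2 f hf.1).2 j.symm).symm
  have n5 : ¬ Adj f (e * c) := fun j => n4 ((s1 f hf.1).2 j.symm).symm
  have key : ∀ w ∈ D, ¬ Adj f w → Commute f (w * f * w) := fun w hw j => by
    have := h.q4 hf.1 hw j
    show f * (w * f * w) = w * f * w * f
    rw [← this]; simp only [mul_assoc]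
  have C : Commute f (f * (c * f * c) * (e * f * e) * (e * c * f * (e * c))) :=
    (((Commute.refl f).mul_right (key c hc n3)).mul_right (key e he n4)).mul_right (key _ hw n5)
  rw [show f * (c * f * c) * (e * f * e) * (e * c * f * (e * c)) = (f * c * f * c) * e * (f * c * f * c) * e by
    apply W; simp only [mul_assoc, rc h1, r2 e2], ef,
    show x * e * x * e = c by apply W; simp only [mul_assoc, r3 h3, rc h1, rc h2, r2 e2, r2 x2, r2 c2]] at C
  refine h.ne1 hx ?_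
  rw [← ef]; apply W; simp only [mul_assoc, rc C.eq.symm, r2 c2, r2 (h.s2 hf.1), one_mul]

theorem three [Finite G] (cl : Cls D) (ha : a ∈ D) (hb : b ∈ D) (ab : b * a = a * b) (m : b * a ∈ D)
    (ne : ¬ SA D a b) : ∃ f ∈ D, ∃ x ∈ D, ¬ Adj f a ∧ ¬ Adj x b ∧ f * a * f * a = b ∧ x * b * x * b = f ∧
      (a * x) ^ 3 = 1 ∧ a ≠ x := by
  have : ∃ y ∈ D, Adj a y ∧ ¬ Adj b y := by
    by_contra k
    push Not at k
    exact ne (h.SA_of_le cl ha hb k)
  obtain ⟨y, hy, n1, n2⟩ := this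
  obtain ⟨f, hf, ef⟩ := h.lemS (u := b) ha hy n1 ⟨hb, ab, m, n2⟩
  have a2 := h.s2 ha
  have b2 := h.s2 hb
  have f2 := h.s2 hf.1
  obtain ⟨k, -, -, h1, h2, h3⟩ := h.na hf.1 ha hf.2.2.2
  have : k = b := by rw [← ef]; apply W; simp only [mul_assoc, r3 h3, rc h2, r2 a2, r2 f2]
  subst this
  have fa : f * a = a * f * k := by apply W; simp only [mul_assoc, r3 h3, rc h2, r2 a2, r2 b2]
  have m1 : f * k ∈ D := by
    rw [show f * k = a * f * a by apply W; simp only [mul_assoc, r3 h3, rc h2, r2 a2]]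
    exact h.cj f hf.1 a ha
  have : ∃ y ∈ D, Adj k y ∧ ¬ Adj f y := by
    by_contra j
    push Not at j
    have := h.C_of_SA cl hb hf.1 (h.SA_of_le cl hb hf.1 j) ha h2.symm
    rw [h3] at this
    exact h.ne1 hb (by simpa using this)
  obtain ⟨z, hz, n3, n4⟩ := this
  obtain ⟨x, hx, ex⟩ := h.lemS (u := f) hb hz n3 ⟨hf.1, h1.symm, m1, n4⟩
  have x2 := h.s2 hx.1
  obtain ⟨l, -, -, h4, h5, h6⟩ := h.na hx.1 hb hx.2.2.2
  have : l = f := by rw [← ex]; apply W; simp only [mul_assoc, r3 h6, rc h5, r2 b2, r2 x2]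
  subst this
  have c3 : k * (a * x) ^ 3 = (a * x) ^ 3 * k := by
    apply W; simp only [pow_succ, pow_zero, one_mul, mul_assoc, r3 fa, r3 h6, rc h2, rc h4, rc h5, r2 b2, r2 f2]
  have c1 : k * (a * x) ≠ a * x * k := fun j => by
    have : a * x * k * l = a * x * k := by
      nth_rewrite 2 [← j]; apply W; simp only [mul_assoc, r3 h6, rc h2, r2 f2]
    exact h.ne1 hf.1 (by simpa using this)
  have ad : Adj a x := by
    by_contra j
    have p := h.p4 ha hx.1 j
    refine c1 ?_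
    have : a * x = ((a * x) ^ 3)⁻¹ := eq_inv_of_mul_eq_one_left (by rw [← pow_succ']; exact p)
    rw [this]; exact (Commute.inv_right c3).eq
  have m2 := h.dihD ha hx.1 3
  have n5 := h.lemN (z := k) ha m2 (ab ▸ m) (h.ne1 hb) b2 h2 (by rw [← mul_assoc, c3, mul_assoc, h2, mul_assoc])
  refine ⟨l, hf.1, x, hx.1, hf.2.2.2, hx.2.2.2, ef, ex, ?_, ad.1⟩
  by_contra j
  refine n5 ⟨fun e => j (by simpa using e.symm), ?_⟩
  have := ord_conj a ((a * x) ^ 3)
  rw [iv a2, mul_assoc] at this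
  rw [this]; exact odd_pow ad.2 3

end RI

end Cfsg.Agent.H3.Rt
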