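import Cfsg.Agent.H3.RI2
import Cfsg.Prelude.Def_QuasithinSetup

/-! Root involutions, part 3: normal subgroups. -/

set_option autoImplicit false
set_option linter.unusedSectionVars false
set_option linter.unusedVariables false

namespace Cfsg.Agent.H3.Rt
open Subgroup

variable {G : Type*} [Group G]

theorem le_norm {M B : Subgroup G} (h : ∀ g ∈ M, ∀ x ∈ B, g * x * g⁻¹ ∈ B) : M ≤ normalizer (B : Set G) :=
  fun g hg => mem_normalizer_iff.2 fun x => ⟨h g hg x, fun m => by
    have := h _ (inv_mem hg) _ m; simpa [mul_assoc] using this⟩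

theorem closure_cj {T : Set G} {g : G} (h : ∀ t ∈ T, g * t * g⁻¹ ∈ closure T) {x : G} (hx : x ∈ closure T) :
    g * x * g⁻¹ ∈ closure T := by
  induction hx using closure_induction with
  | mem x hx => exact h x hx
  | one => simp
  | mul x y _ _ hx hy => have := mul_mem hx hy; simpa [mul_assoc] using this
  | inv x _ hx => have := inv_mem hx; simpa [mul_assoc] using this

theorem mem_twoZ {D : Set G} (gen : closure D = ⊤) {m : G} (h : ∀ d ∈ D, d * m * d⁻¹ * m⁻¹ ∈ pCore 2 G) :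
    m ∈ twoZCore G := by
  refine mem_center_iff.2 fun g => ?_
  obtain ⟨g, rfl⟩ := QuotientGroup.mk'_surjective _ g
  have : closure D ≤ (centralizer {QuotientGroup.mk' (pCore 2 G) m}).comap (QuotientGroup.mk' (pCore 2 G)) := by
    rw [closure_le]
    intro d hd
    refine mem_centralizer_singleton_iff.2 ?_
    have := (QuotientGroup.eq_one_iff _).2 (h d hd)
    rw [← mul_inv_eq_one]
    simpa [mul_assoc] using this
  exact mem_centralizer_singleton_iff.1 (this (gen ▸ mem_top g))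

theorem twoZ_comm {m : G} (hm : m ∈ twoZCore G) (g : G) : g * m * g⁻¹ * m⁻¹ ∈ pCore 2 G := by
  have := mem_center_iff.1 hm (QuotientGroup.mk' (pCore 2 G) g)
  rw [← QuotientGroup.eq_one_iff, ← mul_inv_eq_one] at *
  simpa [mul_assoc] using this

theorem core_le_twoZ : pCore 2 G ≤ twoZCore G := fun x hx => by
  show QuotientGroup.mk' (pCore 2 G) x ∈ center _
  rw [show QuotientGroup.mk' (pCore 2 G) x = 1 from (QuotientGroup.eq_one_iff _).2 hx]
  exact one_mem _

theorem twoZ_solvable [Finite G] : Group.IsSolvable (twoZCore G) := by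
  haveI : Fact (Nat.Prime 2) := ⟨Nat.prime_two⟩
  haveI := (H2.pCore_isPGroup (p := 2) (G := G)).isNilpotent
  haveI : Group.IsSolvable ((pCore 2 G).subgroupOf (twoZCore G)) :=
    H2.isSolvable_of_equiv (subgroupOfEquivOfLe core_le_twoZ).symm
  haveI : Group.IsSolvable (center (G ⧸ pCore 2 G)) :=
    Group.isSolvable_of_comm fun a b => Subtype.ext (mem_center_iff.1 b.2 a)
  refine solvable_of_ker_le_range ((pCore 2 G).subgroupOf (twoZCore G)).subtype
    (((QuotientGroup.mk' (pCore 2 G)).comp (twoZCore G).subtype).codRestrict (center _) fun x => x.2) ?_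
  intro x hx
  exact ⟨⟨x, (QuotientGroup.eq_one_iff (N := pCore 2 G) x.1).1 (congrArg Subtype.val hx)⟩, rfl⟩

theorem cls_of {D : Set G} (h : IsRootInvolutionClass D) : Cls D := fun a ha b hb => by
  obtain ⟨g, e⟩ := h.2.2 a ha b hb
  exact ⟨g, h.1.2 ▸ mem_top g, e.symm⟩

/-- `D ∩ D²` is not empty -/
def DD (D : Set G) : Prop := ∃ b ∈ D, ∃ c ∈ D, b * c = c * b ∧ b * c ∈ D

theorem dd_of {D : Set G} (h : (D ∩ commutingProducts D).Nonempty) : DD D := by
  obtain ⟨_, hd, a, ha, b, hb, c, -, rfl⟩ := h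
  exact ⟨a, ha, b, hb, c, hd⟩

namespace RI
variable {D : Set G} (h : RI D) {a b c d e x y : G}
include h

theorem prod_all (cl : Cls D) (dd : DD D) (hd : d ∈ D) : ∃ b ∈ D, ∃ c ∈ D, b * c = c * b ∧ b * c = d := by
  obtain ⟨b, hb, c, hc, bc, m⟩ := dd
  obtain ⟨g, hg, e⟩ := cl _ m d hd
  refine ⟨_, h.cjc hg hb, _, h.cjc hg hc, ?_, by rw [← e]; group⟩
  rw [show g * b * g⁻¹ * (g * c * g⁻¹) = g * (b * c) * g⁻¹ by group, bc]; group

theorem B_comm {M : Subgroup G} (n : ∀ d ∈ D, ∀ m ∈ M, d * m * d ∈ M) (nM : ∀ d ∈ D, d ∉ M) (hb : b ∈ D)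
    (hc : c ∈ D) (bc : b * c = c * b) (hd : b * c ∈ D) (hx : x ∈ D) (m : b * c * x ∈ M) :
    b * c * x = x * (b * c) := by
  have key : ∀ {u v : G}, u ∈ D → v ∈ D → v * (u * x) ∈ M → ¬ Adj u x := fun {u v} hu hv m j => by
    obtain ⟨k, hk⟩ := j.2
    have : ∀ i : ℕ, (u * x * (u * x)) ^ i ∈ M := fun i => pow_mem (by
      have := mul_mem (n v hv _ m) m
      rwa [show v * (v * (u * x)) * v * (v * (u * x)) = u * x * (u * x) by
        apply W; simp only [mul_assoc, r2 (h.s2 hv)]] at this) i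
    have e := this (k + 1)
    rw [odd_root (hk ▸ pow_orderOf_eq_one (u * x))] at e
    exact nM v hv (by have := mul_mem m (inv_mem e); rwa [mul_inv_cancel_right] at this)
  have na : ¬ Adj (b * c) x := fun j => (h.lemA hb hc bc hd hx j).elim
    (key hb hc (by rwa [← mul_assoc, ← bc])) (key hc hb (by rwa [← mul_assoc]))
  by_contra nc
  exact nM _ (h.cmD hd hx na nc) (by have := mul_mem m m; simpa only [mul_assoc] using this)

end RI

/-- Lemma B -/
theorem lemB [Finite G] {D : Set G} (hD : IsRootInvolutionSet D) (cl : Cls D) (dd : DD D) {M : Subgroup G}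
    [hM : M.Normal] (nM : ∀ d ∈ D, d ∉ M) : M ≤ twoZCore G := by
  have h := RI.of hD
  have st : ∀ d ∈ D, ∀ m ∈ M, d * (m * d * m⁻¹) ∈ M := fun d hd m hm => by
    have := mul_mem (hM.conj_mem m hm d) (inv_mem hm)
    rw [iv (h.s2 hd)] at this; simpa only [mul_assoc] using this
  have s1 : ∀ d ∈ D, ∀ m ∈ M, d * (m * d * m⁻¹) = (m * d * m⁻¹) * d := fun d hd m hm => by
    obtain ⟨b, hb, c, hc, bc, rfl⟩ := h.prod_all cl dd hd
    exact h.B_comm (fun d hd m hm => by have := hM.conj_mem m hm d; rwa [iv (h.s2 hd)] at this) nM hb hc bc hd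
      (hD.3 _ hd m) (st _ hd m hm)
  intro m hm
  refine mem_twoZ hD.2 fun d hd => ?_
  let T : Set G := {t | ∃ m ∈ M, t = m * d * m⁻¹}
  have TD : ∀ t ∈ T, t ∈ D := by rintro _ ⟨m, -, rfl⟩; exact hD.3 d hd m
  have Tc : ∀ s ∈ T, ∀ t ∈ T, s * t = t * s := by
    rintro _ ⟨m, hm, rfl⟩ _ ⟨m', hm', rfl⟩
    have := s1 _ (hD.3 d hd m) _ (mul_mem hm' (inv_mem hm))
    simpa [mul_assoc] using this
  have P : IsPGroup 2 (closure T) := pgroup_closure (fun t ht => h.s2 (TD t ht))
    (fun s hs t ht => by rw [← Tc s hs t ht, mul_assoc, h.s2 (TD t ht), mul_one]; exact hs)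
    fun s hs t ht => ⟨2, h.p4 (TD s hs) (TD t ht) (h.nadj (TD s hs) (TD t ht) (Tc s hs t ht))⟩
  have le : closure T ⊓ M ≤ pCore 2 G :=
    (H2.le_pCore_map_subtype inf_le_right (le_norm fun g hg x hx => ⟨closure_cj (by
      rintro _ ⟨m, hm, rfl⟩
      exact subset_closure ⟨g * m, mul_mem hg hm, by group⟩) hx.1, hM.conj_mem _ hx.2 g⟩)
      (P.to_le inf_le_left)).trans (H2.pCore_map_subtype_le_of_normal M)
  rw [iv (h.s2 hd), show d * m * d * m⁻¹ = d * (m * d * m⁻¹) by simp only [mul_assoc]]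
  exact le ⟨mul_mem (subset_closure ⟨1, one_mem _, by simp⟩) (subset_closure ⟨m, hm, rfl⟩), st d hd m hm⟩

theorem normal_top {D : Set G} (gen : closure D = ⊤) (cl : Cls D) {M : Subgroup G} [hM : M.Normal] {d : G}
    (hd : d ∈ D) (m : d ∈ M) : M = ⊤ := by
  rw [eq_top_iff, ← gen, closure_le]
  intro e he
  obtain ⟨g, -, rfl⟩ := cl d hd e he
  exact hM.conj_mem d m g

theorem lemB' [Finite G] {D : Set G} (hD : IsRootInvolutionSet D) (cl : Cls D) (dd : DD D) {M : Subgroup G}
    [hM : M.Normal] (ne : M ≠ ⊤) : M ≤ twoZCore G :=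
  lemB hD cl dd fun d hd m => ne (normal_top hD.2 cl hd m)

theorem perfect {D : Set G} (hD : IsRootInvolutionSet D) (cl : Cls D) (dd : DD D) : commutator G = ⊤ := by
  have h := RI.of hD
  obtain ⟨b, hb, c, hc, bc, m⟩ := dd
  obtain ⟨g, -, e⟩ := cl b hb c hc
  refine normal_top hD.2 cl m ?_
  have := commutator_mem_commutator (mem_top b) (mem_top g)
  rw [commutatorElement_def, iv (h.s2 hb)] at this
  rw [← e, _root_.commutator_def]; simpa only [mul_assoc] using this

theorem twoZ_ne_top [Finite G] {D : Set G} (hD : IsRootInvolutionSet D) {a b : G} (ha : a ∈ D) (hb : b ∈ D)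
    (n : Adj a b) : twoZCore G ≠ ⊤ := fun e => by
  have h := RI.of hD
  have := twoZ_comm (e ▸ mem_top b) a
  rw [iv (h.s2 ha), iv (h.s2 hb)] at this
  exact not_adj_of_mem H2.pCore_isPGroup (h.s2 ha) (k := 1) (by simpa only [pow_one, pow_two, mul_assoc] using this) n

theorem simple_quot [Finite G] {D : Set G} (hD : IsRootInvolutionSet D) (cl : Cls D) (dd : DD D) {a b : G}
    (ha : a ∈ D) (hb : b ∈ D) (n : Adj a b) : IsSimpleGroup (G ⧸ twoZCore G) := by
  haveI : Nontrivial (G ⧸ twoZCore G) := QuotientGroup.nontrivial_iff.2 (twoZ_ne_top hD ha hb n)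
  refine ⟨fun N hN => ?_⟩
  by_cases e : N.comap (QuotientGroup.mk' (twoZCore G)) = ⊤
  · right
    rw [← map_comap_eq_self_of_surjective (QuotientGroup.mk'_surjective _) N, e]
    exact map_top_of_surjective _ (QuotientGroup.mk'_surjective _)
  · left
    rw [eq_bot_iff]
    intro x hx
    obtain ⟨x, rfl⟩ := QuotientGroup.mk'_surjective _ x
    exact (QuotientGroup.eq_one_iff _).2 (lemB' hD cl dd e hx)

theorem rad_eq [Finite G] {D : Set G} (hD : IsRootInvolutionSet D) (cl : Cls D) (dd : DD D) :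
    twoZCore G ≠ ⊤ → solvableRadical G = twoZCore G := fun ne => by
  refine le_antisymm (sSup_le fun N hN => ?_) (le_sSup ⟨inferInstance, twoZ_solvable⟩)
  haveI := hN.1
  haveI := hN.2
  refine lemB' hD cl dd fun e => ?_
  subst e
  haveI : Group.IsSolvable G := H2.isSolvable_of_equiv topEquiv
  haveI : Nontrivial G := by
    by_contra k
    rw [not_nontrivial_iff_subsingleton] at k
    exact ne (Subsingleton.elim _ _)
  exact (IsSolvable.commutator_lt_top_of_nontrivial G).ne (perfect hD cl dd)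

theorem odd_comm {D : Set G} (hD : IsOddTranspositionSet D) {a b : G} (ha : a ∈ D) (hb : b ∈ D) (n : ¬ Adj a b) :
    a * b = b * a := by
  by_contra nc
  exact hD.2 a ha b hb (((RI.of hD.1).four_iff ha hb).2 ⟨n, nc⟩)

theorem odd_core [Finite G] {D : Set G} (hD : IsOddTranspositionSet D) {a e q : G} (ha : a ∈ D) (he : e ∈ D)
    (c : e * a = a * e) (hq : q ∈ pCore 2 G) : e * (q * a * q⁻¹) = (q * a * q⁻¹) * e := by
  have h := RI.of hD.1
  have N : (pCore 2 G).Normal := inferInstance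
  refine odd_comm hD he (hD.1.3 a ha q) (not_adj_of_mem H2.pCore_isPGroup (h.s2 he) (k := 1) ?_)
  have m : a * (q * a * q⁻¹) ∈ pCore 2 G := by
    have := mul_mem (N.conj_mem q hq a) (inv_mem hq)
    rw [iv (h.s2 ha)] at this; simpa only [mul_assoc] using this
  have := mul_mem (N.conj_mem _ m (e * a)) m
  rw [_root_.mul_inv_rev, iv (h.s2 ha), iv (h.s2 he)] at this
  convert this using 1
  apply W; simp only [pow_one, pow_two, mul_assoc, rc c.symm, r2 (h.s2 ha)]

end Cfsg.Agent.H3.Rt
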