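import Cfsg.Agent.H3.RI3

/-! Root involutions, part 4: components of the commuting graph. -/

set_option autoImplicit false
set_option linter.unusedSectionVars false
set_option linter.unusedVariables false

namespace Cfsg.Agent.H3.Rt
open Subgroup

variable {G : Type*} [Group G]

/-- reachability in the commuting graph -/
abbrev CR (D : Set G) : G → G → Prop := Relation.ReflTransGen (CommAdj D)

theorem ca {D : Set G} {a b : G} (ha : a ∈ D) (hb : b ∈ D) (c : a * b = b * a) : CR D a b := by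
  by_cases e : a = b
  · exact e ▸ .refl
  · exact .single ⟨ha, hb, e, c⟩

theorem CR.symm {D : Set G} {a b : G} (h : CR D a b) : CR D b a := by
  induction h with
  | refl => exact .refl
  | tail _ n ih => exact (ca n.2.1 n.1 n.2.2.2.symm).trans ih

theorem CR.mem {D : Set G} {a b : G} (h : CR D a b) (ha : a ∈ D) : b ∈ D := by
  induction h with
  | refl => exact ha
  | tail _ n _ => exact n.2.1

namespace RI
variable {D : Set G} (h : RI D) {a b c d e g x y z : G}
include h

theorem cr_conj (hg : g ∈ closure D) (r : CR D a b) : CR D (g * a * g⁻¹) (g * b * g⁻¹) := by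
  induction r with
  | refl => exact .refl
  | tail _ n ih =>
    refine ih.trans (ca (h.cjc hg n.1) (h.cjc hg n.2.1) ?_)
    rw [conj_mul, conj_mul, n.2.2.2]

theorem cr_of (ha : a ∈ D) (hb : b ∈ D) (n : ¬ Adj a b) : CR D a b := by
  by_cases c : a * b = b * a
  · exact ca ha hb c
  obtain ⟨f, hf, h1, h2, -⟩ := h.nv ha hb n c
  exact (ca ha hf h1.symm).trans (ca hf hb h2)

theorem adj_of (ha : a ∈ D) (hb : b ∈ D) (n : ¬ CR D a b) : Adj a b := by_contra fun k => n (h.cr_of ha hb k)

/-- the stabiliser of the component of `y` -/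
def St (y : G) : Subgroup G where
  carrier := {g | g ∈ closure D ∧ CR D y (g * y * g⁻¹)}
  one_mem' := ⟨one_mem _, by simpa using .refl⟩
  mul_mem' := fun {g k} hg hk => ⟨mul_mem hg.1 hk.1, hg.2.trans (by
    have := h.cr_conj hg.1 hk.2; simpa [mul_assoc] using this)⟩
  inv_mem' := fun {g} hg => ⟨inv_mem hg.1, by
    have := (h.cr_conj (inv_mem hg.1) hg.2).symm; simpa [mul_assoc] using this⟩

theorem mem_St : g ∈ h.St y ↔ g ∈ closure D ∧ CR D y (g * y * g⁻¹) := Iff.rfl

theorem St_le (r : CR D y x) : h.St y ≤ h.St x := fun g hg =>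
  ⟨hg.1, (r.symm.trans hg.2).trans (h.cr_conj hg.1 r)⟩

theorem St_self (hd : d ∈ D) (r : CR D y d) : d ∈ h.St y :=
  h.St_le r.symm ⟨subset_closure hd, by simpa using .refl⟩

theorem St_cen (hg : g ∈ closure D) (c : g * y = y * g) : g ∈ h.St y := ⟨hg, by rw [c]; simpa using .refl⟩

theorem sw_in {K : Subgroup G} (ha : a ∈ D) (hb : b ∈ D) (o : Odd (orderOf (a * b))) (m1 : a ∈ K) (m2 : b ∈ K) :
    ∃ s ∈ D, s ∈ K ∧ s * a * s⁻¹ = b := by
  obtain ⟨s, hs, m, e⟩ := h.swap' ha hb o
  refine ⟨s, hs, (closure_le _).2 ?_ m, by rwa [iv (h.s2 hs)]⟩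
  rintro _ (rfl | rfl) <;> assumption

theorem swap_pow (ha : a ∈ D) (hb : b ∈ D) (o : Odd (orderOf (a * b))) :
    ∃ i : ℕ, (a * b) ^ i * a * ((a * b) ^ i)⁻¹ = b := by
  obtain ⟨i, -, e⟩ := h.swap ha hb o
  have q := dih_sq (h.s2 ha) (h.s2 hb) (i : ℤ)
  rw [zpow_natCast, mul_assoc] at q
  exact ⟨i, by rw [inv_eq_of_mul_eq_one_right q, ← mul_assoc, e]⟩

theorem F0 (hd : d ∈ D) (hy : y ∈ D) (m : d ∈ h.St y) : CR D y d := by
  by_contra n
  obtain ⟨s, -, m, e⟩ := h.sw_in hy hd (h.adj_of hy hd n).2 (h.St_self hy .refl) m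
  exact n (e ▸ m.2)

theorem F1 {a' : G} (ha : a ∈ D) (ha' : a' ∈ D) (c : a * a' = a' * a) (ne : a * a' ≠ 1) (hx : x ∈ D)
    (m : a * a' * x = x * (a * a')) : CR D a x := by
  have a2 := h.s2 ha
  refine h.cr_of ha hx (h.lemN (z := a * a') ha hx (by rwa [r2 a2]) ne ?_ ?_ m) <;> apply W <;>
    simp only [mul_assoc, rc c.symm, r2 a2, r2 (h.s2 ha'), one_mul]

theorem swap_comm (hy : y ∈ D) (hz : z ∈ closure D) (z2 : z * z = 1) (n : Adj y (z * y * z)) :
    ∃ t ∈ D, t * y * t = z * y * z ∧ t * z = z * t := by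
  have m : ∀ u ∈ D, z * u * z ∈ D := fun u hu => by have := h.cjc hz hu; rwa [iv z2] at this
  obtain ⟨t, ht, -, e⟩ := h.swap' hy (m y hy) n.2
  have := h.swap_uniq hy ht (m t ht) n e (by
    rw [show z * t * z * y * (z * t * z) = z * t * (z * y * z) * t * z by simp only [mul_assoc]]
    nth_rewrite 1 [← e]
    apply W; simp only [mul_assoc, r2 (h.s2 ht)])
  refine ⟨t, ht, e, ?_⟩
  nth_rewrite 1 [this]; apply W; simp only [mul_assoc, r2 z2]

/-- a product of two commuting members of a component that fixes a second component fixes all components -/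
theorem claimW {a' : G} (ha : a ∈ D) (ha' : a' ∈ D) (c : a * a' = a' * a) (hy : y ∈ D) (n : ¬ CR D a y)
    (m : a * a' ∈ h.St y) (hx : x ∈ D) : a * a' ∈ h.St x := by
  by_contra k
  have ne : a * a' ≠ 1 := fun e => k (e ▸ one_mem _)
  have f1 := fun {x : G} => h.F1 (x := x) ha ha' c ne
  have wa : a * a' ∈ h.St a := mul_mem (h.St_self ha .refl) (h.St_self ha' (ca ha ha' c))
  have w2 : a * a' * (a * a') = 1 := by
    apply W; simp only [mul_assoc, rc c.symm, r2 (h.s2 ha), r2 (h.s2 ha'), one_mul]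
  generalize a * a' = w at *
  have cjD : ∀ {z u : G}, z ∈ closure D → z * z = 1 → u ∈ D → z * u * z ∈ D := fun hz z2 hu => by
    have := h.cjc hz hu; rwa [iv z2] at this
  obtain ⟨t, ht, e1, c1⟩ := h.swap_comm hx m.1 w2
    (h.adj_of hx (cjD m.1 w2 hx) fun r => k ⟨m.1, by rwa [iv w2]⟩)
  have t2 := h.s2 ht
  have rt : CR D a t := f1 ht c1.symm
  have z2 : t * w * (t * w) = 1 := by apply W; simp only [mul_assoc, rc c1.symm, r2 t2, r2 w2, one_mul]
  have hz : t * w ∈ closure D := mul_mem (subset_closure ht) m.1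
  have zx : x * (t * w) = t * w * x := by
    rw [show t * w * x = t * (w * x * w) * w by apply W; simp only [mul_assoc, r2 w2], ← e1]
    apply W; simp only [mul_assoc, r2 t2]
  have zt : t * (t * w) = t * w * t := by apply W; simp only [mul_assoc, rc c1.symm]
  have nz : t * w ∉ h.St y := fun j => n (rt.trans (h.F0 ht hy ((mul_mem_cancel_right m).1 j)).symm)
  have ew : w = t * (t * w) := (r2 t2 w).symm
  generalize t * w = z at *
  obtain ⟨s, hs, e2, c2⟩ := h.swap_comm hy hz z2 (h.adj_of hy (cjD hz z2 hy) fun r => nz ⟨hz, by rwa [iv z2]⟩)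
  have s2 := h.s2 hs
  have key : ∀ g ∈ closure D, g * z = z * g → g * t * g⁻¹ = s → CR D a (g⁻¹ * y * g) := fun g hg c3 e3 => by
    have := h.cjc (inv_mem hg) hy
    rw [inv_inv] at this
    refine f1 this ?_
    have e4 : w = g⁻¹ * (s * z) * g := by rw [ew, ← e3, mul_assoc g⁻¹, mul_assoc _ z, ← c3]; group
    have e5 : s * z * y = y * (s * z) := by
      rw [show s * z * y = s * (z * y * z) * z by apply W; simp only [mul_assoc, r2 z2], ← e2]
      apply W; simp only [mul_assoc, r2 s2]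
    rw [e4, show g⁻¹ * (s * z) * g * (g⁻¹ * y * g) = g⁻¹ * (s * z * y) * g by group, e5]; group
  by_cases j : Adj t s
  · obtain ⟨i, e3⟩ := h.swap_pow ht hs j.2
    have m1 : t * s ∈ h.St y := ⟨mul_mem (subset_closure ht) (subset_closure hs), by
      have := m.2
      rw [iv w2, ew] at this
      rwa [_root_.mul_inv_rev, iv t2, iv s2, show t * s * y * (s * t) = t * (s * y * s) * t by simp only [mul_assoc],
        e2, show t * (z * y * z) * t = t * z * y * (t * z) by apply W; simp only [mul_assoc, rc zt.symm]]⟩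
    have m2 := inv_mem (pow_mem m1 i)
    have := key _ (pow_mem m1 i).1 (Commute.pow_left (show Commute (t * s) z by
      show t * s * z = z * (t * s); rw [mul_assoc, c2, ← mul_assoc, zt, mul_assoc]) i).eq e3
    exact n (this.trans (by have := m2.2; rw [inv_inv] at this; exact this.symm))
  · have rs : CR D a s := rt.trans (h.cr_of ht hs j)
    have nx : ¬ CR D a x := fun r => k (h.St_le r wa)
    obtain ⟨s1, hs1, m1, e3⟩ := h.sw_in (K := centralizer {z}) ht hx (h.adj_of ht hx fun r => nx (rt.trans r)).2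
      (mem_centralizer_singleton_iff.2 zt) (mem_centralizer_singleton_iff.2 zx)
    obtain ⟨s3, hs3, m3, e4⟩ := h.sw_in (K := centralizer {z}) hx hs (h.adj_of hx hs fun r => nx (rs.trans r.symm)).2
      (mem_centralizer_singleton_iff.2 zx) (mem_centralizer_singleton_iff.2 c2)
    have hg := mul_mem (subset_closure hs3) (subset_closure hs1)
    have e5 : s3 * s1 * t * (s3 * s1)⁻¹ = s := by rw [← e4, ← e3]; group
    have := h.cr_conj hg (rt.symm.trans (key _ hg (mem_centralizer_singleton_iff.1 (mul_mem m3 m1)) e5))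
    rw [e5, show s3 * s1 * ((s3 * s1)⁻¹ * y * (s3 * s1)) * (s3 * s1)⁻¹ = y by group] at this
    exact n (rs.trans this)

theorem fr_of_disc (n : ¬ IsConnectedSet (CommAdj D) D) : IsConnectedSet (OddAdj D) D := by
  intro a ha b hb
  by_cases r : CR D a b
  · obtain ⟨c, hc, k⟩ : ∃ c ∈ D, ¬ CR D a c := by
      by_contra j
      push Not at j
      exact n fun u hu v hv => (j u hu).symm.trans (j v hv)
    exact (oa ha hc (h.adj_of ha hc k)).trans (oa hc hb (h.adj_of hc hb fun j => k (r.trans j.symm)))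
  · exact oa ha hb (h.adj_of ha hb r)

end RI

end Cfsg.Agent.H3.Rt
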