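import Cfsg.Agent.H3.RI4
import Cfsg.Agent.AC.Main
import Cfsg.Agent.AC.App
import Cfsg.Agent.BS.BInd1

/-! Root involutions, part 5: disconnected commuting graph. -/

set_option autoImplicit false
set_option linter.unusedSectionVars false
set_option linter.unusedVariables false

namespace Cfsg.Agent.H3.Rt
open Subgroup

universe u
variable {G : Type u} [Group G] [Finite G] {D : Set G}

theorem twoZ_le_St (hD : IsRootInvolutionSet D) {y : G} (hy : y ∈ D) : twoZCore G ≤ (RI.of hD).St y := fun m hm => by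
  have h := RI.of hD
  refine ⟨hD.2 ▸ mem_top m, h.cr_of hy (hD.3 y hy m) (not_adj_of_mem H2.pCore_isPGroup (h.s2 hy) (k := 0) ?_)⟩
  have := twoZ_comm hm y
  rw [iv (h.s2 hy)] at this
  simpa only [pow_zero, pow_one, mul_assoc] using this

theorem comm_of_quot (hD : IsRootInvolutionSet D) (nZ : ∀ d ∈ D, d ∉ twoZCore G) {a b : G} (ha : a ∈ D) (hb : b ∈ D)
    (c : (a : G ⧸ twoZCore G) * b = b * a) : a * b = b * a := by
  have h := RI.of hD
  have a2 := h.s2 ha
  have b2 := h.s2 hb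
  have m : a * b * a * b ∈ twoZCore G := by
    rw [← QuotientGroup.eq_one_iff]
    simp only [QuotientGroup.mk_mul]
    rw [c, mul_assoc, mul_assoc, ← mul_assoc (a : G ⧸ twoZCore G), ← QuotientGroup.mk_mul, a2,
      QuotientGroup.mk_one, one_mul, ← QuotientGroup.mk_mul, b2, QuotientGroup.mk_one]
  by_contra nc
  by_cases n : Adj a b
  · obtain ⟨k, hk⟩ := n.2
    have := pow_mem m (k + 1)
    rw [mul_assoc (a * b), odd_root (hk ▸ pow_orderOf_eq_one (a * b))] at this
    have := twoZ_comm this a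
    rw [_root_.mul_inv_rev, iv a2, iv b2, r2 a2] at this
    exact not_adj_of_mem H2.pCore_isPGroup b2 (k := 1) (by simpa only [pow_one, pow_two, mul_assoc] using this) n.symm
  · exact nZ _ (h.cmD ha hb n nc) m

theorem disc_adj (h : RI D) (n : ¬ IsConnectedSet (CommAdj D) D) {d : G} (hd : d ∈ D) :
    ∃ e ∈ D, ¬ CR D d e := by
  by_contra j
  push Not at j
  exact n fun u hu v hv => (j u hu).symm.trans (j v hv)

theorem disc_nZ (hD : IsRootInvolutionSet D) (n : ¬ IsConnectedSet (CommAdj D) D) : ∀ d ∈ D, d ∉ twoZCore G := by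
  intro d hd m
  have h := RI.of hD
  obtain ⟨e, he, k⟩ := disc_adj h n hd
  exact twoZ_ne_top hD hd he (h.adj_of hd he k) (normal_top hD.2 (h.cls_of_conn (h.fr_of_disc n)) hd m)

theorem disc_simple (hD : IsRootInvolutionSet D) (dd : DD D) (n : ¬ IsConnectedSet (CommAdj D) D) :
    IsSimpleGroup (G ⧸ twoZCore G) := by
  have h := RI.of hD
  obtain ⟨d, hd, -⟩ := id dd
  obtain ⟨e, he, k⟩ := disc_adj h n hd
  exact simple_quot hD (h.cls_of_conn (h.fr_of_disc n)) dd hd he (h.adj_of hd he k)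

theorem disc_ker (hD : IsRootInvolutionSet D) (dd : DD D) (n : ¬ IsConnectedSet (CommAdj D) D) {w : G}
    (m : ∀ x ∈ D, w ∈ (RI.of hD).St x) : w ∈ twoZCore G := by
  have h := RI.of hD
  have t : ∀ g : G, g ∈ closure D := fun g => hD.2 ▸ mem_top g
  haveI : (⨅ x ∈ D, h.St x).Normal := ⟨fun k hk g => by
    simp only [mem_iInf] at hk ⊢
    intro x hx
    have := h.cr_conj (t g) (hk _ (hD.3 x hx g⁻¹)).2
    exact ⟨t _, by simpa [mul_assoc] using this⟩⟩
  refine lemB' hD (h.cls_of_conn (h.fr_of_disc n)) dd (M := ⨅ x ∈ D, h.St x) (fun e => ?_)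
    (by simp only [mem_iInf]; exact m)
  obtain ⟨d, hd, -⟩ := id dd
  obtain ⟨y, hy, k⟩ := disc_adj h n hd
  have : y ∈ ⨅ x ∈ D, h.St x := e ▸ mem_top y
  simp only [mem_iInf] at this
  exact k (h.F0 hy hd (this d hd))

theorem disc_mem (hD : IsRootInvolutionSet D) {d : G} (hd : d ∈ D) {g : G} :
    (g : G ⧸ twoZCore G) ∈ ((RI.of hD).St d).map (QuotientGroup.mk' (twoZCore G)) ↔ g ∈ (RI.of hD).St d := by
  have := comap_map_eq_self (f := QuotientGroup.mk' (twoZCore G)) (H := (RI.of hD).St d)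
    (by rw [QuotientGroup.ker_mk']; exact twoZ_le_St hD hd)
  nth_rewrite 2 [← this]; rfl

theorem disc_ord (hD : IsRootInvolutionSet D) (n : ¬ IsConnectedSet (CommAdj D) D) {d : G} (hd : d ∈ D) :
    (d : G ⧸ twoZCore G) ≠ 1 ∧ (d : G ⧸ twoZCore G) * d = 1 :=
  ⟨fun e => disc_nZ hD n d hd ((QuotientGroup.eq_one_iff _).1 e), by
    rw [← QuotientGroup.mk_mul, (RI.of hD).s2 hd, QuotientGroup.mk_one]⟩

theorem disc_se (hD : IsRootInvolutionSet D) (dd : DD D) (n : ¬ IsConnectedSet (CommAdj D) D) {d : G} (hd : d ∈ D) :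
    IsStronglyEmbedded (((RI.of hD).St d).map (QuotientGroup.mk' (twoZCore G))) := by
  have h := RI.of hD
  have t : ∀ g : G, g ∈ closure D := fun g => hD.2 ▸ mem_top g
  have cl := h.cls_of_conn (h.fr_of_disc n)
  haveI := disc_simple hD dd n
  haveI : Fact (Nat.Prime 2) := ⟨Nat.prime_two⟩
  have one : ∀ e ∈ D, ∀ g : G, CR D d e → CR D d (g * e * g⁻¹) → g ∈ h.St d := fun e he g r1 r2 =>
    ⟨t g, r2.trans (h.cr_conj (t g) r1).symm⟩
  refine AC.Ap.se_simple AC.core (Z := (fun g : G => (g : G ⧸ twoZCore G)) '' D) (fun e => ?_)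
    (AC.Ap.hz_coset ?_ ?_ ?_ ?_ ?_) ⟨d, d, hd, rfl⟩
  · obtain ⟨y, hy, k⟩ := disc_adj h n hd
    exact k (h.F0 hy hd ((disc_mem hD hd).1 (e ▸ mem_top _)))
  · rintro _ ⟨e, he, rfl⟩
    exact orderOf_eq_prime (by rw [pow_two]; exact (disc_ord hD n he).2) (disc_ord hD n he).1
  · rintro _ ⟨e, he, rfl⟩ g
    induction g using QuotientGroup.induction_on with | H g => exact ⟨_, hD.3 e he g, rfl⟩
  · rintro _ ⟨e, he, rfl⟩
    obtain ⟨g, -, k⟩ := cl e he d hd
    exact ⟨g, (disc_mem hD hd (g := g * e * g⁻¹)).2 (by rw [k]; exact h.St_self hd .refl)⟩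
  · rintro _ ⟨e, he, rfl⟩ m g k
    induction g using QuotientGroup.induction_on with | H g => ?_
    exact (disc_mem hD hd).2 (one e he g (h.F0 he hd ((disc_mem hD hd).1 m))
      (h.F0 (hD.3 e he g) hd ((disc_mem hD hd (g := g * e * g⁻¹)).1 k)))
  · rintro _ ⟨a, ha, rfl⟩ _ ⟨b, hb, rfl⟩ m1 m2 ne c g k
    induction g using QuotientGroup.induction_on with | H g => ?_
    refine (disc_mem hD hd).2 (by_contra fun j => ne ?_)
    have c' := comm_of_quot hD (disc_nZ hD n) ha hb c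
    have k' := (disc_mem hD hd (g := g * (a * b) * g⁻¹)).1 k
    rw [← conj_mul] at k'
    have := disc_ker hD dd n fun x hx => h.claimW (hD.3 a ha g) (hD.3 b hb g) (by rw [conj_mul, conj_mul, c']) hd
      (fun r => j (one a ha g (h.F0 ha hd ((disc_mem hD hd).1 m1)) r.symm)) k' hx
    rw [conj_mul] at this
    have := (twoZCore_normal G).conj_mem _ this g⁻¹
    exact QuotientGroup.eq.2 (by rw [iv (h.s2 ha)]; simpa [mul_assoc] using this)

theorem disc_R3 (hD : IsRootInvolutionSet D) (dd : DD D) (n : ¬ IsConnectedSet (CommAdj D) D) {d : G} (hd : d ∈ D) :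
    ∃ S : BS.R3 (G ⧸ twoZCore G) ((G ⧸ twoZCore G) ⧸ ((RI.of hD).St d).map (QuotientGroup.mk' (twoZCore G))),
      S.H = ((RI.of hD).St d).map (QuotientGroup.mk' (twoZCore G)) := by
  have h := RI.of hD
  haveI := disc_simple hD dd n
  obtain ⟨y, hy, k⟩ := disc_adj h n hd
  obtain ⟨S, -, e⟩ := BS.bender_simple (fun c => (h.adj_of hd hy k).nc (h.s2 hd) (h.s2 hy)
    (comm_of_quot hD (disc_nZ hD n) hd hy (c.is_comm.comm _ _))) (disc_se hD dd n hd)
  exact ⟨S, e⟩

theorem disc_bender (hD : IsRootInvolutionSet D) (dd : DD D) (n : ¬ IsConnectedSet (CommAdj D) D) :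
    BS.IsBender (G ⧸ twoZCore G) := by
  obtain ⟨d, hd, -⟩ := id dd
  obtain ⟨S, -⟩ := disc_R3 hD dd n hd
  haveI := disc_simple hD dd n
  exact S.isBender

theorem disc_comm (hD : IsRootInvolutionSet D) (dd : DD D) (n : ¬ IsConnectedSet (CommAdj D) D) {a b : G}
    (ha : a ∈ D) (r : CR D a b) : a * b = b * a := by
  have h := RI.of hD
  have hb := r.mem ha
  obtain ⟨S, e⟩ := disc_R3 hD dd n ha
  have m : ∀ x ∈ D, CR D a x → (x : G ⧸ twoZCore G) ∈ S.I0 := fun x hx r =>
    ⟨e.ge ((disc_mem hD ha).2 (h.St_self hx r)), disc_ord hD n hx⟩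
  exact comm_of_quot hD (disc_nZ hD n) ha hb (S.I0_comm S.nil_Q (m a ha .refl) (S.mem_Q_of_mem_I0 (m b hb r)))

/-- transfer to the generated subgroup -/
theorem RI.toSub (h : RI D) : IsRootInvolutionSet {x : closure D | (x : G) ∈ D} where
  orderOf_eq d hd := by rw [← orderOf_coe]; exact h.ord _ hd
  generates := closure_closure_coe_preimage
  conj_mem d hd g := h.cjc g.2 hd
  pair a ha b hb := by
    rcases h.pair _ ha _ hb with e | e | e
    · exact Or.inl (Subtype.ext e)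
    · exact Or.inr (Or.inl (by rw [← orderOf_coe]; exact e))
    · exact Or.inr (Or.inr ⟨by rw [← orderOf_coe]; exact e.1, e.2⟩)

theorem cr_sub {a b : closure D} (r : CR {x : closure D | (x : G) ∈ D} a b) : CR D a b := by
  induction r with
  | refl => exact .refl
  | tail _ n ih => exact ih.trans (ca n.1 n.2.1 (congrArg Subtype.val n.2.2.2))

theorem cr_sub' {a b : G} (ha : a ∈ D) (r : CR D a b) :
    CR {x : closure D | (x : G) ∈ D} ⟨a, subset_closure ha⟩ ⟨b, subset_closure (r.mem ha)⟩ := by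
  induction r with
  | refl => exact .refl
  | tail r n ih => exact ih.trans (ca n.1 n.2.1 (Subtype.ext n.2.2.2))

/-- components of a disconnected commuting graph are abelian -/
theorem RI.comp_comm (h : RI D) (dd : DD D) {u v : G} (hu : u ∈ D) (hv : v ∈ D) (n : ¬ CR D u v) {a b : G}
    (ha : a ∈ D) (r : CR D a b) : a * b = b * a := by
  obtain ⟨x, hx, y, hy, c, m⟩ := dd
  exact congrArg Subtype.val (disc_comm h.toSub
    ⟨⟨x, subset_closure hx⟩, hx, ⟨y, subset_closure hy⟩, hy, Subtype.ext c, m⟩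
    (fun k => n (cr_sub (k ⟨u, subset_closure hu⟩ hu ⟨v, subset_closure hv⟩ hv))) ha (cr_sub' ha r))

end Cfsg.Agent.H3.Rt
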