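import Cfsg.Agent.H3.RI5

/-! Root involutions, part 6: the product graph, weak TI-subsets. -/

set_option autoImplicit false
set_option linter.unusedSectionVars false
set_option linter.unusedVariables false

namespace Cfsg.Agent.H3.Rt
open Subgroup

universe u
variable {G : Type u} [Group G]

/-- reachability in the product graph -/
abbrev ER (D : Set G) : G → G → Prop := Relation.ReflTransGen (ProdAdj D)

theorem ER.symm {D : Set G} {a b : G} (h : ER D a b) : ER D b a := by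
  induction h with
  | refl => exact .refl
  | tail _ n ih => exact (Relation.ReflTransGen.single
      ⟨n.2.1, n.1, n.2.2.1.symm, n.2.2.2.1.symm, n.2.2.2.1 ▸ n.2.2.2.2⟩).trans ih

theorem ER.mem {D : Set G} {a b : G} (h : ER D a b) (ha : a ∈ D) : b ∈ D := by
  induction h with
  | refl => exact ha
  | tail _ n _ => exact n.2.1

theorem ER.mono {D T : Set G} {a b : G} (h : ER T a b) (le : T ⊆ D) : ER D a b := by
  induction h with
  | refl => exact .refl
  | tail _ n ih => exact ih.tail ⟨le n.1, le n.2.1, n.2.2.1, n.2.2.2.1, le n.2.2.2.2⟩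

/-- some pair has a product of order four -/
def HV (D : Set G) : Prop := ∃ a ∈ D, ∃ b ∈ D, ¬ Adj a b ∧ a * b ≠ b * a

namespace RI
variable {D : Set G} (h : RI D) {a b c d e g x y z : G}
include h

theorem ea (ha : a ∈ D) (hb : b ∈ D) (c : a * b = b * a) (m : a * b ∈ D) : ER D a b :=
  .single ⟨ha, hb, fun e => h.ne1 m (by rw [← e, h.s2 ha]), c, m⟩

theorem er_conj (hg : g ∈ closure D) (r : ER D a b) : ER D (g * a * g⁻¹) (g * b * g⁻¹) := by
  induction r with
  | refl => exact .refl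
  | tail _ n ih =>
    refine ih.trans (h.ea (h.cjc hg n.1) (h.cjc hg n.2.1) ?_ ?_)
    · rw [conj_mul, conj_mul, n.2.2.2.1]
    · rw [conj_mul]; exact h.cjc hg n.2.2.2.2

theorem er_cm (ha : a ∈ D) (hb : b ∈ D) (n : ¬ Adj a b) (nc : a * b ≠ b * a) : ER D a (a * b * a * b) := by
  obtain ⟨f, hf, h1, h2, h3⟩ := h.nv ha hb n nc
  rw [show a * b * a * b = f by apply W; simp only [mul_assoc, r2 (h.s2 ha), r2 (h.s2 hb), r3 h3, rc h1, rc h2]]
  refine h.ea ha hf h1.symm ?_
  rw [show a * f = b * a * b by apply W; simp only [mul_assoc, r2 (h.s2 hb), r3 h3, rc h2]]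
  exact h.cj a ha b hb

theorem er_V (ha : a ∈ D) (hb : b ∈ D) (n : ¬ Adj a b) (nc : a * b ≠ b * a) : ER D a b :=
  (h.er_cm ha hb n nc).trans (h.q4 ha hb n ▸ (h.er_cm hb ha (fun j => n j.symm) nc.symm).symm)

theorem blk (ha : a ∈ D) (hy : y ∈ D) (k : ¬ ER D a y) (n : Adj a y) (r : ER D a b) : Adj b y := by
  induction r with
  | refl => exact n
  | @tail u v r m ih =>
    by_contra j
    have c : v * y = y * v := by_contra fun c => k ((r.tail m).trans (h.er_V m.2.1 hy j c))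
    exact h.lemN m.1 hy m.2.2.2.2 (h.ne1 m.2.1) (h.s2 m.2.1) m.2.2.2.1.symm c ih

theorem hv_all (cl : Cls D) (v : HV D) (ha : a ∈ D) : ∃ b ∈ D, ¬ Adj a b ∧ a * b ≠ b * a := by
  obtain ⟨u, hu, w, hw, n, nc⟩ := v
  obtain ⟨g, hg, rfl⟩ := cl u hu a ha
  refine ⟨_, h.cjc hg hw, fun j => n ((adj_conj g).1 j), fun e => nc ?_⟩
  rw [conj_mul, conj_mul] at e
  simpa using e

theorem dd_of_hv (v : HV D) : DD D := by
  obtain ⟨a, ha, b, hb, n, nc⟩ := v
  refine ⟨a, ha, _, h.cj a ha b hb, ?_, ?_⟩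
  · have := h.q4 ha hb n; simpa only [mul_assoc] using this
  · have := h.cmD ha hb n nc; simpa only [mul_assoc] using this

theorem cr_all [Finite G] (cl : Cls D) (v : HV D) (ha : a ∈ D) (hb : b ∈ D) : CR D a b := by
  by_contra n
  obtain ⟨u, hu, w, hw, na, nc⟩ := id v
  exact nc (h.comp_comm (h.dd_of_hv v) ha hb n hu (h.cr_of hu hw na))

theorem er_step [Finite G] (cl : Cls D) (v : HV D)
    (ih : ∀ T : Set G, T ⊂ D → RI T → Cls T → HV T → ∀ a ∈ T, ∀ b ∈ T, ER T a b)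
    (ha : a ∈ D) (hy : y ∈ D) (k : ¬ ER D a y) (n : Adj a y) : D ⊆ closure ({u | ER D a u} ∪ {y}) := by
  set Y := closure ({u | ER D a u} ∪ {y}) with hY
  have YD : Y ≤ closure D := closure_mono (by rintro u (hu | rfl); exacts [ER.mem hu ha, hy])
  have mY : ∀ u, ER D a u → u ∈ Y := fun u hu => subset_closure (Or.inl hu)
  have yY : y ∈ Y := subset_closure (Or.inr rfl)
  let T : Set G := {u | ∃ g ∈ Y, ER D (g * a * g⁻¹) u}
  have TD : T ⊆ D := fun u ⟨g, hg, r⟩ => r.mem (h.cjc (YD hg) ha)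
  have back : ∀ g ∈ Y, ∀ u, ER D (g * a * g⁻¹) u → ER D a (g⁻¹ * u * g) := fun g hg u r => by
    have := h.er_conj (inv_mem (YD hg)) r; simpa [mul_assoc] using this
  have TY : ∀ u ∈ T, u ∈ Y := fun u ⟨g, hg, r⟩ => by
    have := mul_mem (mul_mem hg (mY _ (back g hg u r))) (inv_mem hg); simpa [mul_assoc] using this
  have Tc : ∀ g ∈ Y, ∀ u ∈ T, g * u * g⁻¹ ∈ T := fun g hg u ⟨k, hk, r⟩ => ⟨g * k, mul_mem hg hk, by
    have := h.er_conj (YD hg) r; simpa [mul_assoc] using this⟩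
  have sw : ∀ u, ER D a u → ∃ s ∈ Y, s * u * s⁻¹ = y := fun u r => by
    obtain ⟨s, -, m, e⟩ := h.sw_in (r.mem ha) hy (h.blk ha hy k n r).2 (mY u r) yY
    exact ⟨s, m, e⟩
  have aT : ∀ u, ER D a u → u ∈ T := fun u r => ⟨1, one_mem _, by simpa using r⟩
  have yT : y ∈ T := by
    obtain ⟨s, m, e⟩ := sw a .refl
    exact ⟨s, m, e ▸ .refl⟩
  have YT : Y ≤ closure T := closure_mono (by rintro u (hu | rfl); exacts [aT u hu, yT])
  by_cases e : D ⊆ T
  · exact fun u hu => TY u (e hu)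
  refine absurd ((ih T ⟨TD, e⟩ (h.sub TD (fun s hs t ht => ?_) fun s hs t ht j nc => ?_) ?_ ?_ a (aT a .refl)
    y yT).mono TD) k
  · have := Tc t (TY t ht) s hs; rwa [iv (h.s2 (TD ht))] at this
  · obtain ⟨g, hg, r⟩ := hs
    exact ⟨g, hg, r.trans (h.er_cm (r.mem (h.cjc (YD hg) ha)) (TD ht) j nc)⟩
  · have key : ∀ u ∈ T, ∃ g ∈ Y, g * u * g⁻¹ = y := fun u ⟨g, hg, r⟩ => by
      obtain ⟨s, m, e⟩ := sw _ (back g hg u r)
      exact ⟨s * g⁻¹, mul_mem m (inv_mem hg), by rw [← e]; group⟩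
    intro u hu w hw
    obtain ⟨g, hg, e1⟩ := key u hu
    obtain ⟨g', hg', e2⟩ := key w hw
    exact ⟨g'⁻¹ * g, YT (mul_mem (inv_mem hg') hg), by
      rw [show g'⁻¹ * g * u * (g'⁻¹ * g)⁻¹ = g'⁻¹ * (g * u * g⁻¹) * g' by group, e1, ← e2]; group⟩
  · obtain ⟨b, hb, j, nc⟩ := h.hv_all cl v ha
    exact ⟨a, aT a .refl, b, aT b (h.er_V ha hb j nc), j, nc⟩

end RI

theorem er_all [Finite G] (n : ℕ) : ∀ D : Set G, D.ncard = n → RI D → Cls D → HV D →
    ∀ a ∈ D, ∀ b ∈ D, ER D a b := by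
  induction n using Nat.strong_induction_on with | _ n ih => ?_
  intro D hn h cl v
  have st := fun {a y : G} => h.er_step (a := a) (y := y) cl v fun T hT =>
    ih _ (hn ▸ Set.ncard_lt_ncard hT (Set.toFinite _)) T rfl
  by_cases ex : ∃ a ∈ D, ∃ y ∈ D, ¬ ER D a y ∧ Adj a y
  · obtain ⟨a, ha, y, hy, k⟩ := ex
    have key : ∀ u, CR D a u → ¬ ER D u y ∧ Adj u y := fun u r => by
      induction r with
      | refl => exact k
      | @tail u w r m ih =>
        by_cases e : ER D u w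
        · exact ⟨fun j => ih.1 (e.trans j), h.blk m.1 hy ih.1 ih.2 e⟩
        have k1 : ¬ ER D w y := fun j =>
          h.nadj m.2.1 m.1 m.2.2.2.symm (h.blk hy m.1 (fun i => ih.1 i.symm) ih.2.symm j.symm)
        refine ⟨k1, by_contra fun j => ?_⟩
        have c : w * y = y * w := by_contra fun c => k1 (h.er_V m.2.1 hy j c)
        obtain ⟨b, hb, -, nc⟩ := h.hv_all cl v m.2.1
        have : closure ({x | ER D u x} ∪ {y}) ≤ centralizer {w} := by
          rw [closure_le]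
          rintro x (hx | rfl)
          · refine mem_centralizer_singleton_iff.2 (by_contra fun c => ?_)
            have hx' := ER.mem hx m.1
            by_cases i : Adj x w
            · exact h.nadj m.1 m.2.1 m.2.2.2 (h.blk hx' m.2.1 (fun i => e (hx.trans i)) i (ER.symm hx))
            · exact e (hx.trans (h.er_V hx' m.2.1 i c))
          · exact mem_centralizer_singleton_iff.2 c.symm
        exact nc (mem_centralizer_singleton_iff.1 (this (st m.1 hy ih.1 ih.2 hb))).symm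
    exact absurd .refl (key y (h.cr_all cl v ha hy)).1
  · push Not at ex
    intro a ha b hb
    obtain ⟨g, hg, rfl⟩ := cl a ha b hb
    clear hb
    induction hg using closure_induction with
    | mem d hd =>
      by_cases r : ER D a d
      · have := h.er_conj (subset_closure hd) r
        rw [mul_inv_cancel_right] at this
        exact r.trans this.symm
      · have c : a * d = d * a := by_contra fun c => r (h.er_V ha hd (ex a ha d hd r) c)
        rw [← c, mul_inv_cancel_right]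
    | one => simpa using .refl
    | mul x y hx _ i j => exact i.trans (by have := h.er_conj hx j; simpa [mul_assoc] using this)
    | inv x hx i => have := (h.er_conj (inv_mem hx) i).symm; simpa [mul_assoc] using this

namespace RI
variable {D : Set G} (h : RI D) {a b c d e g x y z : G}
include h

theorem er_conn [Finite G] (cl : Cls D) (v : HV D) (ha : a ∈ D) (hb : b ∈ D) : ER D a b :=
  er_all _ D rfl h cl v a ha b hb

theorem er_closed [Finite G] (cl : Cls D) (v : HV D) {T : Set G} (ha : a ∈ D) (m : a ∈ T)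
    (c : ∀ u ∈ T, u ∈ D → ∀ e ∈ D, e * u = u * e → e * u ∈ D → e ∈ T) : D ⊆ T := fun b hb => by
  have := h.er_conn cl v ha hb
  induction this with
  | refl => exact m
  | tail _ n ih => exact c _ (ih n.1) n.1 _ n.2.1 n.2.2.2.1.symm (n.2.2.2.1 ▸ n.2.2.2.2)

/-- members of `X_u` are joined to `u` in the odd graph of a subgroup containing `X_u` and a neighbour of `u` -/
theorem X_fr [Finite G] (cl : Cls D) {U : Subgroup G} {u : G} (hu : u ∈ D) (mu : u ∈ U) (hx : x ∈ D) (mx : x ∈ U)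
    (n : Adj u x) (le : ∀ e ∈ D, e * u = u * e → e * u ∈ D → e ∈ U) (he : e ∈ D) (c : e * u = u * e)
    (m : e * u ∈ D) : FR (D ∩ U) u e := by
  have h' := h.inter U
  have me := le e he c m
  refine (h'.X_comp ⟨hu, mu⟩ ⟨hx, mx⟩ n ⟨he, me⟩ c ⟨m, mul_mem me mu⟩).resolve_right fun i => ?_
  obtain ⟨f, hf, -, -, n1, -, ef, -⟩ := h.three cl he hu c.symm (c ▸ m) fun s => i.2 x ⟨hx, mx⟩ ((s x hx).2 n)
  have f2 := h.s2 hf
  have q := h.q4 hf he n1
  have mf : f ∈ U := by
    refine le f hf ?_ ?_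
    · nth_rewrite 2 [← ef]
      rw [q, ← ef]; apply W; simp only [mul_assoc, r2 f2]
    · rw [← ef, show f * (f * e * f * e) = e * f * e by apply W; simp only [mul_assoc, r2 f2]]
      exact h.cj f hf e he
  have := mul_mem (h'.iso_norm (subset_closure ⟨hf, mf⟩) (subset_closure i)) (subset_closure i)
  rw [iv f2, ef] at this
  exact (h'.iso_inter ⟨hu, mu⟩ this).2 x ⟨hx, mx⟩ n

theorem X_gen [Finite G] (cl : Cls D) (v : HV D) (hd : d ∈ D) (hx : x ∈ D) (n : Adj d x) {Y : Subgroup G}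
    (mx : x ∈ Y) (le : ∀ e ∈ D, e * d = d * e → e * d ∈ D → e ∈ Y) : D ⊆ Y := by
  have md : d ∈ Y := by
    obtain ⟨b, hb, c, hc, bc, rfl⟩ := h.prod_all cl (h.dd_of_hv v) hd
    refine mul_mem (le b hb ?_ ?_) (le c hc ?_ ?_)
    · apply W; simp only [mul_assoc, rc bc.symm]
    · rwa [r2 (h.s2 hb)]
    · apply W; simp only [mul_assoc, rc bc.symm]
    · rwa [bc, r2 (h.s2 hc)]
  have : D ⊆ {u | ∃ g ∈ Y, g ∈ closure D ∧ g * d * g⁻¹ = u} := by
    refine h.er_closed cl v hd ⟨1, one_mem _, one_mem _, by simp⟩ ?_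
    rintro _ ⟨g, hg, hg', rfl⟩ - e he c m
    have c' : g⁻¹ * e * g * d = d * (g⁻¹ * e * g) := by
      rw [show g⁻¹ * e * g * d = g⁻¹ * (e * (g * d * g⁻¹)) * g by group, c]; group
    have m' : g⁻¹ * e * g * d ∈ D := by
      have := h.cjc (inv_mem hg') m; simpa [mul_assoc] using this
    have he' : g⁻¹ * e * g ∈ D := by have := h.cjc (inv_mem hg') he; simpa using this
    obtain ⟨k, hk, e1⟩ := (h.inter Y).fr_conj ⟨hd, md⟩ (h.X_fr cl hd md hx mx n le he' c' m')
    refine ⟨g * k, mul_mem hg ((closure_le _).2 Set.inter_subset_right hk),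
      mul_mem hg' (closure_mono Set.inter_subset_left hk), ?_⟩
    rw [show g * k * d * (g * k)⁻¹ = g * (k * d * k⁻¹) * g⁻¹ by group, e1]; group
  intro u hu
  obtain ⟨g, hg, -, rfl⟩ := this hu
  exact mul_mem (mul_mem hg md) (inv_mem hg)

theorem three' [Finite G] (cl : Cls D) {f : G} (ha : a ∈ D) (hf : f ∈ D) (n : ¬ Adj f a) (nc : f * a ≠ a * f) :
    ∃ x ∈ D, x * f = f * x ∧ Adj a x := by
  obtain ⟨k, hb, h1, h2, h3⟩ := h.nv hf ha n nc
  have a2 := h.s2 ha
  have b2 := h.s2 hb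
  have f2 := h.s2 hf
  have m1 : f * k ∈ D := by
    rw [show f * k = a * f * a by apply W; simp only [mul_assoc, r3 h3, rc h2, r2 a2]]
    exact h.cj f hf a ha
  have : ∃ y ∈ D, Adj k y ∧ ¬ Adj f y := by
    by_contra j
    push Not at j
    exact nc (h.C_of_SA cl hb hf (h.SA_of_le cl hb hf j) ha h2.symm).symm
  obtain ⟨z, hz, n3, n4⟩ := this
  obtain ⟨x, hx, ex⟩ := h.lemS (u := f) hb hz n3 ⟨hf, h1.symm, m1, n4⟩
  have x2 := h.s2 hx.1
  obtain ⟨l, -, -, h4, h5, h6⟩ := h.na hx.1 hb hx.2.2.2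
  have : l = f := by rw [← ex]; apply W; simp only [mul_assoc, r3 h6, rc h5, r2 b2, r2 x2]
  subst this
  have fa : l * a = a * l * k := by apply W; simp only [mul_assoc, r3 h3, rc h2, r2 a2, r2 b2]
  have c3 : k * (a * x) ^ 3 = (a * x) ^ 3 * k := by
    apply W; simp only [pow_succ, pow_zero, one_mul, mul_assoc, r3 fa, r3 h6, rc h2, rc h4, rc h5, r2 b2, r2 f2]
  have c1 : k * (a * x) ≠ a * x * k := fun j => by
    have : a * x * k * l = a * x * k := by
      nth_rewrite 2 [← j]; apply W; simp only [mul_assoc, r3 h6, rc h2, r2 f2]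
    exact h.ne1 hf (by simpa using this)
  refine ⟨x, hx.1, h4.symm, by_contra fun j => c1 ?_⟩
  have p := h.p4 ha hx.1 j
  have : a * x = ((a * x) ^ 3)⁻¹ := eq_inv_of_mul_eq_one_left (by rw [← pow_succ']; exact p)
  rw [this]; exact (Commute.inv_right c3).eq

theorem wti [Finite G] (cl : Cls D) (v : HV D) {T : Set G} (hT : T ⊆ D) (ne : ¬ D ⊆ T)
    (ti : ∀ d ∈ D, ∀ t ∈ T, d * t * d⁻¹ ∈ T → ∀ s, s ∈ T ↔ d * s * d⁻¹ ∈ T) : ∀ s ∈ T, ∀ t ∈ T, s * t = t * s := by
  have cen : ∀ t ∈ T, ∀ e ∈ D, e * t = t * e → e ∈ normalizer T := fun t ht e he c =>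
    mem_set_normalizer_iff.2 (ti e he t ht (by rwa [c, mul_inv_cancel_right]))
  have na : ∀ s ∈ T, ∀ t ∈ T, ¬ Adj s t := fun s hs t ht n => by
    have h' := h.inter (normalizer T)
    have ms : s ∈ D ∩ normalizer T := ⟨hT hs, cen s hs s (hT hs) rfl⟩
    have inT : ∀ u, FR (D ∩ normalizer T) s u → u ∈ T := fun u r => by
      obtain ⟨g, hg, rfl⟩ := h'.fr_conj ms r
      exact (mem_set_normalizer_iff.1 ((closure_le _).2 Set.inter_subset_right hg) s).1 hs
    refine ne fun u hu => inT u (h.er_closed cl v (T := {u | FR (D ∩ normalizer T) s u}) (hT hs) .refl ?_ hu)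
    intro u r hu e he c m
    obtain ⟨x, hx, j⟩ : ∃ x ∈ D ∩ normalizer T, Adj u x := by
      by_cases e : s = u
      · exact ⟨t, ⟨hT ht, cen t ht t (hT ht) rfl⟩, e ▸ n⟩
      · exact FR.nb (FR.symm r) e
    exact Relation.ReflTransGen.trans r (h.X_fr cl hu (FR.mem r ms).2 hx.1 hx.2 j
      (fun e he c _ => cen u (inT u r) e he c) he c m)
  intro s hs t ht
  by_contra nc
  obtain ⟨x, hx, c, j⟩ := h.three' cl (hT ht) (hT hs) (na s hs t ht) nc
  have := (mem_set_normalizer_iff.1 (cen s hs x hx c) t).1 ht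
  rw [iv (h.s2 hx)] at this
  exact na t ht _ this (j.self_cj (h.s2 (hT ht)) (h.s2 hx))

end RI

theorem hv_of {D : Set G} (h : IsNondegenerateRootInvolutionSet D) : HV D := by
  obtain ⟨a, ha, b, hb, e⟩ := h.2.2.2
  exact ⟨a, ha, b, hb, ((RI.of h.1).four_iff ha hb).1 e⟩

end Cfsg.Agent.H3.Rt
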