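import Cfsg.Agent.H3.RI8

/-! Root involutions, part 9: fibres, the rank one model, common neighbours. -/

set_option autoImplicit false
set_option linter.unusedSectionVars false
set_option linter.unusedVariables false

namespace Cfsg.Agent.H3.Rt
open Subgroup

universe u

section gen
variable {G : Type*} [Group G]

theorem nm {V : Subgroup G} {g v : G} (hg : g ∈ normalizer (V : Set G)) (hv : v ∈ V) : g * v * g⁻¹ ∈ V :=
  (mem_normalizer_iff.1 hg v).1 hv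

theorem nm' {V : Subgroup G} {g v : G} (hg : g ∈ normalizer (V : Set G)) (g2 : g * g = 1) (hv : v ∈ V) :
    g * v * g ∈ V := by have := nm hg hv; rwa [iv g2] at this

/-- the members equivalent to `d` -/
def EE (D : Set G) (d : G) : Set G := {e | e ∈ D ∧ SA D d e}

/-- `O₂(Y)` as a subgroup of the ambient group -/
def OO (Y : Subgroup G) : Subgroup G := (pCore 2 Y).map Y.subtype

theorem OO_pg [Finite G] (Y : Subgroup G) : IsPGroup 2 (OO Y) :=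
  haveI : Fact (Nat.Prime 2) := ⟨Nat.prime_two⟩
  H2.pCore_isPGroup.map _

theorem OO_le (Y : Subgroup G) : OO Y ≤ Y := map_subtype_le _

theorem OO_norm (Y : Subgroup G) : Y ≤ normalizer (OO Y : Set G) := le_norm fun g hg => by
  rintro _ ⟨v, hv, rfl⟩
  exact ⟨_, (inferInstance : (pCore 2 Y).Normal).conj_mem v hv ⟨g, hg⟩, rfl⟩

namespace OT
variable {D : Set G} (h : OT D) {a a' b b' c d e f s t u v w x y z : G} {V : Subgroup G}
include h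

theorem cm_mod (hV : IsPGroup 2 V) (ha : a ∈ D) (hb : b ∈ D) (m : a * b ∈ V) : a * b = b * a :=
  h.cm a ha b hb (not_adj_of_mem hV (h.s2 ha) (k := 0) (by simpa using m))

theorem adj_mod (hV : IsPGroup 2 V) (ha : a ∈ D) (hb : b ∈ D) (hb' : b' ∈ D) (na : a ∈ normalizer (V : Set G))
    (m : b * b' ∈ V) (n : Adj a b) : Adj a b' :=
  h.adj ha hb' fun c => not_adj_of_mem hV (h.s2 ha) (k := 1) (by
    have := mul_mem (nm' na (h.s2 ha) m) (inv_mem m)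
    rw [_root_.mul_inv_rev, iv (h.s2 hb), iv (h.s2 hb')] at this
    convert this using 1
    apply W; simp only [pow_one, pow_two, mul_assoc, rc c.symm, r2 (h.s2 hb')]) n

theorem nmem (hV : IsPGroup 2 V) (ha : a ∈ D) (hb : b ∈ D) (nb : b ∈ normalizer (V : Set G)) (n : Adj a b) :
    a ∉ V := fun m => not_adj_of_mem hV (h.s2 ha) (k := 1) (by
  have := mul_mem m (nm' nb (h.s2 hb) m); simpa only [pow_one, pow_two, mul_assoc] using this) n

/-- the fibre bijection -/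
theorem fib [Finite G] (hV : IsPGroup 2 V) (hf : f ∈ D) (hb : b ∈ D) (n : Adj f b) (nf : f ∈ normalizer (V : Set G))
    (nb : b ∈ normalizer (V : Set G)) (hb' : b' ∈ D) (m : b * b' ∈ V) :
    ∃ f' ∈ D, f * f' ∈ V ∧ f * f' * b * (f * f')⁻¹ = b' := by
  have f2 := h.s2 hf
  have inj : Set.InjOn (fun f' => f * f' * b * (f * f')⁻¹) {f' | f' ∈ D ∧ f * f' ∈ V} := by
    intro f1 h1 f3 h3 e
    by_contra ne
    have m : f1 * f3 ∈ V := by
      have := mul_mem (inv_mem h1.2) h3.2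
      rwa [_root_.mul_inv_rev, iv f2, iv (h.s2 h1.1), mul_assoc, r2 f2] at this
    refine h.nadj h1.1 hb (h.N2 h1.1 h3.1 (h.cm_mod hV h1.1 h3.1 m) ne hb ?_)
      (h.adj_mod hV hb hf h1.1 nb h1.2 n.symm).symm
    simp only [_root_.mul_inv_rev, iv f2, iv (h.s2 h1.1), iv (h.s2 h3.1), mul_assoc, mul_right_inj] at e
    simp only [← mul_assoc, mul_left_inj] at e
    calc f1 * f3 * b = f1 * (f3 * b * f3) * f3 := by apply W; simp only [mul_assoc, r2 (h.s2 h3.1)]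
      _ = _ := by rw [← e]; apply W; simp only [mul_assoc, r2 (h.s2 h1.1)]
  obtain ⟨s, hs, ns, es⟩ := h.sw_in (K := normalizer (V : Set G)) hb hf n.symm.2 nb nf
  have : (fun f' => f * f' * b * (f * f')⁻¹) '' {f' | f' ∈ D ∧ f * f' ∈ V} = {b' | b' ∈ D ∧ b * b' ∈ V} := by
    refine Set.eq_of_subset_of_ncard_le ?_ ?_ (Set.toFinite _)
    · rintro _ ⟨f', h', rfl⟩
      refine ⟨h.cjc (mul_mem (subset_closure hf) (subset_closure h'.1)) hb, ?_⟩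
      have := mul_mem (nm' nb (h.s2 hb) h'.2) (inv_mem h'.2)
      simpa only [mul_assoc] using this
    · rw [inj.ncard_image]
      refine Set.ncard_le_ncard_of_injOn (fun x => s * x * s⁻¹) (fun x hx => ⟨h.cjc (subset_closure hs) hx.1, ?_⟩)
        (fun x _ y _ e => by simpa using e) (Set.toFinite _)
      rw [← es, conj_mul]; exact nm ns hx.2
  obtain ⟨f', h', e⟩ := this.ge ⟨hb', m⟩
  exact ⟨f', h'.1, h'.2, e⟩

theorem trip (cl : Cls D) (dd : DD D) (hd : d ∈ D) : ∃ c ∈ D, d * c = c * d ∧ d * c ∈ D := by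
  obtain ⟨b, hb, c, hc, e, rfl⟩ := h.prod_all cl dd hd
  refine ⟨c, hc, by rw [← mul_assoc, ← e], by rwa [mul_assoc, h.s2 hc, mul_one]⟩

theorem lemQ (cl : Cls D) (dd : DD D) (hd : d ∈ D) (hy : y ∈ D) (cy : y * d = d * y) (hx : x ∈ D) (n : Adj d x) :
    ∃ z, x * z = z * x ∧ (∀ u ∈ EE D d ∪ EE D y, u * z = z * u) ∧
      ∀ s ∈ D, s * z = z * s → s * d = d * s → s * y = y * s := by
  obtain ⟨c, hc, dc, m⟩ := h.trip cl dd hd
  obtain ⟨e, he, n'⟩ := h.lemF hd hc dc m hy cy hx n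
  obtain ⟨eD, s⟩ : e ∈ D ∧ SA D d e := by
    rcases he with rfl | rfl; exacts [⟨hd, .refl _ _⟩, ⟨hc, h.dd_sa' hd hc dc m⟩]
  have ce := (h.sa_c hd eD s hy cy.symm).symm
  obtain ⟨-, t, ht, c1, c2, c3, -⟩ := h.nonexc hy eD ce hx n'
  refine ⟨t * (y * e), c3.symm, ?_, fun u hu k1 k2 => ?_⟩
  · rintro u (⟨hu, k⟩ | ⟨hu, k⟩) <;> apply W
    · simp only [mul_assoc, rc (h.sa_c eD hu (s.symm.trans k) ht c2.symm), rc (h.sa_c hd hu k hy cy.symm),
        rc (h.sa_cm eD hu (s.symm.trans k))]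
    · simp only [mul_assoc, rc (h.sa_c hy hu k ht c1.symm), rc (h.sa_cm hy hu k), rc (h.sa_c hy hu k eD ce)]
  · have k3 := h.sa_c hd eD s hu k2.symm
    refine (h.N2 hy ht c1.symm (fun e' => h.nadj eD hx ?_ ((s x hx).1 n)) hu ?_).symm
    · rwa [← e', r2 (h.s2 hy)] at c3
    · rw [← c1, ← mul_left_inj e, mul_assoc u, mul_assoc t y e, k1, mul_assoc, ← k3]; simp only [mul_assoc]

theorem locX [Finite G] (cl : Cls D) (dd : DD D) (hd : d ∈ D) (hx : x ∈ D) (n : Adj d x) (hu : u ∈ D)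
    (m : u ∈ closure (EE D d ∪ {x})) (c : u * d = d * u) : SA D d u := by
  refine (h.SA_of_le cl hu hd fun s hs j => h.adj hd hs fun k => h.nadj hu hs ?_ j).symm
  obtain ⟨z, h1, h2, h3⟩ := h.lemQ cl dd hd hs k.symm hx n
  refine h3 u hu (mc1.1 ((closure_le (centralizer {z})).2 ?_ m)) c
  rintro v (hv | rfl)
  exacts [mc1.2 (h2 v (Or.inl hv)), mc1.2 h1]

theorem locY (cl : Cls D) (dd : DD D) (hd : d ∈ D) (hy : y ∈ D) (cy : y * d = d * y) (hx : x ∈ D) (n : Adj d x)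
    (hu : u ∈ D) (m : u ∈ closure (EE D d ∪ EE D y ∪ {x})) (c : u * d = d * u) : u * y = y * u := by
  obtain ⟨z, h1, h2, h3⟩ := h.lemQ cl dd hd hy cy hx n
  refine h3 u hu (mc1.1 ((closure_le (centralizer {z})).2 ?_ m)) c
  rintro v (hv | rfl)
  exacts [mc1.2 (h2 v hv), mc1.2 h1]

end OT
end gen

variable {G : Type u} [Group G] [Finite G] {D : Set G}

/-- the rank one model of `X / O₂(X)` -/
structure Md (D : Set G) (X : Subgroup G) (d x : X) (H Ω : Type u) [Group H] [Finite H] [MulAction H Ω] where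
  S : BS.R3 H Ω
  ψ : X →* H
  surj : Function.Surjective ψ
  ker : ψ.ker = pCore 2 X
  t : S.t = ψ x
  Q2 : IsPGroup 2 S.Q
  ty : BS.TypeL S.toR1 ∨ BS.TypeS S.toR1
  memH : ∀ g : X, ψ g ∈ S.H ↔ g * d * g⁻¹ * d = d * (g * d * g⁻¹)
  pf : commutator X = ⊤
  h : OT {a : X | (a : G) ∈ D}
  cj : ∀ g a : X, (a : G) ∈ D → ((g * a * g⁻¹ : X) : G) ∈ D
  hd : (d : G) ∈ D
  hx : (x : G) ∈ D
  n : Adj d x

theorem OT.model (h : OT D) {d x c : G} (hd : d ∈ D) (hx : x ∈ D) (n : Adj d x) {E : Set G}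
    (hE : ∀ e ∈ E, e ∈ D ∧ SA D d e) (dE : d ∈ E) (hc : c ∈ E) (dc : d * c ∈ E) {X : Subgroup G}
    (hX : X = closure (E ∪ {x})) (mx : x ∈ X) (md : d ∈ X) :
    ∃ (H : Type u) (_ : Group H) (_ : Finite H) (Ω : Type u) (_ : MulAction H Ω),
      Nonempty (Md D X ⟨d, md⟩ ⟨x, mx⟩ H Ω) := by
  have R := h.red hd hx n hE dE hX mx md
  obtain ⟨h1, h2, h3, h4, h5⟩ := h.pack hd hx n hE hX mx
  haveI : Fact (Nat.Prime 2) := ⟨Nat.prime_two⟩
  have hk : IsPGroup 2 (QuotientGroup.mk' (pCore 2 X)).ker := by rw [QuotientGroup.ker_mk']; exact H2.pCore_isPGroup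
  have mc : c ∈ X := hX ▸ subset_closure (Or.inl hc)
  have le : X ≤ closure D := hX ▸ closure_mono (by rintro _ (m | rfl); exacts [(hE _ m).1, hx])
  have he : QuotientGroup.mk' (pCore 2 X) ⟨c, mc⟩ ∈ QuotientGroup.mk' (pCore 2 X) '' {e : X | (e : G) ∈ E} :=
    ⟨_, hc, rfl⟩
  have ne : QuotientGroup.mk' (pCore 2 X) ⟨d, md⟩ ≠ QuotientGroup.mk' (pCore 2 X) ⟨c, mc⟩ := fun e =>
    R.h.ne1 (R.hE _ ⟨⟨d, md⟩ * ⟨c, mc⟩, dc, rfl⟩).1 (by rw [map_mul, ← e, R.h.s2 R.hd])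
  obtain ⟨S, eS, et, Q2, ty⟩ := R.exR3 he ne
  have m := h4 ⟨d, md⟩ dE
  refine ⟨_, _, inferInstance, _, _, ⟨S, (QuotientGroup.mk' _).comp (QuotientGroup.mk' (pCore 2 X)),
    (QuotientGroup.mk'_surjective _).comp (QuotientGroup.mk'_surjective _), ?_, et, Q2, ty, fun g => ?_,
    perfect (h1.ri h2) (cls_cls h2) ⟨_, m, _, h4 ⟨c, mc⟩ hc,
      Subtype.ext (h.sa_cm hd (hE c hc).1 (hE c hc).2).symm, h4 _ dc⟩, h.coe X,
    fun g a ha => h.cjc (le g.2) ha, hd, hx, adj_coe.1 n⟩⟩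
  · rw [← MonoidHom.comap_ker, QuotientGroup.ker_mk', R.twoZ_bot he ne, MonoidHom.comap_bot, QuotientGroup.ker_mk']
  · rw [eS]
    refine (disc_mem (R.h.ri R.gen) R.hd).trans ⟨fun k => ?_, fun k => ⟨R.gen ▸ mem_top _, ?_⟩⟩
    · refine h1.cm _ (cls_cj m g) _ m fun j => ?_
      have := j.map _ hk (h1.s2 (cls_cj m g))
      rw [map_mul, map_mul, map_inv] at this
      exact ((R.sa_of_cr he ne k.2 _ R.hd).2 this).1 rfl
    · rw [← map_inv, ← map_mul, ← map_mul]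
      exact ca R.hd ⟨_, cls_cj m g, rfl⟩ (by rw [← map_mul, ← k, map_mul])

namespace Md
variable {X : Subgroup G} {d x : X} {H Ω : Type u} [Group H] [Finite H] [MulAction H Ω] (M : Md D X d x H Ω)
include M

theorem kp : IsPGroup 2 M.ψ.ker :=
  haveI : Fact (Nat.Prime 2) := ⟨Nat.prime_two⟩
  M.ker ▸ H2.pCore_isPGroup

theorem I0_of {a : X} (ha : (a : G) ∈ D) (c : a * d = d * a) (n : Adj a x) : M.ψ a ∈ M.S.I0 := by
  refine ⟨(M.memH a).2 (by rw [c]; simp), fun e => ?_, by rw [← map_mul, M.h.s2 ha, map_one]⟩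
  exact M.h.nmem M.kp ha M.hx (by rw [normalizer_eq_top]; trivial) n e

theorem of_I0 {s : H} (hs : s ∈ M.S.I0) : ∃ e : X, (e : G) ∈ D ∧ e * d = d * e ∧ M.ψ e = s := by
  obtain ⟨k, hk, e⟩ := M.S.exists_K_conj (M.I0_of M.hd rfl M.n) hs
  obtain ⟨k, rfl⟩ := M.surj k
  exact ⟨_, M.cj k⁻¹ d M.hd, (M.memH k⁻¹).1 (by rw [map_inv]; exact inv_mem hk.1.1), by simp [← e]⟩

theorem two_of {r : X} (m : M.ψ r ∈ M.S.Q) : ∃ k, r ^ 2 ^ k = 1 := by
  obtain ⟨k, e⟩ := (M.Q2.comap_of_ker_isPGroup M.ψ M.kp) ⟨r, m⟩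
  exact ⟨k, congrArg Subtype.val e⟩

theorem dist : ∃ e r : X, (e : G) ∈ D ∧ e * d = d * e ∧ (∃ k, r ^ 2 ^ k = 1) ∧
    r * d * r⁻¹ * d = d * (r * d * r⁻¹) ∧ x * e * x = r⁻¹ * x * r := by
  obtain ⟨e, he, c, es⟩ := M.of_I0 M.S.s_mem
  obtain ⟨r, er⟩ := M.surj M.S.r
  have t : ∀ g : X, g ∈ normalizer (M.ψ.ker : Set X) := fun g => by rw [normalizer_eq_top]; trivial
  have x2 := M.h.s2 M.hx
  obtain ⟨f, hf, m, e1⟩ := M.h.fib M.kp (M.cj r⁻¹ d M.hd) (M.cj r⁻¹ x M.hx) (M.n.conj r⁻¹) (t _) (t _)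
    (M.h.cj e he x M.hx) (by
      rw [MonoidHom.mem_ker]
      simp only [map_mul, map_inv, inv_inv, es, er, ← M.t, M.S.struct]
      rw [show M.S.r⁻¹ * M.S.t * M.S.r * (M.S.r⁻¹ * M.S.t * M.S.r) = M.S.r⁻¹ * (M.S.t * M.S.t) * M.S.r by group,
        M.S.tt]; simp)
  generalize r⁻¹ * d * r⁻¹⁻¹ * f = w at *
  have m' : M.ψ (r * w⁻¹) ∈ M.S.Q := by rw [map_mul, map_inv, m, er]; simpa using M.S.r_mem
  exact ⟨e, r * w⁻¹, he, c, M.two_of m', (M.memH _).1 (M.S.Q_le m'), by rw [← e1]; group⟩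

end Md

namespace OT
variable (h : OT D) (cl : Cls D) (dd : DD D) {d x y : G}
include h cl dd

theorem modelX (hd : d ∈ D) (hx : x ∈ D) (n : Adj d x) {X : Subgroup G} (hX : X = closure (EE D d ∪ {x}))
    (mx : x ∈ X) (md : d ∈ X) : ∃ (H : Type u) (_ : Group H) (_ : Finite H) (Ω : Type u) (_ : MulAction H Ω),
      Nonempty (Md D X ⟨d, md⟩ ⟨x, mx⟩ H Ω) := by
  obtain ⟨c, hc, dc, m⟩ := h.trip cl dd hd
  exact h.model hd hx n (fun e he => he) ⟨hd, .refl _ _⟩ ⟨hc, h.dd_sa' hd hc dc m⟩ ⟨m, h.dd_sa hd hc dc m⟩ hX mx md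

theorem dist (hd : d ∈ D) (hx : x ∈ D) (n : Adj d x) : ∃ e ∈ EE D d, ∃ r ∈ closure (EE D d ∪ {x}),
    (∃ k, r ^ 2 ^ k = 1) ∧ r * d * r⁻¹ * d = d * (r * d * r⁻¹) ∧ x * e * x = r⁻¹ * x * r := by
  obtain ⟨H, _, _, Ω, _, ⟨M⟩⟩ := h.modelX cl dd hd hx n rfl (subset_closure (Or.inr rfl))
    (subset_closure (Or.inl ⟨hd, .refl _ _⟩))
  obtain ⟨e, r, he, c, ⟨k, hk⟩, c', e'⟩ := M.dist
  exact ⟨e, ⟨he, h.locX cl dd hd hx n he e.2 (congrArg Subtype.val c)⟩, r, r.2, ⟨k, congrArg Subtype.val hk⟩,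
    congrArg Subtype.val c', congrArg Subtype.val e'⟩

theorem line (hd : d ∈ D) (hy : y ∈ D) (c : y * d = d * y) (hx : x ∈ D) (n1 : Adj d x) (n2 : Adj y x) :
    ∃ e ∈ EE D d, ∃ y' ∈ EE D y, e * y' ∈ OO (closure (EE D d ∪ EE D y ∪ {x})) := by
  have p1 := fun {u : G} => h.locY (u := u) cl dd hd hy c hx n1
  have p2 := fun {u : G} => h.locY (u := u) cl dd hy hd c.symm hx n2
  rw [Set.union_comm (EE D y)] at p2
  obtain ⟨e, he, r, hr, ⟨k, hk⟩, c1, e1⟩ := h.dist cl dd hd hx n1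
  obtain ⟨e', he', r', hr', ⟨k', hk'⟩, c2, e2⟩ := h.dist cl dd hy hx n2
  have l1 : closure (EE D d ∪ {x}) ≤ closure (EE D d ∪ EE D y ∪ {x}) :=
    closure_mono (Set.union_subset_union_left _ Set.subset_union_left)
  have l2 : closure (EE D y ∪ {x}) ≤ closure (EE D d ∪ EE D y ∪ {x}) :=
    closure_mono (Set.union_subset_union_left _ Set.subset_union_right)
  have l3 : closure (EE D d ∪ EE D y ∪ {x}) ≤ closure D :=
    closure_mono (by rintro _ ((m | m) | rfl); exacts [m.1, m.1, hx])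
  have mE : ∀ u ∈ EE D d ∪ EE D y, u ∈ closure (EE D d ∪ EE D y ∪ {x}) := fun u hu => subset_closure (Or.inl hu)
  obtain ⟨b, hb, db, m⟩ := h.trip cl dd hd
  generalize hY : closure (EE D d ∪ EE D y ∪ {x}) = Y at *
  have mx : x ∈ Y := hY ▸ subset_closure (Or.inr rfl)
  have md := mE d (Or.inl ⟨hd, .refl _ _⟩)
  have my := mE y (Or.inr ⟨hy, .refl _ _⟩)
  obtain ⟨H, _, _, Ω, _, ⟨M⟩⟩ := (h.inter Y).model (E := EE D d ∪ EE D y) ⟨hd, md⟩ ⟨hx, mx⟩ n1 (by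
    rintro u hu
    refine ⟨⟨hu.elim (·.1) (·.1), mE u hu⟩, fun v hv => ?_⟩
    rcases hu with hu | hu
    · exact hu.2 v hv.1
    · rw [← hu.2 v hv.1]
      exact ⟨fun j => h.adj hy hv.1 fun k => h.nadj hd hv.1 (p2 hv.1 hv.2 k.symm).symm j,
        fun j => h.adj hd hv.1 fun k => h.nadj hy hv.1 (p1 hv.1 hv.2 k.symm).symm j⟩)
    (Or.inl ⟨hd, .refl _ _⟩) (Or.inl ⟨hb, h.dd_sa' hd hb db m⟩) (Or.inl ⟨m, h.dd_sa hd hb db m⟩) hY.symm mx md
  have me := mE e (Or.inl he)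
  have me' := mE e' (Or.inr he')
  have key : ∀ r : Y, ∀ k, (r : G) ^ 2 ^ k = 1 → r * d * r⁻¹ * d = d * (r * d * r⁻¹) → M.ψ r ∈ M.S.Q :=
    fun r k hk c => M.S.mem_Q_of_two_pow ((M.memH r).2 (Subtype.ext c)) (n := k) (by
      rw [← map_pow, show r ^ 2 ^ k = 1 from Subtype.ext hk, map_one])
  have c3 : r' * d * r'⁻¹ * d = d * (r' * d * r'⁻¹) := by
    have a1 := p2 (h.cjc (l3 (l2 hr')) hy) (mul_mem (mul_mem (l2 hr') my) (inv_mem (l2 hr'))) c2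
    have a2 := p2 (h.cjc (l3 (inv_mem (l2 hr'))) hd) (mul_mem (mul_mem (inv_mem (l2 hr')) md)
      (inv_mem (inv_mem (l2 hr')))) (by
      calc r'⁻¹ * d * r'⁻¹⁻¹ * y = r'⁻¹ * (d * (r' * y * r'⁻¹)) * r' := by group
        _ = _ := by rw [← a1]; group)
    calc r' * d * r'⁻¹ * d = r' * (d * (r'⁻¹ * d * r'⁻¹⁻¹)) * r'⁻¹ := by group
      _ = _ := by rw [← a2]; group
  have := (M.S.struct_unique (M.I0_of (a := ⟨e, me⟩) ⟨he.1, me⟩ (Subtype.ext (h.sa_cm hd he.1 he.2))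
      (adj_coe.1 ((he.2 x hx).1 n1))) (key ⟨r, l1 hr⟩ k hk c1)
    (M.I0_of (a := ⟨e', me'⟩) ⟨he'.1, me'⟩ (Subtype.ext (h.sa_c hy he'.1 he'.2 hd c))
      (adj_coe.1 ((he'.2 x hx).1 n2))) (key ⟨r', l2 hr'⟩ k' hk' c3)
    (by rw [M.t, ← map_inv, ← map_mul, ← map_mul, ← map_mul, ← map_mul]; exact congrArg M.ψ (Subtype.ext e1))
    (by rw [M.t, ← map_inv, ← map_mul, ← map_mul, ← map_mul, ← map_mul]; exact congrArg M.ψ (Subtype.ext e2))).1
  refine ⟨e, he, e', he', ⟨e, me⟩ * ⟨e', me'⟩, ?_, rfl⟩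
  rw [← M.ker, SetLike.mem_coe, MonoidHom.mem_ker, map_mul, this, ← map_mul,
    show (⟨e', me'⟩ * ⟨e', me'⟩ : Y) = 1 from Subtype.ext (h.s2 he'.1), map_one]

theorem step {s : G} (hd : d ∈ D) (hy : y ∈ D) (c : y * d = d * y) (hx : x ∈ D) (n1 : Adj d x) (n2 : Adj y x)
    (hs : s ∈ D) (c1 : s * y = y * s) (c2 : s * x = x * s) : ∃ e ∈ D, e * d = d * e ∧ e * x = x * e := by
  obtain ⟨e, he, y', hy', m⟩ := h.line cl dd hd hy c hx n1 n2
  have nN := OO_norm (closure (EE D d ∪ EE D y ∪ {x}))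
  have hV := OO_pg (closure (EE D d ∪ EE D y ∪ {x}))
  have ne := nN (subset_closure (Or.inl (Or.inl he)))
  have nx := nN (subset_closure (Or.inr rfl))
  generalize OO (closure (EE D d ∪ EE D y ∪ {x})) = V at *
  obtain ⟨w, hw, -, e1⟩ := h.sw_in (K := ⊤) hy'.1 hx ((hy'.2 x hx).1 n2).2 trivial trivial
  obtain ⟨w', hw', nw, e2⟩ := h.sw_in (K := normalizer (V : Set G)) he.1 hx ((he.2 x hx).1 n1).2 ne nx
  obtain ⟨f, hf, m', e3⟩ := h.fib hV he.1 hx ((he.2 x hx).1 n1) ne nx (h.cjc (subset_closure hw') hy'.1)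
    (by rw [← e2, conj_mul]; exact nm nw m)
  have hg : (e * f)⁻¹ * w' * w ∈ closure D := mul_mem (mul_mem (inv_mem (mul_mem (subset_closure he.1)
    (subset_closure hf))) (subset_closure hw')) (subset_closure hw)
  have cf : e * f * e = e * (e * f) := by rw [mul_assoc, h.cm_mod hV he.1 hf m']
  have i1 := iv (h.s2 hw)
  have i2 := iv (h.s2 hw')
  have g1 : (e * f)⁻¹ * w' * w * y' * ((e * f)⁻¹ * w' * w)⁻¹ = e := by
    calc _ = (e * f)⁻¹ * w' * (w * y' * w⁻¹) * w'⁻¹ * (e * f) := by group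
      _ = (e * f)⁻¹ * (w' * w') * e * (w' * w')⁻¹ * (e * f) := by rw [e1, ← e2]; group
      _ = _ := by rw [h.s2 hw', inv_one, mul_one, mul_one, mul_assoc, ← cf]; group
  have g2 : (e * f)⁻¹ * w' * w * x * ((e * f)⁻¹ * w' * w)⁻¹ = x := by
    calc _ = (e * f)⁻¹ * w' * (w * x * w⁻¹) * w'⁻¹ * (e * f) := by group
      _ = (e * f)⁻¹ * (w' * ((w * w) * y' * (w * w)⁻¹) * w'⁻¹) * (e * f) := by rw [← e1]; group
      _ = _ := by rw [h.s2 hw, inv_one, mul_one, one_mul, ← e3]; group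
  generalize (e * f)⁻¹ * w' * w = g at *
  refine ⟨_, h.cjc hg hs, (h.sa_c he.1 hd he.2.symm (h.cjc hg hs) ?_).symm, ?_⟩
  · rw [← g1, conj_mul, conj_mul, h.sa_c hy hy'.1 hy'.2 hs c1.symm]
  · rw [← g2, conj_mul, conj_mul, c2]

theorem common (hx : x ∈ D) (r : CR D x d) : ∃ e ∈ D, e * d = d * e ∧ e * x = x * e := by
  induction r with
  | refl => exact ⟨x, hx, rfl, rfl⟩
  | @tail u v _ n ih =>
    obtain ⟨s, hs, c1, c2⟩ := ih
    by_cases k1 : v * x = x * v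
    · exact ⟨v, n.2.1, rfl, k1⟩
    by_cases k2 : u * x = x * u
    · exact ⟨u, n.1, n.2.2.2, k2⟩
    exact h.step cl dd n.2.1 n.1 n.2.2.2 hx (h.adj n.2.1 hx k1) (h.adj n.1 hx k2) hs c1 c2

end OT

end Cfsg.Agent.H3.Rt
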