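import Mathlib
import Cfsg.Agent.H3.SzF

/-! Field and number lemmas for Shaw's theorem on Suzuki 2-groups. -/

set_option autoImplicit false

namespace Cfsg.Agent.H3.Sh

open Polynomial Cfsg.Agent.H3.SzF

theorem two_pow_add_eq' {a b c e : ℕ} (h1 : a ≤ b) (h2 : c ≤ e) (h : 2 ^ a + 2 ^ b = 2 ^ c + 2 ^ e) :
    a = c ∧ b = e := by
  have key : ∀ a b c e : ℕ, a ≤ b → 2 ^ a + 2 ^ b = 2 ^ c + 2 ^ e → ¬ b < e := by
    intro a b c e h1 h hlt
    have e1 : 2 ^ a ≤ 2 ^ b := Nat.pow_le_pow_right two_pos h1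
    have e2 : 2 ^ (b + 1) ≤ 2 ^ e := Nat.pow_le_pow_right two_pos hlt
    have e3 : 0 < 2 ^ c := by positivity
    rw [pow_succ] at e2
    omega
  have hb : b = e := le_antisymm (not_lt.1 (key c e a b h2 h.symm)) (not_lt.1 (key a b c e h1 h))
  subst hb
  exact ⟨Nat.pow_right_injective le_rfl (show 2 ^ a = 2 ^ c by omega), rfl⟩

theorem two_pow_add_eq {a b c e : ℕ} (h : 2 ^ a + 2 ^ b = 2 ^ c + 2 ^ e) :
    (a = c ∧ b = e) ∨ (a = e ∧ b = c) := by
  rcases le_total a b with h1 | h1 <;> rcases le_total c e with h2 | h2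
  · exact Or.inl (two_pow_add_eq' h1 h2 h)
  · exact Or.inr (two_pow_add_eq' h1 h2 (by omega))
  · exact Or.inr (two_pow_add_eq' h1 h2 (by omega)).symm
  · exact Or.inl (two_pow_add_eq' h1 h2 (by omega)).symm

set_option synthInstance.maxSize 2000 in
theorem small_bound : ∀ n < 21, ∀ d < 21, 1 ≤ n → d ∣ n → d ∣ 2 ^ n - 1 → ¬ (n = 6 ∧ d = 3) →
    d ≤ 2 ^ ((n + 3) / 4 - 1) := by decide +kernel

theorem d_bound {n d : ℕ} (hn : 1 ≤ n) (h1 : d ∣ n) (h2 : d ∣ 2 ^ n - 1) (h3 : ¬ (n = 6 ∧ d = 3)) :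
    d ≤ 2 ^ ((n + 3) / 4 - 1) := by
  have hd := Nat.le_of_dvd hn h1
  by_cases h : n < 21
  · exact small_bound n h d (by omega) hn h1 h2 h3
  · have key : ∀ k, 4 * (k + 5) + 4 ≤ 2 ^ (k + 5) := by
      intro k
      induction k with
      | zero => norm_num
      | succ k ih => rw [add_right_comm, pow_succ]; omega
    have := key ((n + 3) / 4 - 1 - 5)
    rw [show (n + 3) / 4 - 1 - 5 + 5 = (n + 3) / 4 - 1 by omega] at this
    omega

/-- cyclic rotation -/
def rot (n x y : ℕ) : ℕ := if x ≤ y then y - x else y + n - x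

theorem gap {n g a b c e : ℕ} (hg : 4 * g ≤ n + 3) (ha : a < n) (hb : b < n) (hc : c < n)
    (he : e < n) : ∃ x < n, rot n x a + g ≤ n ∧ rot n x b + g ≤ n ∧ rot n x c + g ≤ n ∧
      rot n x e + g ≤ n := by
  have key : ∀ a b c e : ℕ, a ≤ b → b ≤ c → c ≤ e → e < n → ∃ x < n, rot n x a + g ≤ n ∧
      rot n x b + g ≤ n ∧ rot n x c + g ≤ n ∧ rot n x e + g ≤ n := by
    intro a b c e h1 h2 h3 h4
    by_cases c1 : e - a + g ≤ n
    · refine ⟨a, by omega, ?_, ?_, ?_, ?_⟩ <;> simp only [rot] <;> split_ifs <;> omega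
    by_cases c2 : a + g ≤ b
    · refine ⟨b, by omega, ?_, ?_, ?_, ?_⟩ <;> simp only [rot] <;> split_ifs <;> omega
    by_cases c3 : b + g ≤ c
    · refine ⟨c, by omega, ?_, ?_, ?_, ?_⟩ <;> simp only [rot] <;> split_ifs <;> omega
    · refine ⟨e, by omega, ?_, ?_, ?_, ?_⟩ <;> simp only [rot] <;> split_ifs <;> omega
  have k2 : ∀ a b c e : ℕ, a ≤ b → b ≤ c → c < n → e < n → ∃ x < n, rot n x a + g ≤ n ∧
      rot n x b + g ≤ n ∧ rot n x c + g ≤ n ∧ rot n x e + g ≤ n := by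
    intro a b c e h1 h2 h3 h4
    rcases le_total c e with h | h
    · exact key a b c e h1 h2 h h4
    rcases le_total b e with h' | h'
    · obtain ⟨x, x0, x1, x2, x3, x4⟩ := key a b e c h1 h' h h3
      exact ⟨x, x0, x1, x2, x4, x3⟩
    rcases le_total a e with h'' | h''
    · obtain ⟨x, x0, x1, x2, x3, x4⟩ := key a e b c h'' h' h2 h3
      exact ⟨x, x0, x1, x3, x4, x2⟩
    · obtain ⟨x, x0, x1, x2, x3, x4⟩ := key e a b c h'' h1 h2 h3
      exact ⟨x, x0, x2, x3, x4, x1⟩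
  have k3 : ∀ a b c e : ℕ, a ≤ b → b < n → c < n → e < n → ∃ x < n, rot n x a + g ≤ n ∧
      rot n x b + g ≤ n ∧ rot n x c + g ≤ n ∧ rot n x e + g ≤ n := by
    intro a b c e h1 h2 h3 h4
    rcases le_total b c with h | h
    · exact k2 a b c e h1 h h3 h4
    rcases le_total a c with h' | h'
    · obtain ⟨x, x0, x1, x2, x3, x4⟩ := k2 a c b e h' h h2 h4
      exact ⟨x, x0, x1, x3, x2, x4⟩
    · obtain ⟨x, x0, x1, x2, x3, x4⟩ := k2 c a b e h' h1 h2 h4
      exact ⟨x, x0, x2, x3, x1, x4⟩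
  rcases le_total a b with h | h
  · exact k3 a b c e h hb hc he
  · obtain ⟨x, x0, x1, x2, x3, x4⟩ := k3 b a c e h ha hc he
    exact ⟨x, x0, x2, x1, x3, x4⟩

theorem rot_modEq {n m d x : ℕ} (hm : m * d + 1 = 2 ^ n) (hx : x < n) (y : ℕ) :
    2 ^ y * 2 ^ (n - x) ≡ 2 ^ rot n x y [MOD m] := by
  rw [← pow_add, rot]
  split_ifs with h
  · rw [show y + (n - x) = y - x + n by omega, pow_add, ← hm]
    have : m * d + 1 ≡ 1 [MOD m] := by
      simp [Nat.ModEq]
    simpa using this.mul_left (2 ^ (y - x))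
  · rw [show y + (n - x) = y + n - x by omega]

theorem four_term {n m d a b c e : ℕ} (hm : m * d + 1 = 2 ^ n) (hd : d ∣ n)
    (h6 : ¬ (n = 6 ∧ d = 3)) (ha : a < n) (hb : b < n) (hc : c < n) (he : e < n)
    (h : 2 ^ a + 2 ^ b ≡ 2 ^ c + 2 ^ e [MOD m]) : (a = c ∧ b = e) ∨ (a = e ∧ b = c) := by
  have hd2 := d_bound (by omega) hd ⟨m, by rw [← hm, mul_comm]; simp⟩ h6
  obtain ⟨g, hg⟩ : ∃ g, (n + 3) / 4 = g + 1 := ⟨(n + 3) / 4 - 1, by omega⟩
  rw [hg, Nat.add_sub_cancel] at hd2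
  obtain ⟨x, x0, x1, x2, x3, x4⟩ := gap (g := g + 1) (by omega) ha hb hc he
  obtain ⟨t, ht⟩ : ∃ t, n = t + (g + 1) := ⟨n - (g + 1), by omega⟩
  have hmt : 2 * 2 ^ t ≤ m + 1 := by
    have e1 : m * d ≤ m * 2 ^ g := Nat.mul_le_mul_left _ hd2
    have e2 : 2 ^ n = 2 * 2 ^ t * 2 ^ g := by rw [ht]; ring
    have e3 : 0 < 2 ^ g := by positivity
    refine Nat.le_of_mul_le_mul_right ?_ e3
    nlinarith
  have h1 : 2 ^ rot n x a + 2 ^ rot n x b ≡ 2 ^ rot n x c + 2 ^ rot n x e [MOD m] := by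
    have := h.mul_right (2 ^ (n - x))
    rw [add_mul, add_mul] at this
    exact (((rot_modEq hm x0 a).add (rot_modEq hm x0 b)).symm.trans this).trans
      ((rot_modEq hm x0 c).add (rot_modEq hm x0 e))
  have b1 : ∀ y, rot n x y + (g + 1) ≤ n → 1 ≤ 2 ^ rot n x y ∧ 2 ^ rot n x y ≤ 2 ^ t := fun y hy =>
    ⟨Nat.one_le_two_pow, Nat.pow_le_pow_right two_pos (by omega)⟩
  have h2 : 2 ^ rot n x a + 2 ^ rot n x b = 2 ^ rot n x c + 2 ^ rot n x e := by
    have := b1 a x1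
    have := b1 b x2
    have := b1 c x3
    have := b1 e x4
    generalize 2 ^ rot n x a = A at *
    generalize 2 ^ rot n x b = B at *
    generalize 2 ^ rot n x c = C at *
    generalize 2 ^ rot n x e = E at *
    generalize 2 ^ t = T at *
    refine h1.eq_of_abs_lt (abs_lt.2 ⟨?_, ?_⟩) <;> omega
  have inj : ∀ y z, y < n → z < n → rot n x y = rot n x z → y = z := by
    intro y z hy hz h
    simp only [rot] at h
    split_ifs at h <;> omega
  rcases two_pow_add_eq h2 with ⟨e1, e2⟩ | ⟨e1, e2⟩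
  · exact Or.inl ⟨inj _ _ ha hc e1, inj _ _ hb he e2⟩
  · exact Or.inr ⟨inj _ _ ha he e1, inj _ _ hb hc e2⟩

theorem six_a : ∀ i < 6, ∀ j < 6, (2 ^ i + 2 ^ j) % 21 = (2 ^ 5 + 2 ^ 5) % 21 → i = 5 ∧ j = 5 := by
  decide +kernel

theorem six_b : ∀ i < 6, ∀ j < 6, ∀ k < 6,
    (2 ^ k + 2 ^ i) % 21 = (2 ^ 0 + 2 ^ ((j + k) % 6)) % 21 → i = j := by
  decide +kernel

theorem num_a {n m d i j : ℕ} (hm : m * d + 1 = 2 ^ (n + 1)) (hd : d ∣ n + 1) (hi : i < n + 1)
    (hj : j < n + 1) (h : 2 ^ i + 2 ^ j ≡ 2 ^ n + 2 ^ n [MOD m]) : i = n ∧ j = n := by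
  by_cases h6 : n + 1 = 6 ∧ d = 3
  · obtain ⟨e1, rfl⟩ := h6
    obtain rfl : n = 5 := by omega
    obtain rfl : m = 21 := by omega
    exact six_a i hi j hj h
  · rcases four_term hm hd h6 hi hj (Nat.lt_succ_self n) (Nat.lt_succ_self n) h with h | h <;>
      exact h

theorem num_b {n m d i j k : ℕ} (hm : m * d + 1 = 2 ^ n) (hd : d ∣ n) (hi : i < n) (hj : j < n)
    (hk : k < n) (h : 2 ^ k + 2 ^ i ≡ 2 ^ 0 + 2 ^ ((j + k) % n) [MOD m]) : i = j := by
  by_cases h6 : n = 6 ∧ d = 3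
  · obtain ⟨rfl, rfl⟩ := h6
    obtain rfl : m = 21 := by omega
    exact six_b i hi j hj k hk h
  · rcases four_term hm hd h6 hk hi (by omega) (Nat.mod_lt _ (by omega)) h with ⟨e1, e2⟩ | ⟨e1, e2⟩
    · rw [e2, e1, add_zero, Nat.mod_eq_of_lt hj]
    · by_cases hlt : j + k < n
      · rw [Nat.mod_eq_of_lt hlt] at e1; omega
      · rw [Nat.mod_eq_sub_mod (by omega), Nat.mod_eq_of_lt (by omega)] at e1; omega

variable {F : Type*} [Field F] [Fintype F] [CharP F 2]

theorem exists_n : ∃ n, Fintype.card F = 2 ^ (n + 1) ∧ Nat.card (F ≃+* F) = n + 1 ∧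
    ∀ σ : F ≃+* F, ∃ i < n + 1, ∀ x, σ x = x ^ 2 ^ i := by
  letI : Algebra (ZMod 2) F := ZMod.algebra F 2
  let e : (F ≃+* F) ≃ (F ≃ₐ[ZMod 2] F) :=
    { toFun := fun σ => AlgEquiv.ofRingEquiv (f := σ) (fun a =>
        DFunLike.congr_fun (RingHom.ext_zmod ((σ : F →+* F).comp (algebraMap (ZMod 2) F))
          (algebraMap (ZMod 2) F)) a)
      invFun := fun σ => σ.toRingEquiv
      left_inv := fun σ => rfl
      right_inv := fun σ => rfl }
  obtain ⟨n, hn⟩ : ∃ n, Module.finrank (ZMod 2) F = n + 1 :=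
    ⟨_, (Nat.succ_pred_eq_of_pos Module.finrank_pos).symm⟩
  refine ⟨n, ?_, ?_, fun σ => ?_⟩
  · rw [Module.card_eq_pow_finrank (K := ZMod 2), ZMod.card, hn]
  · rw [← hn, ← IsGalois.card_aut_eq_finrank]; exact Nat.card_congr e
  · obtain ⟨i, hi⟩ := (FiniteField.bijective_frobeniusAlgEquivOfAlgebraic_pow (ZMod 2) F).2 (e σ)
    refine ⟨i, hn ▸ i.2, fun x => ?_⟩
    have := DFunLike.congr_fun hi x
    simp only [AlgEquiv.coe_pow, FiniteField.coe_frobeniusAlgEquivOfAlgebraic_iterate,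
      ZMod.card] at this
    exact this.symm

theorem exists_pow (σ : F ≃+* F) : ∃ i, ∀ x, σ x = x ^ 2 ^ i := by
  obtain ⟨n, -, -, h⟩ := exists_n (F := F)
  obtain ⟨i, -, hi⟩ := h σ
  exact ⟨i, hi⟩

theorem aut_comm (σ τ : F ≃+* F) (x : F) : σ (τ x) = τ (σ x) := by
  obtain ⟨i, hi⟩ := exists_pow σ
  rw [hi, hi, map_pow]

/-- a scalar whose order has small index -/
structure Good (l : F) : Prop where
  ne0 : l ≠ 0
  ne1 : l ≠ 1
  a : ∀ σ τ : F ≃+* F, σ l * τ l = l → σ = rt F ∧ τ = rt F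
  b : ∀ ρ σ τ : F ≃+* F, ρ (l / τ l) = l / σ l → σ = τ

theorem good_of {l : Fˣ} {d : ℕ} (hm : orderOf l * d + 1 = Fintype.card F)
    (hd : d ∣ Nat.card (F ≃+* F)) (h2 : 2 < Fintype.card F) : Good (l : F) := by
  obtain ⟨n, h1, h3, h4⟩ := exists_n (F := F)
  rw [h1] at hm h2
  rw [h3] at hd
  have hq : ∀ x : F, x ^ 2 ^ (n + 1) = x := fun x => by rw [← h1, FiniteField.pow_card]
  have me : ∀ s t : ℕ, (l : F) ^ s = l ^ t → s ≡ t [MOD orderOf l] := fun s t h =>
    pow_eq_pow_iff_modEq.1 (Units.ext (by simpa using h))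
  have hrt : ∀ σ : F ≃+* F, (∀ x, σ x = x ^ 2 ^ n) → σ = rt F := fun σ h => RingEquiv.ext fun x =>
    sq_inj (by rw [rt_mul_rt, h, ← pow_add, ← two_mul, ← pow_succ', hq])
  refine ⟨l.ne_zero, fun h => ?_, fun σ τ h => ?_, fun ρ σ τ h => ?_⟩
  · have e : l = 1 := Units.ext h
    rw [e, orderOf_one, one_mul] at hm
    have e1 := Nat.le_of_dvd (Nat.succ_pos n) hd
    have e2 : ∀ k, k + 3 < 2 ^ (k + 1 + 1) := fun k => by
      induction k with
      | zero => norm_num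
      | succ k ih =>
        rw [pow_succ]
        generalize 2 ^ (k + 1 + 1) = T at *
        omega
    cases n with
    | zero => simp at h2
    | succ n => 
      have := e2 n
      generalize 2 ^ (n + 1 + 1) = T at *
      omega
  · obtain ⟨i, hi, ei⟩ := h4 σ
    obtain ⟨j, hj, ej⟩ := h4 τ
    obtain ⟨rfl, rfl⟩ := num_a hm hd hi hj (me _ _ (by
      rw [pow_add, ← ei, ← ej, h, ← two_mul, ← pow_succ', hq]))
    exact ⟨hrt σ ei, hrt τ ej⟩
  · obtain ⟨i, hi, ei⟩ := h4 σ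
    obtain ⟨j, hj, ej⟩ := h4 τ
    obtain ⟨k, hk, ek⟩ := h4 ρ
    have hp : ∀ (t : ℕ) (x : F), x ^ 2 ^ (t % (n + 1)) = x ^ 2 ^ t := fun t x => by
      conv_rhs => rw [← Nat.div_add_mod t (n + 1), pow_add, pow_mul, pow_mul, ← h1,
        FiniteField.pow_card_pow]
    obtain rfl : i = j := num_b hm hd hi hj hk (me _ _ (by
      rw [ek, ej, ei, div_pow, ← pow_mul, ← pow_add, div_eq_div_iff (by simp) (by simp)] at h
      rw [pow_add, pow_add, h, hp, pow_zero, pow_one]))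
    exact RingEquiv.ext fun x => by rw [ei, ej]

theorem Good.alt {l : F} (h : Good l) {B : F → F → F} (h1 : ∀ x x' y, B (x + x') y = B x y + B x' y)
    (h2 : ∀ x y y', B x (y + y') = B x y + B x y') (h3 : ∀ x y, B (l * x) (l * y) = l * B x y)
    (h0 : B 1 1 = 0) (x y : F) : B x y = 0 := by
  obtain ⟨c, hc, hs⟩ := bil_supp (ι := Unit) B h1 h2 (fun _ => l) (fun _ => l) (fun _ => l)
    (fun _ => h3)
  have e := sum_single₂ (c := c) (fun σ τ hne => h.a σ τ (hs σ τ hne ()))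
  rw [hc, e] at h0 ⊢
  simp only [map_one, mul_one] at h0
  rw [h0, zero_mul]

open Classical in
theorem Good.single_mem {l : F} (h : Good l) (W : AddSubgroup ((F ≃+* F) → F))
    (hW : ∀ w ∈ W, (fun σ : F ≃+* F => l / σ l) * w ∈ W) {w : (F ≃+* F) → F} (hw : w ∈ W)
    (σ : F ≃+* F) : Pi.single σ (w σ) ∈ W := by
  letI : Algebra (ZMod 2) F := ZMod.algebra F 2
  let R : Subsemiring ((F ≃+* F) → F) :=
    { carrier := {r | ∀ w ∈ W, r * w ∈ W}
      mul_mem' := fun ha hb w hw => by rw [mul_assoc]; exact ha _ (hb w hw)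
      one_mem' := fun w hw => by rwa [one_mul]
      add_mem' := fun ha hb w hw => by rw [add_mul]; exact add_mem (ha w hw) (hb w hw)
      zero_mem' := fun w _ => by rw [zero_mul]; exact zero_mem _ }
  have hμ : (fun σ : F ≃+* F => l / σ l) ∈ R := hW
  have hp : ∀ f : (ZMod 2)[X], (fun σ : F ≃+* F => aeval (l / σ l) f) ∈ R := by
    intro f
    induction f using Polynomial.induction_on' with
    | add p q hp hq =>
      have := add_mem hp hq
      convert this using 1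
      funext σ; simp
    | monomial n a =>
      rcases zmod_two_cases a with rfl | rfl
      · convert zero_mem R using 1
        funext σ; simp
      · convert pow_mem hμ n using 1
        funext σ; simp [aeval_monomial]
  have hr : (∏ τ ∈ Finset.univ.erase σ,
      (fun ρ : F ≃+* F => aeval (l / ρ l) (minpoly (ZMod 2) (l / τ l)))) ^ (Fintype.card F - 1) ∈ R :=
    pow_mem (prod_mem fun τ _ => hp _) _
  convert hr w hw using 1
  funext τ
  rw [Pi.mul_apply, Pi.pow_apply, Finset.prod_apply]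
  by_cases e : τ = σ
  · subst e
    rw [Pi.single_eq_same, FiniteField.pow_card_sub_one_eq_one, one_mul]
    refine Finset.prod_ne_zero_iff.2 fun ρ hρ h0 => ?_
    obtain ⟨κ, hκ⟩ := minpoly.exists_algEquiv_of_root' (Algebra.IsAlgebraic.isAlgebraic _) h0
    exact (Finset.mem_erase.1 hρ).1 (h.b κ.toRingEquiv τ ρ hκ).symm
  · rw [Pi.single_eq_of_ne e, Finset.prod_eq_zero (Finset.mem_erase.2 ⟨e, Finset.mem_univ _⟩)
      (minpoly.aeval _ _), zero_pow, zero_mul]
    have := Fintype.one_lt_card (α := F)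
    omega

theorem fix_of {l a b x y : F} {σ τ : F ≃+* F} (hl : l ≠ 0) (hx : x ≠ 0) (hy : y ≠ 0)
    (h1 : a * σ x = x) (h2 : a * σ y = y) (h3 : b * τ x = x) (h4 : l / τ l * b * τ y = y)
    (hf : ∀ k, (l / σ l) ^ k = 1 → l ^ k = 1) : τ l = l := by
  have sx : σ x ≠ 0 := by simpa using hx
  have tx : τ x ≠ 0 := by simpa using hx
  have ty : τ y ≠ 0 := by simpa using hy
  have sy : σ y ≠ 0 := by simpa using hy
  have tl : τ l ≠ 0 := by simpa using hl
  have sl : σ l ≠ 0 := by simpa using hl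
  have e1 : σ (y / x) = y / x := by
    rw [map_div₀, div_eq_div_iff sx hx]
    linear_combination σ x * h2 - σ y * h1
  have e2 : τ (l * x / y) = l * x / y := by
    rw [map_div₀, map_mul, div_eq_div_iff ty hy]
    have h5 : l * b * τ y = τ l * y := by
      field_simp at h4; linear_combination h4
    linear_combination l * τ y * h3 - τ x * h5
  have e3 : l / σ l = (l * x / y) / σ (l * x / y) := by
    have : l = l * x / y * (y / x) := by field_simp
    conv_lhs => rw [this, map_mul, e1]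
    rw [mul_div_mul_right _ _ (div_ne_zero hy hx)]
  have e4 : τ (l / σ l) = l / σ l := by rw [e3, map_div₀, aut_comm, e2]
  obtain ⟨t, ht⟩ := exists_pow τ
  obtain ⟨s, hs⟩ : ∃ s, 2 ^ t = s + 1 := ⟨2 ^ t - 1, by have := Nat.one_le_two_pow (n := t); omega⟩
  rw [ht, hs, pow_succ, mul_eq_right₀ (div_ne_zero hl sl)] at e4
  rw [ht, hs, pow_succ, hf s e4, one_mul]

omit [CharP F 2] in
theorem common_eig {ι : Type*} [Finite ι] (ζ : ι → F → F) (h0 : ∀ i, ζ i 0 = 0)
    (idem : ∀ i t, ζ i (ζ i t) = ζ i t) (comm : ∀ i j t, ζ i (ζ j t) = ζ j (ζ i t)) :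
    ∃ t, t ≠ 0 ∧ ∀ i, ζ i t = 0 ∨ ζ i t = t := by
  obtain ⟨t, ht, hm⟩ := Set.exists_max_image {t : F | t ≠ 0}
    (fun t => {i | ζ i t = 0 ∨ ζ i t = t}.ncard) (Set.toFinite _) ⟨1, one_ne_zero⟩
  refine ⟨t, ht, fun i => ?_⟩
  by_contra hc
  rw [not_or] at hc
  refine not_lt.2 (hm (ζ i t) hc.1) (Set.ncard_lt_ncard ⟨fun j hj => ?_, fun hs => ?_⟩)
  · rcases hj with hj | hj
    · left; rw [comm, hj, h0]
    · right; rw [comm, hj]
  · exact not_or.2 hc (hs (Or.inr (idem i t)))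

omit [CharP F 2] in
/-- the scalar subgroup of a transitive semilinear group -/
theorem exists_scalar {Y : Type*} [Group Y] [Finite Y] (a : Y → F) (s : Y → F ≃+* F)
    (h0 : ∀ y, a y ≠ 0) (h1 : ∀ t, a 1 * s 1 t = t)
    (hmul : ∀ y y' t, a (y * y') * s (y * y') t = a y * s y (a y' * s y' t))
    (htr : ∀ t, t ≠ 0 → ∃ y, a y = t) :
    ∃ (y : Y) (l : Fˣ) (d : ℕ), a y = l ∧ (∀ t, s y t = t) ∧ orderOf l * d + 1 = Fintype.card F ∧
      d ∣ Nat.card (F ≃+* F) := by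
  classical
  have ea : ∀ y y', a (y * y') = a y * s y (a y') := fun y y' => by simpa using hmul y y' 1
  let s' : Y →* (F ≃+* F) := MonoidHom.mk' s fun y y' => RingEquiv.ext fun t => by
    have := hmul y y' t
    rw [ea, map_mul, mul_assoc] at this
    exact mul_left_cancel₀ (by simpa using h0 y') (mul_left_cancel₀ (h0 y) this)
  let a' : s'.ker →* Fˣ := MonoidHom.mk' (fun y => Units.mk0 (a y) (h0 y)) fun y y' => Units.ext (by
    have : s y = 1 := y.2
    simp only [Subgroup.coe_mul, Units.val_mk0, Units.val_mul, ea, this]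
    rfl)
  letI : MulAction Y F :=
    { smul := fun y t => a y * s y t
      one_smul := h1
      mul_smul := hmul }
  have hs : ∀ (y : Y) (t : F), y • t = a y * s y t := fun _ _ => rfl
  have c1 : (MulAction.stabilizer Y (1 : F)).index = Fintype.card F - 1 := by
    have : MulAction.orbit Y (1 : F) = Set.univ \ {0} := by
      ext t
      constructor
      · rintro ⟨y, rfl⟩
        exact ⟨trivial, by simpa [hs] using h0 y⟩
      · rintro ⟨-, ht⟩
        obtain ⟨y, hy⟩ := htr t ht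
        exact ⟨y, by simp [hs, hy]⟩
    rw [MulAction.index_stabilizer, this, Set.ncard_diff_singleton_of_mem (Set.mem_univ _),
      Set.ncard_univ, Nat.card_eq_fintype_card]
  obtain ⟨⟨g, y, rfl⟩, hg⟩ := IsCyclic.exists_generator (α := a'.range)
  have c2 : orderOf (a' y) = Nat.card a'.range := by
    rw [← orderOf_eq_card_of_forall_mem_zpowers hg]
    exact orderOf_injective a'.range.subtype (Subgroup.subtype_injective _) ⟨a' y, y, rfl⟩
  have c3 := Subgroup.card_mul_index a'.range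
  have c4 := Subgroup.card_mul_index a'.ker
  have c5 := Subgroup.card_mul_index s'.ker
  have c6 := Subgroup.card_mul_index (MulAction.stabilizer Y (1 : F))
  rw [Subgroup.index_ker] at c4 c5
  have c7 : Nat.card a'.ker ∣ Nat.card (MulAction.stabilizer Y (1 : F)) := by
    rw [← Subgroup.card_map_of_injective s'.ker.subtype_injective]
    refine Subgroup.card_dvd_of_le ?_
    rintro _ ⟨z, hz, rfl⟩
    have : a z = 1 := congrArg Units.val (show a' z = 1 from hz)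
    change a z * s z 1 = 1
    rw [this, map_one, one_mul]
  obtain ⟨j, hj⟩ := c7
  rw [Nat.card_units, Nat.card_eq_fintype_card (α := F)] at c3
  have hpos := Fintype.card_pos (α := F)
  refine ⟨y, a' y, a'.range.index, rfl, fun t => ?_, by rw [c2, c3]; omega, ?_⟩
  · have : s y = 1 := y.2
    rw [this]; rfl
  · refine Dvd.dvd.trans ⟨j, ?_⟩ (Subgroup.card_subgroup_dvd_card s'.range)
    rw [c1, ← c3, hj, ← c5, ← c4] at c6
    refine Nat.eq_of_mul_eq_mul_left (Nat.mul_pos (Nat.card_pos (α := a'.ker))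
      (Nat.card_pos (α := a'.range))) ?_
    rw [← c6]; ring

end Cfsg.Agent.H3.Sh
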