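import Mathlib
import Cfsg.Agent.H3.Sh1
import Cfsg.Agent.H3.Frattini
import Cfsg.Agent.H3.HallPetrescu
import Cfsg.Agent.H5.Repl

/-! Shaw's theorem on Suzuki 2-groups: the group theoretic part. -/

set_option autoImplicit false

namespace Cfsg.Agent.H3.Sh

open Subgroup Cfsg.Agent.H22 Cfsg.Agent.H3.SzF
open scoped commutatorElement

universe u

variable {G : Type u} [Group G] {F : Type*} [Field F] [Fintype F] [CharP F 2]

theorem pp (a : G) (j : ℕ) : a ^ 2 ^ (j + 1) = a ^ 2 ^ j * a ^ 2 ^ j := by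
  rw [pow_succ, pow_mul, sq]

theorem pp' (a : G) (j : ℕ) : (a * a) ^ 2 ^ j = a ^ 2 ^ (j + 1) := by
  rw [← sq, ← pow_mul, ← pow_succ']

theorem pp1 {a : G} (h : a * a = 1) (j : ℕ) : a ^ 2 ^ (j + 1) = 1 := by rw [← pp', h, one_pow]

theorem sq_map (a : MulAut G) {x : G} (hx : x * x = 1) : a x * a x = 1 := by
  rw [← map_mul, hx, map_one]

theorem comm_map (y : MulAut G) (u a : G) : ⁅u, y a⁆ = y ⁅y⁻¹ u, a⁆ := by
  rw [map_commutatorElement, MulAut.apply_inv_self]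

theorem sq_mul_eq (x y : G) : x * y * (x * y) = x * x * ⁅x⁻¹, y⁆ * (y * y) := by
  simp only [commutatorElement_def]; group

theorem exists_pow_not_mem (hp : IsPGroup 2 G) {A : Subgroup G} {x : G} (hx : x ∉ A) :
    ∃ k, x ^ 2 ^ k ∉ A ∧ x ^ 2 ^ k * x ^ 2 ^ k ∈ A := by
  obtain ⟨n, hn⟩ := hp x
  have hn' : x ^ 2 ^ n ∈ A := hn ▸ one_mem A
  clear hn
  induction n generalizing x with
  | zero => exact absurd (by simpa using hn') hx
  | succ n ih =>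
    by_cases h : x * x ∈ A
    · exact ⟨0, by simpa using hx, by simpa using h⟩
    · obtain ⟨k, hk⟩ := ih h (by rwa [pp'])
      exact ⟨k + 1, by rwa [← pp']⟩

theorem exists_fp [Finite G] (hp : IsPGroup 2 G) (η : MulAut G)
    (hη : ∀ x, x * x = 1 → η x = x → x = 1) {D : Subgroup G} (hD : ∀ x ∈ D, η x ∈ D) {u : G}
    (hu : u ∈ D) : ∃ g ∈ D, u = g⁻¹ * η g := by
  have fp : ∀ g, η g = g → g = 1 := fun g hg => by
    by_contra h1
    obtain ⟨k, k1, k2⟩ := exists_pow_not_mem hp (A := ⊥) (x := g) h1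
    exact k1 (hη _ k2 (by rw [map_pow, hg]))
  let f : D → D := fun g => ⟨(g : G)⁻¹ * η g, mul_mem (inv_mem g.2) (hD _ g.2)⟩
  have hf : Function.Injective f := fun g g' e => by
    have e1 : (g : G)⁻¹ * η g = (g' : G)⁻¹ * η g' := congrArg Subtype.val e
    have := fp ((g' : G) * (g : G)⁻¹) (by
      rw [map_mul, map_inv]
      calc η g' * (η g)⁻¹ = g' * ((g' : G)⁻¹ * η g') * (η g)⁻¹ := by group
        _ = _ := by rw [← e1]; group)
    exact Subtype.ext (mul_inv_eq_one.1 this).symm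
  obtain ⟨g, hg⟩ := Finite.injective_iff_surjective.1 hf ⟨u, hu⟩
  exact ⟨g, g.2, (congrArg Subtype.val hg).symm⟩

theorem onto_sq {M : Type*} [CommGroup M] (η : M →* M) (h4 : ∀ a, ∃ b, η a = b ^ 4) {N : ℕ}
    (hN : ∀ a : M, a ^ 2 ^ N = 1) (a : M) : ∃ e, a * a = e * e * η e := by
  have key : ∀ (j : ℕ) (a : M), ∃ e d, a * a = e * e * η e * d ^ 2 ^ (j + 1) := by
    intro j
    induction j with
    | zero => intro a; exact ⟨1, a, by simp [sq]⟩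
    | succ j ih =>
      intro a
      obtain ⟨e, d, h⟩ := ih a
      obtain ⟨b, hb⟩ := h4 d
      refine ⟨e * d ^ 2 ^ j, b⁻¹, ?_⟩
      rw [h, map_mul, map_pow, hb, ← pow_mul, inv_pow, show 4 * 2 ^ j = 2 ^ (j + 1 + 1) by ring,
        pow_succ 2 j, pow_mul, sq]
      apply Additive.ofMul.injective
      simp only [ofMul_mul, ofMul_inv]
      abel
  obtain ⟨e, d, h⟩ := key N a
  exact ⟨e, by rw [h, pow_succ, pow_mul, hN, one_pow, mul_one]⟩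

/-- invariance under a group of automorphisms -/
def Inv (Y : Subgroup (MulAut G)) (H : Subgroup G) : Prop := ∀ a ∈ Y, ∀ x ∈ H, a x ∈ H

theorem Inv.C {Y : Subgroup (MulAut G)} {H : Subgroup G} (h : Inv Y H) : Inv Y C[H] :=
  fun a ha x hx => mem_C.2 fun b hb => by
    have := congrArg a (mem_C.1 hx _ (h _ (inv_mem ha) b hb))
    simpa only [map_mul, MulAut.apply_inv_self] using this

/-- elements of `H` that are central involutions modulo `A` -/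
def Dg (A H : Subgroup G) [hA : A.Normal] : Subgroup G where
  carrier := {x | x ∈ H ∧ (∀ g, ⁅g, x⁆ ∈ A) ∧ x * x ∈ A}
  one_mem' := ⟨one_mem _, fun g => by simp, by simp⟩
  mul_mem' := fun {x y} hx hy => ⟨mul_mem hx.1 hy.1, fun g => by
      rw [H3.comm_mul_right]; exact mul_mem (hx.2.1 g) (hA.conj_mem _ (hy.2.1 g) x), by
      rw [sq_mul_eq]; exact mul_mem (mul_mem hx.2.2 (hy.2.1 _)) hy.2.2⟩
  inv_mem' := fun {x} hx => ⟨inv_mem hx.1, fun g => by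
      have e : ⁅g, x⁻¹⁆ = x⁻¹ * ⁅g, x⁆⁻¹ * x⁻¹⁻¹ := by simp only [commutatorElement_def]; group
      rw [e]; exact hA.conj_mem _ (inv_mem (hx.2.1 g)) _, by
      rw [← mul_inv_rev]; exact inv_mem hx.2.2⟩

theorem Inv.Dg {Y : Subgroup (MulAut G)} {A H : Subgroup G} [A.Normal] (hA : Inv Y A)
    (hH : Inv Y H) : Inv Y (Dg A H) := fun a ha x hx =>
  ⟨hH a ha x hx.1, fun g => by rw [comm_map]; exact hA a ha _ (hx.2.1 _), by
    rw [← map_mul]; exact hA a ha _ hx.2.2⟩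

theorem exists_Dg [Finite G] (hp : IsPGroup 2 G) {A H : Subgroup G} [A.Normal] [H.Normal]
    (h : ¬ H ≤ A) : ∃ x ∈ Dg A H, x ∉ A := by
  obtain ⟨x, hx, hxA, h1⟩ := pgrp_exists_comm_mem (P := ⊤) (hp.to_subgroup _) (hp.to_subgroup H)
    (le_N_of_normal _ _) h
  have h2 : x ∈ cmod ⊤ A := mem_cmod.2 ⟨mem_N_of_normal _ _, fun g _ => by
    rw [← commutatorElement_inv]; exact inv_mem (h1 g (mem_sup_left trivial)).1⟩
  obtain ⟨k, k1, k2⟩ := exists_pow_not_mem hp hxA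
  exact ⟨_, ⟨pow_mem hx _, fun g => (pow_mem h2 _).2 g trivial, k2⟩, k1⟩

/-- The setting: involutions are central and coordinatized by a field. -/
structure Sw (Y : Subgroup (MulAut G)) (c : G → F) (ξ : MulAut G) (l : F) : Prop where
  pg : IsPGroup 2 G
  cen : ∀ x : G, x * x = 1 → ∀ g, g * x = x * g
  tr : ∀ x y : G, x ≠ 1 → x * x = 1 → y ≠ 1 → y * y = 1 → ∃ a ∈ Y, a x = y
  add : ∀ x y, x * x = 1 → y * y = 1 → c (x * y) = c x + c y
  inj : ∀ x, x * x = 1 → c x = 0 → x = 1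
  surj : ∀ t, ∃ x, x * x = 1 ∧ c x = t
  mem : ξ ∈ Y
  act : ∀ x, x * x = 1 → c (ξ x) = l * c x
  good : Good l

/-- A homocyclic invariant normal subgroup of exponent `2 ^ (f + 1)`. -/
structure Hc (Y : Subgroup (MulAut G)) (A : Subgroup G) (f : ℕ) : Prop where
  inv : Inv Y A
  ab : ∀ a ∈ A, ∀ b ∈ A, a * b = b * a
  vle : ∀ v, v * v = 1 → v ∈ A
  p1 : ∀ a ∈ A, a ^ 2 ^ f * a ^ 2 ^ f = 1
  p2 : ∀ v, v * v = 1 → ∃ a ∈ A, a ^ 2 ^ f = v
  p3 : ∀ a ∈ A, a ^ 2 ^ f = 1 → ∃ b ∈ A, a = b * b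

variable {Y : Subgroup (MulAut G)} {c : G → F} {ξ : MulAut G} {l : F} {A : Subgroup G} {f : ℕ}

namespace Hc

theorem mpow (hA : Hc Y A f) {a b : G} (ha : a ∈ A) (hb : b ∈ A) (n : ℕ) :
    (a * b) ^ n = a ^ n * b ^ n := Commute.mul_pow (hA.ab a ha b hb) n

variable [hn : A.Normal]

theorem cm (_ : Hc Y A f) (g : G) {a : G} (ha : a ∈ A) : ⁅g, a⁆ ∈ A := by
  rw [commutatorElement_def]; exact mul_mem (hn.conj_mem _ ha g) (inv_mem ha)

theorem cmul (hA : Hc Y A f) (g : G) {a b : G} (ha : a ∈ A) (hb : b ∈ A) :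
    ⁅g, a * b⁆ = ⁅g, a⁆ * ⁅g, b⁆ := comm_mul_right_of_commute (hA.ab _ ha _ (hA.cm g hb))

theorem cpow (hA : Hc Y A f) (g : G) {a : G} (ha : a ∈ A) (n : ℕ) : ⁅g, a ^ n⁆ = ⁅g, a⁆ ^ n := by
  induction n with
  | zero => simp
  | succ n ih => rw [pow_succ, hA.cmul g (pow_mem ha n) ha, ih, pow_succ]

theorem rel (hA : Hc Y A f) {u a : G} (hu : u * u ∈ A) (ha : a ∈ A) :
    ⁅u, ⁅u, a⁆⁆ * (⁅u, a⁆ * ⁅u, a⁆) = 1 := by
  rw [← commutatorElement_eq_one_iff_mul_comm.2 (hA.ab _ hu _ ha)]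
  simp only [commutatorElement_def]; group

end Hc

namespace Sw

theorem one (h : Sw Y c ξ l) : c 1 = 0 := by
  have := h.add 1 1 (by simp) (by simp)
  rw [mul_one] at this
  exact left_eq_add.1 this

theorem mul_sq (h : Sw Y c ξ l) {x y : G} (hx : x * x = 1) (hy : y * y = 1) :
    x * y * (x * y) = 1 := by
  rw [mul_assoc, ← mul_assoc y, h.cen x hx y, mul_assoc x, hy, mul_one, hx]

theorem eq_of (h : Sw Y c ξ l) {x y : G} (hx : x * x = 1) (hy : y * y = 1) (e : c x = c y) :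
    x = y := by
  have := h.inj _ (h.mul_sq hx hy) (by rw [h.add x y hx hy, e, add_self'])
  rw [← hy] at this
  exact mul_right_cancel this

theorem conj (h : Sw Y c ξ l) {x : G} (hx : x * x = 1) (g : G) : g * x * g⁻¹ = x := by
  rw [h.cen x hx g, mul_inv_cancel_right]

theorem comm1 (h : Sw Y c ξ l) {x : G} (hx : x * x = 1) (g : G) : ⁅g, x⁆ = 1 :=
  commutatorElement_eq_one_iff_mul_comm.2 (h.cen x hx g)

/-- the involutions together with the identity -/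
def V (h : Sw Y c ξ l) : Subgroup G where
  carrier := {x | x * x = 1}
  one_mem' := mul_one 1
  mul_mem' := h.mul_sq
  inv_mem' := fun {x} hx => by
    change x⁻¹ * x⁻¹ = 1
    rw [← mul_inv_rev, show x * x = 1 from hx, inv_one]

instance V_normal (h : Sw Y c ξ l) : h.V.Normal := ⟨fun x hx g => by rwa [h.conj hx g]⟩

theorem V_inv (h : Sw Y c ξ l) : Inv Y h.V := fun a _ _ hx => sq_map a hx

theorem V_le (h : Sw Y c ξ l) {H : Subgroup G} (hH : Inv Y H) {x : G} (hx : x ∈ H) (h1 : x ≠ 1) :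
    h.V ≤ H := fun v hv => by
  by_cases h2 : v = 1
  · exact h2 ▸ one_mem H
  obtain ⟨k, k1, k2⟩ := exists_pow_not_mem h.pg (A := ⊥) (x := x) h1
  obtain ⟨a, ha, e⟩ := h.tr _ v k1 k2 h2 hv
  exact e ▸ hH a ha _ (pow_mem hx _)

theorem act_pow (h : Sw Y c ξ l) (k : ℕ) {x : G} (hx : x * x = 1) :
    c ((ξ ^ k) x) = l ^ k * c x := by
  induction k with
  | zero => simp
  | succ k ih => rw [pow_succ', MulAut.mul_apply, h.act _ (sq_map _ hx), ih]; ring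

theorem fp (h : Sw Y c ξ l) {k : ℕ} (hk : l ^ k ≠ 1) (x : G) (hx : x * x = 1)
    (e : (ξ ^ k) x = x) : x = 1 := by
  have := h.act_pow k hx
  rw [e] at this
  by_contra h1
  exact hk ((mul_eq_right₀ fun h0 => h1 (h.inj x hx h0)).1 this.symm)

theorem exists_hc [Finite G] (h : Sw Y c ξ l) (inv : Inv Y A) (ab : ∀ a ∈ A, ∀ b ∈ A, a * b = b * a)
    (vle : ∀ v, v * v = 1 → v ∈ A) : ∃ f, Hc Y A f := by
  classical
  obtain ⟨N, hN⟩ := IsPGroup.iff_card.1 h.pg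
  have hex : ∃ e, ∀ a ∈ A, a ^ 2 ^ e = 1 := ⟨N, fun a _ => by rw [← hN, pow_card_eq_one']⟩
  obtain ⟨f, hf⟩ : ∃ f, Nat.find hex = f + 1 := by
    refine ⟨_, (Nat.succ_pred_eq_of_ne_zero fun h0 => ?_).symm⟩
    obtain ⟨v, hv, e⟩ := h.surj 1
    have := Nat.find_spec hex v (vle v hv)
    rw [h0, pow_zero, pow_one] at this
    rw [this, h.one] at e
    exact zero_ne_one e
  have p1 : ∀ a ∈ A, a ^ 2 ^ f * a ^ 2 ^ f = 1 := fun a ha => by
    rw [← pp, ← hf]; exact Nat.find_spec hex a ha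
  have p2 : ∀ v, v * v = 1 → ∃ a ∈ A, a ^ 2 ^ f = v := fun v hv => by
    by_cases h2 : v = 1
    · exact ⟨1, one_mem _, by rw [h2, one_pow]⟩
    have := Nat.find_min hex (show f < Nat.find hex by omega)
    push Not at this
    obtain ⟨a, ha, h1⟩ := this
    obtain ⟨y, hy, e⟩ := h.tr _ v h1 (p1 a ha) h2 hv
    exact ⟨y a, inv y hy a ha, by rw [← map_pow, e]⟩
  refine ⟨f, inv, ab, vle, p1, p2, fun a ha h1 => ?_⟩
  letI : CommGroup A := { (inferInstance : Group A) with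
    mul_comm := fun a b => Subtype.ext (ab a a.2 b b.2) }
  let π : A →* A := powMonoidHom (2 ^ f)
  let s : A →* A := powMonoidHom 2
  have e1 : π.range = s.ker := by
    ext x
    constructor
    · rintro ⟨y, rfl⟩
      exact Subtype.ext (by simpa [s, π, sq] using p1 y y.2)
    · intro hx
      have : (x : G) * x = 1 := by simpa [s, sq] using congrArg Subtype.val hx
      obtain ⟨y, hy, e⟩ := p2 x this
      exact ⟨⟨y, hy⟩, Subtype.ext e⟩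
  have e2 : s.range ≤ π.ker := by
    rintro _ ⟨y, rfl⟩
    refine Subtype.ext ?_
    change ((y : G) ^ 2) ^ 2 ^ f = 1
    rw [sq, pp', pp, p1 y y.2]
  have c1 := card_mul_index π.ker
  have c2 := card_mul_index s.ker
  rw [index_ker] at c1 c2
  rw [e1, ← c2, mul_comm] at c1
  have e3 := eq_of_le_of_card_ge e2 (Nat.eq_of_mul_eq_mul_left Nat.card_pos c1).le
  obtain ⟨b, hb⟩ : (⟨a, ha⟩ : A) ∈ s.range := e3 ▸ Subtype.ext h1
  exact ⟨b, b.2, by rw [← sq]; exact (congrArg Subtype.val hb).symm⟩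

theorem cpi [A.Normal] (h : Sw Y c ξ l) (hA : Hc Y A f) (g : G) {a : G} (ha : a ∈ A) :
    ⁅g, a⁆ ^ 2 ^ f = 1 := by
  rw [← hA.cpow g ha, h.comm1 (hA.p1 a ha)]

theorem alt (h : Sw Y c ξ l) {D D' : Subgroup G} (hD : Inv Y D) (hD' : Inv Y D') {p p' : G → F}
    (a1 : ∀ x ∈ D, ∀ y ∈ D, p (x * y) = p x + p y) (a2 : ∀ x ∈ D', ∀ y ∈ D', p' (x * y) = p' x + p' y)
    (s1 : ∀ t, ∃ x ∈ D, p x = t) (s2 : ∀ t, ∃ x ∈ D', p' x = t)
    (e1 : ∀ x ∈ D, p (ξ x) = l * p x) (e2 : ∀ x ∈ D', p' (ξ x) = l * p' x)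
    (hV : ∀ x ∈ D, ∀ y ∈ D', ⁅x, y⁆ * ⁅x, y⁆ = 1)
    (k1 : ∀ x ∈ D, p x = 0 → ∀ y ∈ D', ⁅x, y⁆ = 1) (k2 : ∀ y ∈ D', p' y = 0 → ∀ x ∈ D, ⁅x, y⁆ = 1)
    (h0 : ∀ x ∈ D, ∃ y ∈ D', p' y = p x ∧ ⁅x, y⁆ = 1) : ∀ x ∈ D, ∀ y ∈ D', ⁅x, y⁆ = 1 := by
  have m1 : ∀ x ∈ D, ∀ x' ∈ D, ∀ y ∈ D', c ⁅x * x', y⁆ = c ⁅x, y⁆ + c ⁅x', y⁆ :=
    fun x hx x' hx' y hy => by
      rw [comm_mul_left, h.conj (hV x' hx' y hy), h.add _ _ (hV x' hx' y hy) (hV x hx y hy), add_comm]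
  have m2 : ∀ x ∈ D, ∀ y ∈ D', ∀ y' ∈ D', c ⁅x, y * y'⁆ = c ⁅x, y⁆ + c ⁅x, y'⁆ :=
    fun x hx y hy y' hy' => by
      rw [comm_mul_right, h.conj (hV x hx y' hy'), h.add _ _ (hV x hx y hy) (hV x hx y' hy')]
  choose r hr er using s1
  choose r' hr' er' using s2
  have w : ∀ x ∈ D, ∀ y ∈ D', c ⁅r (p x), r' (p' y)⁆ = c ⁅x, y⁆ := fun x hx y hy => by
    have u1 := mul_mem hx (inv_mem (hr (p x)))
    have u2 := mul_mem hy (inv_mem (hr' (p' y)))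
    have t1 := a1 _ u1 _ (hr (p x))
    have t2 := a2 _ u2 _ (hr' (p' y))
    have t3 := m1 _ u1 _ (hr (p x)) y hy
    have t4 := m2 _ (hr (p x)) _ u2 _ (hr' (p' y))
    rw [inv_mul_cancel_right] at t1 t2 t3 t4
    rw [er] at t1
    rw [er'] at t2
    rw [t3, t4, k1 _ u1 (right_eq_add.1 t1) y hy, k2 _ u2 (right_eq_add.1 t2) _ (hr _), h.one,
      zero_add, zero_add]
  have key := h.good.alt (B := fun s t => c ⁅r s, r' t⁆)
    (fun s s' t => by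
      have := w _ (mul_mem (hr s) (hr s')) _ (hr' t)
      rw [a1 _ (hr s) _ (hr s'), er, er, er'] at this
      rw [this, m1 _ (hr s) _ (hr s') _ (hr' t)])
    (fun s t t' => by
      have := w _ (hr s) _ (mul_mem (hr' t) (hr' t'))
      rw [a2 _ (hr' t) _ (hr' t'), er, er', er'] at this
      rw [this, m2 _ (hr s) _ (hr' t) _ (hr' t')])
    (fun s t => by
      have := w _ (hD ξ h.mem _ (hr s)) _ (hD' ξ h.mem _ (hr' t))
      rw [e1 _ (hr s), e2 _ (hr' t), er, er'] at this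
      rw [this, ← map_commutatorElement, h.act _ (hV _ (hr s) _ (hr' t))])
    (by
      obtain ⟨y, hy, f1, f2⟩ := h0 _ (hr 1)
      have := w _ (hr 1) y hy
      rw [f1, er, f2, h.one] at this
      exact this)
  intro x hx y hy
  exact h.inj _ (hV x hx y hy) (by rw [← w x hx y hy]; exact key _ _)

theorem th_add [A.Normal] (h : Sw Y c ξ l) (hA : Hc Y A f) {H : Subgroup G} {x y : G}
    (hx : x ∈ Dg A H) (hy : y ∈ Dg A H) (e : ⁅x⁻¹, y⁆ ^ 2 ^ f = 1) :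
    c ((x * y * (x * y)) ^ 2 ^ f) = c ((x * x) ^ 2 ^ f) + c ((y * y) ^ 2 ^ f) := by
  rw [sq_mul_eq, hA.mpow (mul_mem hx.2.2 (hy.2.1 _)) hy.2.2, hA.mpow hx.2.2 (hy.2.1 _), e, mul_one,
    h.add _ _ (hA.p1 _ hx.2.2) (hA.p1 _ hy.2.2)]

theorem th_surj [A.Normal] (h : Sw Y c ξ l) (hA : Hc Y A f) {H : Subgroup G} (hH : Inv Y H) {x : G}
    (hx : x ∈ Dg A H) (h1 : (x * x) ^ 2 ^ f ≠ 1) (t : F) :
    ∃ x ∈ Dg A H, c ((x * x) ^ 2 ^ f) = t := by
  obtain ⟨v, hv, rfl⟩ := h.surj t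
  by_cases h2 : v = 1
  · exact ⟨1, one_mem _, by simp [h2]⟩
  obtain ⟨y, hy, e⟩ := h.tr _ v h1 (hA.p1 _ hx.2.2) h2 hv
  exact ⟨y x, hA.inv.Dg hH y hy x hx, by rw [← map_mul, ← map_pow, e]⟩

theorem th_act (h : Sw Y c ξ l) (hA : Hc Y A f) {x : G} (hx : x * x ∈ A) :
    c ((ξ x * ξ x) ^ 2 ^ f) = l * c ((x * x) ^ 2 ^ f) := by
  rw [← map_mul, ← map_pow, h.act _ (hA.p1 _ hx)]

variable [Finite G] [hn : A.Normal]

theorem step0 (h : Sw Y c ξ l) (hA : Hc Y A 0)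
    (hmax : ∀ B, Inv Y B → B.Normal → (∀ a ∈ B, ∀ b ∈ B, a * b = b * a) → A ≤ B → B ≤ A) (g : G) :
    g * g * (g * g) = 1 := by
  have hAV : A ≤ h.V := fun a ha => show a * a = 1 by simpa using hA.p1 a ha
  let Z : Subgroup G := cmod ⊤ h.V
  have mZ : ∀ x, x ∈ Z ↔ ∀ g, ⁅g, x⁆ ∈ h.V := fun x =>
    ⟨fun hx g => hx.2 g trivial, fun hx => ⟨mem_N_of_normal _ _, fun g _ => hx g⟩⟩
  have nZ : Z.Normal := normal_of_top_le_N (le_N_cmod (le_N_of_normal _ _) (le_N_of_normal _ _))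
  have nC : (C[Z]).Normal := normal_of_top_le_N (le_N_C (le_N_of_normal _ _))
  have iZ : Inv Y Z := fun a ha x hx => (mZ _).2 fun g => by
    rw [comm_map]; exact h.V_inv a ha _ ((mZ x).1 hx _)
  have hB : Z ⊓ C[Z] ≤ A := hmax _ (fun a ha x hx => ⟨iZ a ha x hx.1, iZ.C a ha x hx.2⟩)
    inferInstance (fun a ha b hb => mem_C.1 hb.2 a ha.1) fun a ha =>
      ⟨(mZ a).2 fun g => by rw [h.comm1 (hAV ha)]; exact one_mem _,
        mem_C.2 fun b _ => h.cen a (hAV ha) b⟩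
  have hg : g * g ∈ C[Z] := mem_C.2 fun z hz => by
    have := (mZ z).1 hz g
    rw [eq_comm, ← commutatorElement_eq_one_iff_mul_comm, comm_mul_left, h.conj this]
    exact this
  by_contra hc
  obtain ⟨x, hx, hxV, h1⟩ := pgrp_exists_comm_mem (P := ⊤) (R := h.V) (h.pg.to_subgroup _)
    (h.pg.to_subgroup C[Z]) (le_N_of_normal _ _) fun e => hc (e hg)
  refine hxV (hAV (hB ⟨(mZ x).2 fun g => ?_, hx⟩))
  rw [← commutatorElement_inv]
  exact inv_mem (h1 g (mem_sup_left trivial)).1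

theorem step2 {k : ℕ} (h : Sw Y c ξ l) (hA : Hc Y A (k + 1))
    (hmax : ∀ B, Inv Y B → B.Normal → (∀ a ∈ B, ∀ b ∈ B, a * b = b * a) → A ≤ B → B ≤ A) :
    C[A] ≤ A := by
  by_contra hc
  have nC : (C[A]).Normal := normal_of_top_le_N (le_N_C (le_N_of_normal _ _))
  obtain ⟨x₀, hx₀, hx₀A⟩ := exists_Dg h.pg hc
  have iD := hA.inv.Dg hA.inv.C
  have hV : ∀ x ∈ Dg A C[A], ∀ y ∈ Dg A C[A], ⁅x, y⁆ * ⁅x, y⁆ = 1 := fun x hx y hy => by
    have e1 : ⁅x * x, y⁆ = 1 := commutatorElement_eq_one_iff_mul_comm.2 (mem_C.1 hy.1 _ hx.2.2)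
    rwa [comm_mul_left, ← mem_C.1 hx.1 _ (hy.2.1 x), mul_inv_cancel_right] at e1
  have ker : ∀ x ∈ Dg A C[A], (x * x) ^ 2 ^ (k + 1) = 1 → x ∈ A := fun x hx e => by
    obtain ⟨b, hb, e1⟩ := hA.p3 _ hx.2.2 e
    have e2 : x * b⁻¹ * (x * b⁻¹) = 1 := by
      rw [mul_assoc, ← mul_assoc b⁻¹, mem_C.1 hx.1 _ (inv_mem hb), ← mul_assoc, ← mul_assoc, e1]
      group
    exact (mul_mem_cancel_right (inv_mem hb)).1 (hA.vle _ e2)
  have ker' : ∀ x ∈ Dg A C[A], c ((x * x) ^ 2 ^ (k + 1)) = 0 → ∀ y ∈ Dg A C[A], ⁅x, y⁆ = 1 :=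
    fun x hx e y hy => commutatorElement_eq_one_iff_mul_comm.2
      (mem_C.1 hy.1 _ (ker x hx (h.inj _ (hA.p1 _ hx.2.2) e)))
  have ad := fun x hx y hy => h.th_add hA hx hy (pp1 (hV x⁻¹ (inv_mem hx) y hy) k)
  have su := h.th_surj hA hA.inv.C hx₀ fun e => hx₀A (ker _ hx₀ e)
  have ac := fun x (hx : x ∈ Dg A C[A]) => h.th_act hA hx.2.2
  have key := h.alt iD iD ad ad su su ac ac hV ker'
    (fun y hy e x hx => by rw [← commutatorElement_inv, ker' y hy e x hx, inv_one])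
    (fun x hx => ⟨x, hx, rfl, commutatorElement_self x⟩)
  have hAD : A ≤ Dg A C[A] := fun a ha =>
    ⟨mem_C.2 fun b hb => hA.ab b hb a ha, fun g => hA.cm g ha, mul_mem ha ha⟩
  refine hx₀A (hmax _ iD ⟨fun x hx g => ?_⟩
    (fun a ha b hb => commutatorElement_eq_one_iff_mul_comm.1 (key a ha b hb)) hAD hx₀)
  rw [conj_eq_comm_mul]
  exact mul_mem (hAD (hx.2.1 g)) hx

end Sw

end Cfsg.Agent.H3.Sh
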