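import Mathlib
import Cfsg.Agent.H3.Sh2
import Cfsg.Agent.S3360

/-! Shaw's theorem on Suzuki 2-groups: conclusion. -/

set_option autoImplicit false

namespace Cfsg.Agent.H3.Sh

open Subgroup Cfsg.Agent.H22 Cfsg.Agent.H3.SzF
open scoped commutatorElement

universe u

variable {G : Type u} [Group G] {F : Type*} [Field F] [Fintype F] [CharP F 2]
variable {Y : Subgroup (MulAut G)} {c : G → F} {ξ : MulAut G} {l : F} {A : Subgroup G} {f : ℕ}

namespace Sw

variable [Finite G] [hn : A.Normal]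

theorem zeta_zero {k : ℕ} (h : Sw Y c ξ l) (hA : Hc Y A (k + 2)) {u : G} (hu : u ∈ Dg A ⊤) {a : G}
    (ha : a ∈ A) : ⁅u, a⁆ ^ 2 ^ (k + 1) = 1 := by
  have iD : Inv Y (Dg A ⊤) := hA.inv.Dg fun _ _ _ _ => trivial
  have zV : ∀ g, ∀ a ∈ A, ⁅g, a⁆ ^ 2 ^ (k + 1) * ⁅g, a⁆ ^ 2 ^ (k + 1) = 1 := fun g a ha => by
    rw [← pp]; exact h.cpi hA g ha
  have z1 : ∀ g, ∀ a ∈ A, ∀ b ∈ A, c (⁅g, a * b⁆ ^ 2 ^ (k + 1)) =
      c (⁅g, a⁆ ^ 2 ^ (k + 1)) + c (⁅g, b⁆ ^ 2 ^ (k + 1)) := fun g a ha b hb => by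
    rw [hA.cmul g ha hb, hA.mpow (hA.cm g ha) (hA.cm g hb), h.add _ _ (zV g a ha) (zV g b hb)]
  have z2 : ∀ g, ∀ a ∈ A, a ^ 2 ^ (k + 2) = 1 → ⁅g, a⁆ ^ 2 ^ (k + 1) = 1 := fun g a ha e => by
    obtain ⟨b, hb, rfl⟩ := hA.p3 a ha e
    rw [hA.cmul g hb hb, pp']; exact h.cpi hA g hb
  have hr : ∀ t, ∃ a ∈ A, c (a ^ 2 ^ (k + 2)) = t := fun t => by
    obtain ⟨v, hv, rfl⟩ := h.surj t
    obtain ⟨a, ha, rfl⟩ := hA.p2 v hv
    exact ⟨a, ha, rfl⟩
  choose r hr er using hr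
  let ζ : G → F → F := fun g t => c (⁅g, r t⁆ ^ 2 ^ (k + 1))
  have ζP : ∀ g, ∀ a ∈ A, ζ g (c (a ^ 2 ^ (k + 2))) = c (⁅g, a⁆ ^ 2 ^ (k + 1)) := fun g a ha => by
    have hb := hr (c (a ^ 2 ^ (k + 2)))
    have e := h.eq_of (hA.p1 _ hb) (hA.p1 _ ha) (er _)
    have t := z1 g _ (mul_mem hb (inv_mem ha)) a ha
    rw [inv_mul_cancel_right, z2 g _ (mul_mem hb (inv_mem ha))
      (by rw [hA.mpow hb (inv_mem ha), e, inv_pow, mul_inv_cancel]), h.one, zero_add] at t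
    exact t
  have ζadd : ∀ g s t, ζ g (s + t) = ζ g s + ζ g t := fun g s t => by
    have := ζP g _ (mul_mem (hr s) (hr t))
    rw [hA.mpow (hr s) (hr t), h.add _ _ (hA.p1 _ (hr s)) (hA.p1 _ (hr t)), er, er] at this
    rw [this, z1 g _ (hr s) _ (hr t)]
  have ζ0 : ∀ g, ζ g 0 = 0 := fun g => map_zero_of_add (ζadd g)
  have ζmul : ∀ g g' t, ζ (g * g') t = ζ g t + ζ g' t := fun g g' t => by
    have h1 := hA.cm g' (hr t)
    change c (⁅g * g', r t⁆ ^ 2 ^ (k + 1)) = _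
    rw [comm_mul_left, conj_eq_comm_mul, hA.mpow (mul_mem (hA.cm g h1) h1) (hA.cm g (hr t)),
      hA.mpow (hA.cm g h1) h1, z2 g _ h1 (h.cpi hA g' (hr t)), one_mul,
      h.add _ _ (zV _ _ (hr t)) (zV _ _ (hr t)), add_comm]
  have idem : ∀ u ∈ Dg A ⊤, ∀ t, ζ u (ζ u t) = ζ u t := fun u hu t => by
    have ha := hr t
    obtain ⟨b, hb, e⟩ := hA.p3 _ (hA.cm u ha) (h.cpi hA u ha)
    have e1 : ζ u t = c (b ^ 2 ^ (k + 2)) := by rw [← pp', ← e]
    have e2 := hA.rel hu.2.2 ha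
    have h1 := hA.cm u hb
    have h2 := hA.cm u ha
    rw [e, hA.cmul u hb hb, ← e] at e2
    have e3 : ⁅u, b⁆ * ⁅u, r t⁆ * (⁅u, b⁆ * ⁅u, r t⁆) = 1 := by
      rw [← e2, mul_assoc, ← mul_assoc ⁅u, r t⁆, hA.ab _ h2 _ h1]; group
    have e4 := congrArg c (pp1 e3 k)
    rw [hA.mpow h1 h2, h.add _ _ (zV u b hb) (zV u _ ha), h.one] at e4
    conv_lhs => rw [e1, ζP u b hb]
    exact eq_of_add_eq_zero e4
  have comm : ∀ u ∈ Dg A ⊤, ∀ w ∈ Dg A ⊤, ∀ t, ζ u (ζ w t) = ζ w (ζ u t) := fun u hu w hw t => by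
    have := idem _ (mul_mem hu hw) t
    rw [ζmul, ζmul, ζadd, ζadd, idem u hu, idem w hw] at this
    exact eq_of_add_eq_zero (by linear_combination this)
  obtain ⟨t₀, ht₀, h₀⟩ := common_eig (ι := Dg A ⊤) (fun u => ζ u) (fun u => ζ0 u)
    (fun u => idem u u.2) (fun u w => comm u u.2 w w.2)
  have all : ∀ u ∈ Dg A ⊤, ∀ t, ζ u t = 0 ∨ ζ u t = t := fun u hu t => by
    by_cases ht : t = 0
    · left; rw [ht, ζ0]
    obtain ⟨y, hy, e⟩ := h.tr _ _ (fun e => ht₀ (by rw [← er t₀, e, h.one])) (hA.p1 _ (hr t₀))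
      (fun e => ht (by rw [← er t, e, h.one])) (hA.p1 _ (hr t))
    have e1 := ζP u _ (hA.inv y hy _ (hr t₀))
    rw [← map_pow, e, er, comm_map, ← map_pow] at e1
    rcases h₀ ⟨y⁻¹ u, iD _ (inv_mem hy) u hu⟩ with e2 | e2
    · left; rw [e1, h.inj _ (zV _ _ (hr t₀)) e2, map_one, h.one]
    · right
      rw [e1, h.eq_of (zV _ _ (hr t₀)) (hA.p1 _ (hr t₀)) (e2.trans (er t₀).symm), e, er]
  have dich : ∀ u ∈ Dg A ⊤, (∀ t, ζ u t = 0) ∨ ∀ t, ζ u t = t := fun u hu => by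
    by_contra! hc
    obtain ⟨⟨s, hs⟩, t, ht⟩ := hc
    have e1 := (all u hu s).resolve_left hs
    have e2 := (all u hu t).resolve_right ht
    rcases all u hu (s + t) with e | e <;> rw [ζadd, e1, e2, add_zero] at e
    · exact hs (e1.trans e)
    · exact ht (e2.trans (left_eq_add.1 e).symm)
  have act : ∀ g t, ζ (ξ g) (l * t) = l * ζ g t := fun g t => by
    have := ζP (ξ g) _ (hA.inv ξ h.mem _ (hr t))
    rw [← map_pow, h.act _ (hA.p1 _ (hr t)), er, ← map_commutatorElement, ← map_pow,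
      h.act _ (zV _ _ (hr t))] at this
    exact this
  obtain ⟨g, hg, rfl⟩ := exists_fp h.pg (ξ ^ 1) (h.fp (by simpa using h.good.ne1))
    (fun x hx => iD _ (pow_mem h.mem 1) x hx) hu
  refine h.inj _ (zV _ a ha) ?_
  rw [← ζP _ a ha, ζmul, pow_one]
  generalize c (a ^ 2 ^ (k + 2)) = t
  have e1 : ζ g⁻¹ t = ζ g t := eq_of_add_eq_zero (by
    rw [← ζmul, inv_mul_cancel]
    change c (⁅1, r t⁆ ^ 2 ^ (k + 1)) = 0
    rw [commutatorElement_one_left, one_pow, h.one])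
  have e2 := act g (l⁻¹ * t)
  rw [mul_inv_cancel_left₀ h.good.ne0] at e2
  rw [e1, e2]
  rcases dich g hg with e | e
  · rw [e, e, mul_zero, add_zero]
  · rw [e, e, mul_inv_cancel_left₀ h.good.ne0, add_self']

theorem step3 {k : ℕ} (h : Sw Y c ξ l) (hA : Hc Y A (k + 2)) (hC : C[A] ≤ A) : ⊤ ≤ A := by
  by_contra hc
  obtain ⟨x₀, hx₀, hx₀A⟩ := exists_Dg h.pg hc
  have iT : Inv Y ⊤ := fun _ _ _ _ => trivial
  have iD : Inv Y (Dg A ⊤) := hA.inv.Dg iT
  have onto : ∀ u ∈ Dg A ⊤, ∀ a ∈ A, ∃ e ∈ A, a * a = e * e * ⁅u, e⁆ := fun u hu a ha => by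
    letI : CommGroup A := { (inferInstance : Group A) with
      mul_comm := fun a b => Subtype.ext (hA.ab a a.2 b b.2) }
    obtain ⟨e, he⟩ := onto_sq (M := A) (N := k + 2 + 1)
      (MonoidHom.mk' (fun a => ⟨⁅u, (a : G)⁆, hA.cm u a.2⟩) fun a b => Subtype.ext (hA.cmul u a.2 b.2))
      (fun a => by
        obtain ⟨b, hb, e1⟩ := hA.p3 _ (hA.cm u a.2) (h.cpi hA u a.2)
        obtain ⟨b', hb', e2⟩ := hA.p3 b hb (by rw [← pp', ← e1]; exact h.zeta_zero hA hu a.2)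
        refine ⟨⟨b', hb'⟩, Subtype.ext ?_⟩
        change ⁅u, (a : G)⁆ = b' ^ 4
        rw [e1, e2]; simp only [pow_succ, pow_zero, one_mul, mul_assoc])
      (fun a => Subtype.ext (by
        change (a : G) ^ 2 ^ (k + 2 + 1) = 1
        rw [pp]; exact hA.p1 a a.2)) ⟨a, ha⟩
    exact ⟨e, e.2, congrArg Subtype.val he⟩
  have sq1 : ∀ u ∈ Dg A ⊤, ∀ a ∈ A, ⁅u, a * a⁆ = 1 := fun u hu a ha => by
    obtain ⟨e, he, e1⟩ := onto u hu a ha
    have h1 := hA.cm u he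
    rw [e1, hA.cmul u (mul_mem he he) h1, hA.cmul u he he, hA.ab _ (mul_mem h1 h1) _ (hA.cm u h1)]
    exact hA.rel hu.2.2 he
  have hV : ∀ u ∈ Dg A ⊤, ∀ a ∈ A, ⁅u, a⁆ * ⁅u, a⁆ = 1 := fun u hu a ha => by
    rw [← hA.cmul u ha ha, sq1 u hu a ha]
  have ker : ∀ u ∈ Dg A ⊤, (u * u) ^ 2 ^ (k + 2) = 1 → u ∈ A := fun u hu e => by
    obtain ⟨b, hb, e1⟩ := hA.p3 _ hu.2.2 e
    obtain ⟨d, hd, e2⟩ := onto u hu b⁻¹ (inv_mem hb)
    have e3 : u * d * (u * d) = 1 := by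
      have e4 : u * d * (u * d) = ⁅u, d⁆ * d * (u * u * d) := by
        simp only [commutatorElement_def]; group
      rw [e4, hA.ab _ hu.2.2 d hd, ← mul_assoc, mul_assoc ⁅u, d⁆ d d, hA.ab _ (hA.cm u hd) _ (mul_mem hd hd),
        ← e2, e1]
      group
    exact (mul_mem_cancel_right hd).1 (hA.vle _ e3)
  have ad : ∀ x ∈ Dg A ⊤, ∀ y ∈ Dg A ⊤, c ((x * y * (x * y)) ^ 2 ^ (k + 2)) =
      c ((x * x) ^ 2 ^ (k + 2)) + c ((y * y) ^ 2 ^ (k + 2)) := fun x hx y hy => by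
    refine h.th_add hA hx hy ?_
    have h1 := hy.2.1 x⁻¹
    have e1 := hV _ (inv_mem hx) _ hy.2.2
    have e2 := hV y hy _ h1
    rw [comm_mul_right, conj_eq_comm_mul] at e1
    rw [← pp']
    refine pp1 ?_ k
    generalize ⁅x⁻¹, y⁆ = z at *
    generalize ⁅y, z⁆ = v at *
    rw [← h.cen v e2 z, ← mul_assoc z z v, mul_assoc, ← mul_assoc v, ← h.cen v e2, mul_assoc _ v, e2,
      mul_one] at e1
    exact e1
  have key := h.alt iD hA.inv (p' := fun a => c (a ^ 2 ^ (k + 2))) ad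
    (fun a ha b hb => by rw [hA.mpow ha hb, h.add _ _ (hA.p1 a ha) (hA.p1 b hb)])
    (h.th_surj hA iT hx₀ fun e => hx₀A (ker _ hx₀ e))
    (fun t => by
      obtain ⟨v, hv, rfl⟩ := h.surj t
      obtain ⟨a, ha, rfl⟩ := hA.p2 v hv
      exact ⟨a, ha, rfl⟩)
    (fun x hx => h.th_act hA hx.2.2)
    (fun a ha => by rw [← map_pow, h.act _ (hA.p1 a ha)]) hV
    (fun x hx e a ha => commutatorElement_eq_one_iff_mul_comm.2
      (hA.ab _ (ker x hx (h.inj _ (hA.p1 _ hx.2.2) e)) a ha))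
    (fun a ha e x hx => by
      obtain ⟨b, hb, rfl⟩ := hA.p3 a ha (h.inj _ (hA.p1 a ha) e)
      exact sq1 x hx b hb)
    (fun x hx => ⟨x * x, hx.2.2, rfl, commutatorElement_eq_one_iff_mul_comm.2 (mul_assoc x x x).symm⟩)
  exact hx₀A (hC (mem_C.2 fun a ha => (commutatorElement_eq_one_iff_mul_comm.1 (key _ hx₀ a ha)).symm))

theorem step4 (h : Sw Y c ξ l) (hA : Hc Y A 1) (hC : C[A] ≤ A) (g : G) : g * g * (g * g) = 1 := by
  classical
  have p1 : ∀ a ∈ A, a * a * (a * a) = 1 := fun a ha => by simpa [sq] using hA.p1 a ha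
  have hV : ∀ g, ∀ a ∈ A, ⁅g, a⁆ * ⁅g, a⁆ = 1 := fun g a ha => by simpa [sq] using h.cpi hA g ha
  have sqA : ∀ g, g * g ∈ A := fun g => hC (mem_C.2 fun a ha => by
    rw [eq_comm, ← commutatorElement_eq_one_iff_mul_comm, comm_mul_left, h.conj (hV g a ha)]
    exact hV g a ha)
  have cA : ∀ g g', ⁅g, g'⁆ ∈ A := fun g g' =>
    commutator_le_of_sq_mem (fun x => by rw [sq]; exact sqA x)
      (commutator_mem_commutator trivial trivial)
  have msq : ∀ a ∈ A, ∀ b ∈ A, a * b * (a * b) = a * a * (b * b) := fun a ha b hb => by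
    simpa [sq] using hA.mpow ha hb 2
  have hr : ∀ t, ∃ a ∈ A, c (a * a) = t := fun t => by
    obtain ⟨v, hv, rfl⟩ := h.surj t
    obtain ⟨a, ha, rfl⟩ := hA.p2 v hv
    exact ⟨a, ha, by simp [sq]⟩
  choose r hr er using hr
  have βP : ∀ g, ∀ a ∈ A, c ⁅g, r (c (a * a))⁆ = c ⁅g, a⁆ := fun g a ha => by
    have hb := hr (c (a * a))
    have e := h.eq_of (p1 _ hb) (p1 _ ha) (er _)
    have t := hA.cmul g (mul_mem hb (inv_mem ha)) ha
    rw [inv_mul_cancel_right, h.comm1 (x := r (c (a * a)) * a⁻¹)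
      (by rw [msq _ hb _ (inv_mem ha), e]; group), one_mul] at t
    rw [t]
  have βadd : ∀ g s t, c ⁅g, r (s + t)⁆ = c ⁅g, r s⁆ + c ⁅g, r t⁆ := fun g s t => by
    have := βP g _ (mul_mem (hr s) (hr t))
    rw [msq _ (hr s) _ (hr t), h.add _ _ (p1 _ (hr s)) (p1 _ (hr t)), er, er] at this
    rw [this, hA.cmul g (hr s) (hr t), h.add _ _ (hV _ _ (hr s)) (hV _ _ (hr t))]
  choose C hCf using fun g => exists_coef (fun t => c ⁅g, r t⁆) (βadd g)
  have Cmul : ∀ g g', C (g * g') = C g + C g' := fun g g' => funext fun σ => sub_eq_zero.1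
    (coef_unique (c := fun σ => C (g * g') σ - (C g σ + C g' σ)) (fun t => by
      simp only [sub_mul, add_mul, Finset.sum_sub_distrib, Finset.sum_add_distrib]
      rw [← hCf, ← hCf, ← hCf, comm_mul_left, h.conj (hV _ _ (hr t)),
        h.add _ _ (hV _ _ (hr t)) (hV _ _ (hr t))]
      ring) σ)
  have C1 : C 1 = 0 := by
    have := Cmul 1 1
    rw [mul_one] at this
    exact left_eq_add.1 this
  have Cinv : ∀ g, C g⁻¹ = -C g := fun g =>
    eq_neg_of_add_eq_zero_left (by rw [← Cmul, inv_mul_cancel, C1])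
  have sl : ∀ σ : F ≃+* F, σ l ≠ 0 := fun σ => by simpa using h.good.ne0
  have Cact : ∀ g σ, C (ξ g) σ = l / σ l * C g σ := fun g σ => by
    have := coef_unique (c := fun σ => C (ξ g) σ * σ l - l * C g σ) (fun t => by
      have e := βP (ξ g) _ (hA.inv ξ h.mem _ (hr t))
      rw [← map_mul, h.act _ (p1 _ (hr t)), er, ← map_commutatorElement, h.act _ (hV _ _ (hr t)),
        hCf, hCf, Finset.mul_sum, ← sub_eq_zero, ← Finset.sum_sub_distrib] at e
      rw [← e]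
      exact Finset.sum_congr rfl fun σ _ => by rw [map_mul]; ring) σ
    have := sl σ
    field_simp
    linear_combination ‹C (ξ g) σ * σ l - l * C g σ = 0›
  have Cpow : ∀ (k : ℕ) g σ, C ((ξ ^ k) g) σ = (l / σ l) ^ k * C g σ := fun k g σ => by
    induction k with
    | zero => simp
    | succ k ih => rw [pow_succ', MulAut.mul_apply, Cact, ih]; ring
  have faith : ∀ u σ, C u σ ≠ 0 → ∀ k, (l / σ l) ^ k = 1 → l ^ k = 1 := fun u σ hu k hk => by
    by_contra h1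
    obtain ⟨g, -, rfl⟩ := exists_fp h.pg (ξ ^ k) (h.fp h1) (D := ⊤) (fun _ _ => trivial)
      (mem_top u)
    apply hu
    rw [Cmul, Cinv, Pi.add_apply, Cpow, hk, one_mul, Pi.neg_apply, neg_add_cancel]
  have pβ : ∀ u σ, (∀ τ, C u τ ≠ 0 → τ = σ) → ∀ a ∈ A, c ⁅u, a⁆ = C u σ * σ (c (a * a)) :=
    fun u σ hu a ha => by rw [← βP u a ha, hCf, sum_single hu]
  have pure4 : ∀ u σ, (∀ τ, C u τ ≠ 0 → τ = σ) → u * u * (u * u) = 1 := fun u σ hu => by
    by_cases h0 : C u σ = 0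
    · refine p1 u (hC (mem_C.2 fun a ha => ?_))
      exact (commutatorElement_eq_one_iff_mul_comm.1
        (h.inj _ (hV u a ha) (by rw [pβ u σ hu a ha, h0, zero_mul]))).symm
    · have := pβ u σ hu _ (sqA u)
      rw [commutatorElement_eq_one_iff_mul_comm.2 (mul_assoc u u u).symm, h.one] at this
      exact h.inj _ (p1 _ (sqA u)) (by simpa using (mul_eq_zero.1 this.symm).resolve_left h0)
  have R1 : ∀ u σ w, (∀ τ, C u τ ≠ 0 → τ = σ) →
      C u σ * σ (c (⁅u, w⁆ * ⁅u, w⁆)) = c (⁅u, w⁆ * ⁅u, w⁆) := fun u σ w hu => by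
    have e : ⁅u * u, w⁆ = 1 :=
      commutatorElement_eq_one_iff_mul_comm.2 (h.cen _ (pure4 u σ hu) w).symm
    rw [comm_mul_left, conj_eq_comm_mul, mul_assoc] at e
    have := congrArg c e
    rw [h.add _ _ (hV u _ (cA u w)) (p1 _ (cA u w)), h.one, pβ u σ hu _ (cA u w)] at this
    exact eq_of_add_eq_zero this
  have R2 : ∀ u τ w, (∀ σ, C w σ ≠ 0 → σ = τ) →
      C w τ * τ (c (⁅u, w⁆ * ⁅u, w⁆)) = c (⁅u, w⁆ * ⁅u, w⁆) := fun u τ w hw => by
    have e : ⁅u, w * w⁆ = 1 := h.comm1 (pure4 w τ hw) u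
    rw [comm_mul_right, conj_eq_comm_mul, ← mul_assoc, h.cen _ (hV w _ (cA u w)), mul_assoc] at e
    have := congrArg c e
    rw [h.add _ _ (hV w _ (cA u w)) (p1 _ (cA u w)), h.one, pβ w τ hw _ (cA u w)] at this
    exact eq_of_add_eq_zero this
  have Xadd : ∀ u w w', c (⁅u, w * w'⁆ * ⁅u, w * w'⁆) =
      c (⁅u, w⁆ * ⁅u, w⁆) + c (⁅u, w'⁆ * ⁅u, w'⁆) := fun u w w' => by
    rw [comm_mul_right, conj_eq_comm_mul, msq _ (cA u w) _ (mul_mem (cA _ _) (cA _ _)),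
      msq _ (cA _ _) _ (cA u w'), hV w _ (cA u w'), one_mul, h.add _ _ (p1 _ (cA _ _)) (p1 _ (cA _ _))]
  have pure2 : ∀ u σ w τ, (∀ ρ, C u ρ ≠ 0 → ρ = σ) → (∀ ρ, C w ρ ≠ 0 → ρ = τ) →
      ⁅u, w⁆ * ⁅u, w⁆ = 1 := fun u σ w τ hu hw => by
    by_contra hne
    have x0 : c (⁅u, w⁆ * ⁅u, w⁆) ≠ 0 := fun e => hne (h.inj _ (p1 _ (cA u w)) e)
    have a1 := R1 u σ w hu
    have b1 := R2 u τ w hw
    have ha : C u σ ≠ 0 := fun e => x0 (by rw [← a1, e, zero_mul])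
    have hb : C w τ ≠ 0 := fun e => x0 (by rw [← b1, e, zero_mul])
    have hw' : ∀ ρ, C (ξ w) ρ ≠ 0 → ρ = τ := fun ρ e => hw ρ fun e' => e (by
      rw [Cact, e', mul_zero])
    have x1 : c (⁅u, ξ w⁆ * ⁅u, ξ w⁆) ≠ 0 := fun e => by
      have b2 := R2 u τ (ξ w * w) fun ρ e => by
        by_contra hρ
        refine e ?_
        rw [Cmul, Pi.add_apply, not_not.1 (mt (hw ρ) hρ), not_not.1 (mt (hw' ρ) hρ), add_zero]
      rw [Xadd, e, zero_add, Cmul, Pi.add_apply, add_mul, b1, Cact] at b2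
      exact mul_ne_zero (mul_ne_zero (div_ne_zero h.good.ne0 (sl τ)) hb) (by simpa using x0)
        (add_eq_right.1 b2)
    have b2 := R2 u τ (ξ w) hw'
    rw [Cact] at b2
    have e := fix_of h.good.ne0 x0 x1 a1 (R1 u σ _ hu) b1 b2 (faith u σ ha)
    have := faith w τ hb 1 (by rw [e, div_self h.good.ne0, one_pow])
    exact h.good.ne1 (by simpa using this)
  let W : AddSubgroup ((F ≃+* F) → F) :=
    { carrier := Set.range C
      zero_mem' := ⟨1, C1⟩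
      add_mem' := by rintro _ _ ⟨a, rfl⟩ ⟨b, rfl⟩; exact ⟨a * b, Cmul a b⟩
      neg_mem' := by rintro _ ⟨a, rfl⟩; exact ⟨a⁻¹, Cinv a⟩ }
  let P : Set G := {u | ∃ σ, ∀ τ, C u τ ≠ 0 → τ = σ}
  have gen : ∀ g, g ∈ closure P := fun g => by
    have key : ∀ s : Finset (F ≃+* F), ∃ x ∈ closure P, C x = ∑ σ ∈ s, Pi.single σ (C g σ) := by
      intro s
      induction s using Finset.induction_on with
      | empty => exact ⟨1, one_mem _, C1⟩
      | insert σ s hσ ih =>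
        obtain ⟨x, hx, e⟩ := ih
        obtain ⟨u, hu⟩ := h.good.single_mem W
          (by rintro _ ⟨a, rfl⟩; exact ⟨ξ a, funext fun σ => Cact a σ⟩) ⟨g, rfl⟩ σ
        refine ⟨u * x, mul_mem (subset_closure ⟨σ, fun τ e => ?_⟩) hx, by
          rw [Finset.sum_insert hσ, Cmul, e, hu]⟩
        by_contra hτ
        exact e (by rw [hu, Pi.single_eq_of_ne hτ])
    obtain ⟨x, hx, e⟩ := key Finset.univ
    rw [Finset.univ_sum_single] at e
    rw [← mul_mem_cancel_left (inv_mem hx)]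
    exact subset_closure ⟨1, fun τ e' => (e' (by rw [Cmul, Cinv, e, neg_add_cancel]; rfl)).elim⟩
  have := H5b.pow_eq_one_of_mem_closure (s := QuotientGroup.mk' h.V '' P) (n := 2)
    (by
      rintro _ ⟨u, ⟨σ, hu⟩, rfl⟩ _ ⟨w, ⟨τ, hw⟩, rfl⟩
      rw [← commutatorElement_eq_one_iff_mul_comm, ← map_commutatorElement]
      exact (QuotientGroup.eq_one_iff _).2 (pure2 u σ w τ hu hw))
    (by
      rintro _ ⟨u, ⟨σ, hu⟩, rfl⟩
      rw [← map_pow, sq]
      exact (QuotientGroup.eq_one_iff _).2 (pure4 u σ hu))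
    (QuotientGroup.mk' h.V g) (by rw [← MonoidHom.map_closure]; exact mem_map_of_mem _ (gen g))
  rw [← map_pow, sq] at this
  exact (QuotientGroup.eq_one_iff (N := h.V) _).1 this

omit hn in
theorem sq_sq (h : Sw Y c ξ l) (hna : ¬ IsMulCommutative G) (g : G) : g * g * (g * g) = 1 := by
  obtain ⟨A, hVA, ⟨a1, a2, a3⟩, a4⟩ := exists_maximal_subgroup (H := h.V)
    (P := fun B => Inv Y B ∧ B.Normal ∧ ∀ a ∈ B, ∀ b ∈ B, a * b = b * a)
    ⟨h.V_inv, inferInstance, fun a _ b hb => h.cen b hb a⟩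
  have hmax : ∀ B, Inv Y B → B.Normal → (∀ a ∈ B, ∀ b ∈ B, a * b = b * a) → A ≤ B → B ≤ A :=
    fun B b1 b2 b3 b4 => (a4 B ⟨b1, b2, b3⟩ b4).le
  obtain ⟨f, hA⟩ := h.exists_hc a1 a3 fun v hv => hVA hv
  match f, hA with
  | 0, hA => exact h.step0 hA hmax g
  | 1, hA => exact h.step4 hA (h.step2 hA hmax) g
  | k + 2, hA =>
    have := h.step3 hA (h.step2 hA hmax)
    exact (hna ⟨⟨fun a b => a3 a (this trivial) b (this trivial)⟩⟩).elim

omit hn in
theorem main (h : Sw Y c ξ l) (hna : ¬ IsMulCommutative G) :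
    commutator G = frattini G ∧ frattini G = center G ∧ ∀ x : G, x ∈ center G ↔ x ^ 2 = 1 := by
  have hs := h.sq_sq hna
  have hz : ∀ a : MulAut G, ∀ x ∈ center G, a x ∈ center G := fun a x hx =>
    mem_center_iff.2 fun g => by
      have := congrArg a (mem_center_iff.1 hx (a⁻¹ g))
      simpa only [map_mul, MulAut.apply_inv_self] using this
  have hVZ : h.V ≤ center G := fun v hv => mem_center_iff.2 (h.cen v hv)
  have e1 : center G = h.V := by
    refine le_antisymm (fun x hx => ?_) hVZ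
    by_contra h1
    refine hna ⟨⟨fun a b => mem_center_iff.1 ?_ a⟩⟩
    by_cases h2 : b * b = 1
    · exact hVZ h2
    obtain ⟨y, -, e⟩ := h.tr _ _ h1 (hs x) h2 (hs b)
    have h3 := hz y x hx
    refine (mul_mem_cancel_right (inv_mem h3)).1 (hVZ ?_)
    change b * (y x)⁻¹ * (b * (y x)⁻¹) = 1
    rw [mul_assoc, ← mul_assoc (y x)⁻¹, ← mem_center_iff.1 (inv_mem h3) b, ← mul_assoc, ← mul_assoc,
      ← e, map_mul]
    group
  have h2 : ∀ x : G, x ^ 2 ∈ h.V := fun x => by rw [sq]; exact hs x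
  have e2 : h.V ≤ commutator G := by
    obtain ⟨x, hx, h1⟩ := (bot_or_exists_ne_one (commutator G)).resolve_left
      fun e => hna ((commutator_eq_bot_iff G).1 e)
    refine h.V_le (fun a _ x hx => ?_) hx h1
    exact (characteristic_iff_le_comap.1 inferInstance a) hx
  have e3 : frattini G ≤ h.V := frattini_le_of (p := 2) _ (commutator_le_of_sq_mem h2) h2
  have e4 := commutator_le_frattini h.pg
  exact ⟨le_antisymm e4 (e3.trans e2), e1 ▸ le_antisymm e3 (e2.trans e4),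
    fun x => by rw [e1, sq]; rfl⟩

end Sw

theorem exists_sw [Finite G] (hG : IsPGroup 2 G)
    (htwo : ∃ x y : G, x ≠ y ∧ x ≠ 1 ∧ x ^ 2 = 1 ∧ y ≠ 1 ∧ y ^ 2 = 1) (Y : Subgroup (MulAut G))
    (hs : Group.IsSolvable Y)
    (tr : ∀ x y : G, x ≠ 1 → x * x = 1 → y ≠ 1 → y * y = 1 → ∃ a ∈ Y, a x = y) :
    ∃ (F : Type) (_ : Field F) (_ : Fintype F) (_ : CharP F 2) (c : G → F) (ξ : MulAut G) (l : F),
      Sw Y c ξ l := by
  classical
  obtain ⟨x₁, x₂, h12, h1, s1, h2, s2⟩ := htwo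
  rw [sq] at s1 s2
  have : Nontrivial G := ⟨_, _, h12⟩
  have cen : ∀ x : G, x * x = 1 → ∀ g, g * x = x * g := fun x hx g => by
    by_cases h0 : x = 1
    · simp [h0]
    obtain ⟨⟨z, hz⟩, hz1⟩ := @exists_ne _ hG.center_nontrivial 1
    obtain ⟨k, k1, k2⟩ := exists_pow_not_mem hG (A := ⊥) (x := z) fun e => hz1 (Subtype.ext e)
    obtain ⟨a, -, rfl⟩ := tr _ x k1 k2 h0 hx
    have := congrArg a (mem_center_iff.1 (pow_mem hz (2 ^ k)) (a⁻¹ g))
    simpa only [map_mul, MulAut.apply_inv_self] using this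
  let V : Subgroup G :=
    { carrier := {x | x * x = 1}
      one_mem' := mul_one 1
      mul_mem' := fun {x y} hx hy => by
        change x * y * (x * y) = 1
        rw [mul_assoc, ← mul_assoc y, cen x hx y, mul_assoc x, show y * y = 1 from hy, mul_one]
        exact hx
      inv_mem' := fun {x} hx => by
        change x⁻¹ * x⁻¹ = 1
        rw [← mul_inv_rev, show x * x = 1 from hx, inv_one] }
  letI : CommGroup V := { (inferInstance : Group V) with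
    mul_comm := fun a b => Subtype.ext (cen b b.2 a) }
  have two : ∀ v : Additive V, v + v = 0 := fun v => Subtype.ext v.toMul.2
  letI : Module (ZMod 2) (Additive V) := AddCommGroup.zmodModule fun v => by rw [two_nsmul, two]
  let φ : MulAut G → (Additive V →+ Additive V) := fun y => AddMonoidHom.mk'
    (fun v => Additive.ofMul ⟨y v.toMul, sq_map y v.toMul.2⟩) fun v w => Subtype.ext (map_mul y _ _)
  let ρ : Y →* (Additive V ≃ₗ[ZMod 2] Additive V) := MonoidHom.mk'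
    (fun y => LinearEquiv.ofLinear ((φ y).toZModLinearMap 2) ((φ y⁻¹).toZModLinearMap 2)
      (LinearMap.ext fun v => Subtype.ext (MulAut.apply_inv_self _ _ _))
      (LinearMap.ext fun v => Subtype.ext (MulAut.inv_apply_self _ _ _)))
    fun y y' => LinearEquiv.ext fun v => rfl
  have hρ : ∀ (y : Y) (x : G) (hx : x * x = 1), ρ y (Additive.ofMul ⟨x, hx⟩) =
      Additive.ofMul ⟨(y : MulAut G) x, sq_map _ hx⟩ := fun _ _ _ => rfl
  have : Nontrivial (Additive V) :=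
    ⟨Additive.ofMul ⟨x₁, s1⟩, 0, fun e => h1 (congrArg Subtype.val e)⟩
  have : Finite ρ.range := Finite.of_surjective _ ρ.rangeRestrict_surjective
  have htr : ∀ v w : Additive V, v ≠ 0 → w ≠ 0 → ∃ y : Y, ρ y v = w := fun v w hv hw => by
    obtain ⟨a, ha, e⟩ := tr v.toMul w.toMul (fun e => hv (Subtype.ext e)) v.toMul.2
      (fun e => hw (Subtype.ext e)) w.toMul.2
    exact ⟨⟨a, ha⟩, Subtype.ext e⟩
  obtain ⟨F, _, _, e, he⟩ := (S3360.result 2
    (Group.isSolvable_of_surjective ρ.rangeRestrict_surjective) ρ.range.subtype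
    ρ.range.subtype_injective fun v w hv hw => by
      obtain ⟨y, hy⟩ := htr v w hv hw
      exact ⟨⟨ρ y, y, rfl⟩, hy⟩).resolve_right fun hc => by
    obtain ⟨n, hn⟩ := IsPGroup.iff_card.1 (hG.to_subgroup V)
    have e : Nat.card (Additive V) = 2 ^ n := hn
    rw [e] at hc
    cases n with
    | zero => simp at hc
    | succ n =>
      simp only [pow_succ, Set.mem_insert_iff, Set.mem_singleton_iff] at hc
      omega
  haveI : CharP F 2 := CharTwo.of_one_ne_zero_of_two_eq_zero one_ne_zero (by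
    rw [← one_add_one_eq_two, ← e.apply_symm_apply 1, ← map_add, two, map_zero])
  choose a s hs using fun y : Y => he ⟨ρ y, y, rfl⟩
  have hs' : ∀ y t, a y * s y t = e (ρ y (e.symm t)) := fun y t => by
    conv_lhs => rw [← e.apply_symm_apply t]
    exact (hs y _).symm
  have e1 : e.symm 1 ≠ 0 := by simp
  obtain ⟨y, l, d, y1, y2, y3, y4⟩ := exists_scalar a s
    (fun y h0 => e1 (by
      have := hs' y 1
      rw [h0, zero_mul] at this
      simpa using this.symm))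
    (fun t => by rw [hs', map_one]; simp)
    (fun y y' t => by rw [hs', hs', hs', map_mul]; simp)
    (fun t ht => by
      obtain ⟨y, hy⟩ := htr _ (e.symm t) e1 (by simpa using ht)
      have := hs' y 1
      rw [hy, map_one, mul_one, e.apply_symm_apply] at this
      exact ⟨y, this⟩)
  let c : G → F := fun x => if hx : x * x = 1 then e (Additive.ofMul ⟨x, hx⟩) else 0
  have hc : ∀ x (hx : x * x = 1), c x = e (Additive.ofMul ⟨x, hx⟩) := fun x hx => dif_pos hx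
  have inj : ∀ x, x * x = 1 → c x = 0 → x = 1 := fun x hx h0 => by
    rw [hc x hx, map_eq_zero_iff e e.injective] at h0
    exact congrArg Subtype.val h0
  refine ⟨F, inferInstance, inferInstance, inferInstance, c, y, l, hG, cen, tr,
    fun x x' hx hx' => ?_, inj, fun t => ⟨(e.symm t).toMul, (e.symm t).toMul.2, ?_⟩, y.2,
    fun x hx => ?_, good_of y3 y4 (Fintype.two_lt_card_iff.2 ⟨0, c x₁, c x₂,
      fun e => h1 (inj _ s1 e.symm), fun e => h2 (inj _ s2 e.symm), fun e' => h12 ?_⟩)⟩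
  · rw [hc x hx, hc x' hx', hc _ (V.mul_mem hx hx'), ← map_add]; rfl
  · rw [hc _ (e.symm t).toMul.2]; exact e.apply_symm_apply t
  · rw [hc _ (sq_map _ hx), hc x hx, ← hρ y x hx, ← y1]
    exact (hs y _).trans (by rw [y2])
  · rw [hc _ s1, hc _ s2] at e'
    exact congrArg Subtype.val (e.injective e')

theorem shaw [Finite G] (hG : IsPGroup 2 G) (hna : ¬ IsMulCommutative G)
    (htwo : ∃ x y : G, x ≠ y ∧ x ≠ 1 ∧ x ^ 2 = 1 ∧ y ≠ 1 ∧ y ^ 2 = 1)
    (hY : ∃ Y : Subgroup (MulAut G), Group.IsSolvable Y ∧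
      ∀ x y : G, x ≠ 1 → x ^ 2 = 1 → y ≠ 1 → y ^ 2 = 1 → ∃ a ∈ Y, a x = y) :
    commutator G = frattini G ∧ frattini G = center G ∧ ∀ x : G, x ∈ center G ↔ x ^ 2 = 1 := by
  obtain ⟨Y, hs, tr⟩ := hY
  obtain ⟨F, _, _, _, c, ξ, l, h⟩ := exists_sw hG htwo Y hs fun x y a b c d =>
    tr x y a (by rwa [sq]) c (by rwa [sq])
  exact h.main hna

end Cfsg.Agent.H3.Sh
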