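import Cfsg.Agent.H3.MaxCl
import Cfsg.Prelude.Def_PLocal

/-! Uniserial action of a `p`-group on a `p`-group. -/

set_option autoImplicit false
set_option linter.style.haveILetI false

namespace Cfsg.Agent.H3
open Cfsg Subgroup Cfsg.Agent.FT

variable {L : Type*} [Group L] [Finite L] {p n : ℕ} {N G H : Subgroup L}

theorem ic_norms (h : G ≤ N(N)) (i : ℕ) : G ≤ N(iterCommutator N G i) := by
  induction i with
  | zero => exact h
  | succ i ih => exact normsR ih (le_nrm G)

theorem ic_succ_le (h : G ≤ N(N)) (i : ℕ) : iterCommutator N G (i + 1) ≤ iterCommutator N G i :=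
  comm_le_left (ic_norms h i)

theorem ic_anti (h : G ≤ N(N)) : Antitone (iterCommutator N G) := antitone_nat_of_succ_le (ic_succ_le h)

theorem ic_le (h : G ≤ N(N)) (i : ℕ) : iterCommutator N G i ≤ N := ic_anti h (Nat.zero_le i)

theorem ic_mul_le (hN : PGrp p N) (hG : PGrp p G) (h : G ≤ N(N)) {i : ℕ} (h1 : iterCommutator N G i ≠ ⊥) :
    p * #(iterCommutator N G (i + 1)) ≤ #(iterCommutator N G i) :=
  (hN.mono (ic_le h i)).mul_card_le (hG.comm_lt (hN.mono (ic_le h i)) (ic_norms h i) h1)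

theorem ic_le_of_card (hp : p.Prime) (hN : PGrp p N) (hG : PGrp p G) (h : G ≤ N(N)) (r : ℕ) :
    ∀ H ≤ N, G ≤ N(H) → #N ≤ p ^ r * #H → iterCommutator N G r ≤ H := by
  induction r with
  | zero => exact fun H h1 _ h3 => (eq_of_card_le h1 (by simpa using h3)).ge
  | succ r ih =>
    intro H h1 h2 h3
    rcases h1.eq_or_lt with rfl | h1
    · exact ic_le h _
    have l := hN.nil.lt_subnorm h1
    have c : ⁅N ⊓ N(H) ⊓ qpre(H, C(G /ₛ H)), G⁆ ≤ H := ((le_qpre_cen h2).1 inf_le_right).2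
    have l1 : H < N ⊓ N(H) ⊓ qpre(H, C(G /ₛ H)) := lt_of_le_of_ne (le_inf l.le (le_qpre _)) fun e =>
      (hG.quo H).meet_cen ((hN.mono inf_le_left).quo H) (quo_norms H (normsI h (norms_norm h2)))
        (quo_ne_bot inf_le_right l.not_ge) (by rw [← quo_inf_qpre, ← e, quo_self])
    refine (commSS (ih _ (inf_le_left.trans inf_le_left) (norms_of_comm_le (c.trans l1.le)) (h3.trans ?_))
      le_rfl).trans c
    rw [pow_succ, mul_assoc]
    exact Nat.mul_le_mul_left _ ((hN.mono (inf_le_left.trans inf_le_left)).mul_card_le l1)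

theorem ic_card (hp : p.Prime) (hn : #N = p ^ n) (hG : PGrp p G) (h : G ≤ N(N))
    (h1 : iterCommutator N G (n - 1) ≠ ⊥ ∨ n = 0) {i : ℕ} (hi : i ≤ n) : #(iterCommutator N G i) = p ^ (n - i) := by
  have hN := pGrp_of_card hp hn
  have ne : ∀ j < n, iterCommutator N G j ≠ ⊥ := fun j hj =>
    ne_bot_of_le (ic_anti h (by omega)) (h1.resolve_right (by omega))
  have up : ∀ j ≤ n, #(iterCommutator N G j) ≤ p ^ (n - j) := fun j hj => by
    induction j with
    | zero => exact hn.le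
    | succ j ih =>
      refine Nat.le_of_mul_le_mul_left ((ic_mul_le hN hG h (ne j hj)).trans ((ih (by omega)).trans_eq ?_)) hp.pos
      rw [← pow_succ']; congr 1; omega
  have lo : ∀ j ≤ n, p ^ j ≤ #(iterCommutator N G (n - j)) := fun j hj => by
    induction j with
    | zero => exact card_pos _
    | succ j ih =>
      have := ic_mul_le hN hG h (ne (n - (j + 1)) (by omega))
      rw [show n - (j + 1) + 1 = n - j by omega] at this
      rw [pow_succ']
      exact (Nat.mul_le_mul_left p (ih (by omega))).trans this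
  have := lo (n - i) (by omega)
  rw [show n - (n - i) = i by omega] at this
  exact (up i hi).antisymm this

theorem ic_eq (hp : p.Prime) (hn : #N = p ^ n) (hG : PGrp p G) (h : G ≤ N(N))
    (h1 : iterCommutator N G (n - 1) ≠ ⊥ ∨ n = 0) (hH : H ≤ N) (h2 : G ≤ N(H)) {m : ℕ} (hm : #H = p ^ m) :
    m ≤ n ∧ H = iterCommutator N G (n - m) := by
  have l : m ≤ n := (Nat.pow_le_pow_iff_right hp.one_lt).1 (hm ▸ hn ▸ card_le_of_le hH)
  refine ⟨l, (eq_of_card_eq (ic_le_of_card hp (pGrp_of_card hp hn) hG h _ H hH h2 ?_) ?_).symm⟩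
  · rw [hn, hm, ← pow_add, Nat.sub_add_cancel l]
  · rw [ic_card hp hn hG h h1 (Nat.sub_le _ _), hm, Nat.sub_sub_self l]

theorem uniserial (hp : p.Prime) (hn : #N = p ^ n) (hG : PGrp p G) (h : G ≤ N(N)) :
    ((∀ H ≤ N, G ≤ N(H) → H ≠ ⊥ → ⁅H, G⁆.relIndex H = p) ↔ iterCommutator N G (n - 1) ≠ ⊥ ∨ n = 0) ∧
    ((∀ H ≤ N, G ≤ N(H) → H ≠ ⊥ → ⁅H, G⁆.relIndex H = p) →
      ∀ H ≤ N, G ≤ N(H) → (∃ i ≤ n, H = iterCommutator N G i) ∧ N ≤ N(H)) := by
  have hN := pGrp_of_card hp hn
  have a : (∀ H ≤ N, G ≤ N(H) → H ≠ ⊥ → ⁅H, G⁆.relIndex H = p) → iterCommutator N G (n - 1) ≠ ⊥ ∨ n = 0 := fun k => by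
    have c : ∀ j ≤ n, #(iterCommutator N G j) = p ^ (n - j) := fun j hj => by
      induction j with
      | zero => exact hn
      | succ j ih =>
        have e := card_mul_relIndex (ic_succ_le h j)
        rw [show (iterCommutator N G (j + 1)).relIndex _ = p from k _ (ic_le h j) (ic_norms h j) fun e => by
          have := ih (by omega)
          rw [e, card_bot'] at this
          exact absurd this (Nat.one_lt_pow (by omega) hp.one_lt).ne, ih (by omega),
          show n - j = n - (j + 1) + 1 by omega, pow_succ] at e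
        exact Nat.eq_of_mul_eq_mul_right hp.pos e
    refine (Nat.eq_zero_or_pos n).symm.imp_left fun l e => ?_
    have := c (n - 1) (by omega)
    rw [e, card_bot'] at this
    exact absurd this (Nat.one_lt_pow (by omega) hp.one_lt).ne
  refine ⟨⟨a, fun k H h1 h2 h3 => ?_⟩, fun k H h1 h2 => ?_⟩
  · obtain ⟨m, hm⟩ := (hN.mono h1).card
    obtain ⟨l, e⟩ := ic_eq hp hn hG h k h1 h2 hm
    have m0 : m ≠ 0 := fun e => h3 (card_eq_one.1 (by rw [hm, e, pow_zero]))
    have := (relIndex_eq_pow hp (comm_le_left h2) hm (j := n - (n - m + 1))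
      (by rw [e]; exact ic_card hp hn hG h k (i := n - m + 1) (by omega))).2
    rwa [show m - (n - (n - m + 1)) = 1 by omega, pow_one] at this
  · obtain ⟨m, hm⟩ := (hN.mono h1).card
    obtain ⟨l, e⟩ := ic_eq hp hn hG h (a k) h1 h2 hm
    obtain ⟨Q, q1, q2, q3⟩ := normal_pgroup (hN.sup hG h) hp (nml_sup_left h) (n := m)
      (hn ▸ Nat.pow_le_pow_right hp.pos l)
    exact ⟨⟨_, Nat.sub_le _ _, e⟩, by
      rw [e, ← (ic_eq hp hn hG h (a k) q2 (le_sup_right.trans q1.nrm) q3).2]; exact le_sup_left.trans q1.nrm⟩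

end Cfsg.Agent.H3
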