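import Cfsg.Agent.H3.Basic

/-!
The Vaughan-Lee bound on the commutator subgroup of a `p`-group of bounded breadth,
through the induction of Skutin.
-/

set_option autoImplicit false

namespace Cfsg.Agent.H3.VLee

open Subgroup
open scoped commutatorElement

universe u

variable {G : Type u} [Group G]

theorem exists_notMem_two {K A B : Subgroup G} (hA : ¬ K ≤ A) (hB : ¬ K ≤ B) :
    ∃ g ∈ K, g ∉ A ∧ g ∉ B := by
  obtain ⟨a, ha, ha'⟩ := SetLike.not_le_iff_exists.mp hA
  obtain ⟨b, hb, hb'⟩ := SetLike.not_le_iff_exists.mp hB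
  by_cases h1 : a ∈ B
  · by_cases h2 : b ∈ A
    · refine ⟨a * b, K.mul_mem ha hb, fun h => ha' ?_, fun h => hb' ?_⟩
      · exact (A.mul_mem_cancel_right h2).mp h
      · exact (B.mul_mem_cancel_left h1).mp h
    · exact ⟨b, hb, h2, hb'⟩
  · exact ⟨a, ha, ha', h1⟩

theorem eq_top_of_coatom {C S : Subgroup G} (hC : IsCoatom C) (h : C ≤ S) {a : G} (ha : a ∉ C)
    (haS : a ∈ S) : S = ⊤ :=
  hC.2 S (lt_of_le_of_ne h (fun e => ha (e ▸ haS)))

/-- abelian normal maximal subgroup -/
theorem card_comm_of_abelian [Finite G] {C : Subgroup G} [hn : C.Normal]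
    (hab : ∀ x ∈ C, ∀ y ∈ C, x * y = y * x) {a : G} (hgen : ∀ S : Subgroup G, C ≤ S → a ∈ S → S = ⊤) :
    Nat.card (commutator G) = (center G).relIndex C := by
  have hmem : ∀ c ∈ C, ⁅c, a⁆ ∈ C := fun c hc => by
    have := C.mul_mem hc (hn.conj_mem _ (C.inv_mem hc) a)
    simpa [commutatorElement_def, mul_assoc] using this
  let f : C →* G := MonoidHom.mk' (fun c => ⁅(c : G), a⁆) (by
    intro c d
    have h := hab _ c.2 _ (hmem _ d.2)
    have e : ⁅((c * d : C) : G), a⁆ = (c : G) * ⁅(d : G), a⁆ * (c : G)⁻¹ * ⁅(c : G), a⁆ := by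
      simp only [coe_mul, commutatorElement_def]; group
    rw [e, h, mul_inv_cancel_right]
    exact hab _ (hmem _ d.2) _ (hmem _ c.2))
  have hf : ∀ c : C, f c = ⁅(c : G), a⁆ := fun c => rfl
  have hker : f.ker = (center G).subgroupOf C := by
    ext c
    rw [MonoidHom.mem_ker, mem_subgroupOf, hf, commutatorElement_eq_one_iff_mul_comm]
    constructor
    · intro h
      have : centralizer {(c : G)} = ⊤ := hgen _
        (fun x hx => mem_centralizer_singleton_iff.mpr (hab _ hx _ c.2))
        (mem_centralizer_singleton_iff.mpr h.symm)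
      rw [mem_center_iff]
      intro g
      exact mem_centralizer_singleton_iff.mp (this ▸ mem_top g)
    · intro h
      exact (mem_center_iff.mp h a).symm
  have hle : f.range ≤ C := by
    rintro _ ⟨c, rfl⟩; exact hmem _ c.2
  have hnorm : f.range.Normal := by
    rw [← normalizer_eq_top_iff]
    apply hgen
    · intro c hc
      rw [mem_normalizer_iff]
      intro x
      constructor
      · intro hx
        rw [hab _ hc _ (hle hx), mul_inv_cancel_right]; exact hx
      · intro hx
        have h1 : x = c⁻¹ * (c * x * c⁻¹) * c := by group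
        rw [h1, hab _ (C.inv_mem hc) _ (hle hx), inv_mul_cancel_right]; exact hx
    · apply mem_normalizer_fintype
      rintro _ ⟨c, rfl⟩
      refine ⟨⟨a * c * a⁻¹, hn.conj_mem _ c.2 a⟩, ?_⟩
      simp only [hf, commutatorElement_def]; group
  have hrange : f.range = commutator G := by
    apply le_antisymm
    · rintro _ ⟨c, rfl⟩
      exact commutator_mem_commutator (mem_top _) (mem_top _)
    · let q := QuotientGroup.mk' f.range
      have hq : ∀ x y : G, q x * q y = q y * q x ↔ ⁅x, y⁆ ∈ f.range := by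
        intro x y
        rw [← commutatorElement_eq_one_iff_mul_comm, ← map_commutatorElement]
        exact QuotientGroup.eq_one_iff _
      have h1 : ∀ c ∈ C, ∀ g : G, q g * q c = q c * q g := by
        intro c hc g
        have : (centralizer {q c}).comap q = ⊤ := by
          apply hgen
          · intro x hx
            rw [mem_comap, mem_centralizer_singleton_iff, ← map_mul, ← map_mul, hab _ hx _ hc]
          · rw [mem_comap, mem_centralizer_singleton_iff]
            exact ((hq c a).mpr ⟨⟨c, hc⟩, rfl⟩).symm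
        have h := this ▸ mem_top g
        rwa [mem_comap, mem_centralizer_singleton_iff] at h
      have h2 : ∀ g : G, q g * q a = q a * q g := by
        intro g
        have : (centralizer {q a}).comap q = ⊤ := by
          apply hgen
          · intro x hx
            rw [mem_comap, mem_centralizer_singleton_iff]
            exact (h1 x hx a).symm
          · rw [mem_comap, mem_centralizer_singleton_iff]
        have h := this ▸ mem_top g
        rwa [mem_comap, mem_centralizer_singleton_iff] at h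
      have h3 : (center (G ⧸ f.range)).comap q = ⊤ := by
        apply hgen
        · intro c hc
          rw [mem_comap, mem_center_iff]
          intro y
          obtain ⟨g, rfl⟩ := QuotientGroup.mk'_surjective f.range y
          exact h1 c hc g
        · rw [mem_comap, mem_center_iff]
          intro y
          obtain ⟨g, rfl⟩ := QuotientGroup.mk'_surjective f.range y
          exact h2 g
      rw [commutator_def, commutator_le]
      intro x _ y _
      have h := h3 ▸ mem_top y
      rw [mem_comap, mem_center_iff] at h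
      exact (hq x y).mp (h (q x))
  rw [← hrange, relIndex, ← hker, index_ker]

theorem keyA [Finite G] {C : Subgroup G} [hn : C.Normal] (hC : IsCoatom C) :
    ∃ Z : Subgroup G, Z ≤ C ∧
      Nat.card (commutator G) = Z.relIndex C * Nat.card (⁅C, C⁆ : Subgroup G) ∧
      (∀ a, a ∉ C → Z.relIndex C ≤ (centralizer {a}).index) ∧
      (∀ g ∈ C, g ∉ Z → (centralizer {g}).relIndex C < (centralizer {g}).index) := by
  let N : Subgroup G := ⁅C, C⁆
  let q := QuotientGroup.mk' N
  have hq : ∀ x ∈ C, ∀ y ∈ C, q x * q y = q y * q x := by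
    intro x hx y hy
    rw [← commutatorElement_eq_one_iff_mul_comm, ← map_commutatorElement]
    exact (QuotientGroup.eq_one_iff _).mpr (commutator_mem_commutator hx hy)
  let Z : Subgroup G := (center (G ⧸ N)).comap q ⊓ C
  have hA : ∀ a, a ∉ C → centralizer {a} ⊓ C ≤ Z := by
    intro a ha c hc
    refine ⟨?_, hc.2⟩
    have : (centralizer {q c}).comap q = ⊤ := by
      apply eq_top_of_coatom hC _ ha
      · rw [mem_comap, mem_centralizer_singleton_iff, ← map_mul, ← map_mul,
          mem_centralizer_singleton_iff.mp hc.1]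
      · intro x hx
        rw [mem_comap, mem_centralizer_singleton_iff]
        exact hq x hx c hc.2
    show c ∈ (center (G ⧸ N)).comap q
    rw [mem_comap, mem_center_iff]
    intro y
    obtain ⟨g, rfl⟩ := QuotientGroup.mk'_surjective N y
    have h := this ▸ mem_top g
    rwa [mem_comap, mem_centralizer_singleton_iff] at h
  refine ⟨Z, inf_le_right, ?_, ?_, ?_⟩
  · obtain ⟨a, -, ha⟩ := SetLike.not_le_iff_exists.mp (show ¬ (⊤ : Subgroup G) ≤ C from
      fun h => hC.1 (top_le_iff.mp h))
    haveI : (C.map q).Normal := hn.map q (QuotientGroup.mk'_surjective N)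
    have h1 := card_comm_of_abelian (G := G ⧸ N) (C := C.map q) (a := q a) (by
      rintro _ ⟨x, hx, rfl⟩ _ ⟨y, hy, rfl⟩
      exact hq x hx y hy) (by
      intro S h1 h2
      have : S.comap q = ⊤ := eq_top_of_coatom hC (map_le_iff_le_comap.mp h1) ha h2
      rw [eq_top_iff]
      intro y _
      obtain ⟨g, rfl⟩ := QuotientGroup.mk'_surjective N y
      exact (this ▸ mem_top g : g ∈ S.comap q))
    have h2 : (commutator G).map q = commutator (G ⧸ N) := by
      rw [commutator_def, commutator_def, map_commutator,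
        map_top_of_surjective _ (QuotientGroup.mk'_surjective N)]
    have h3 : N.relIndex (commutator G) = Nat.card (commutator (G ⧸ N)) := by
      rw [← h2, ← relIndex_ker, QuotientGroup.ker_mk']
    have h4 : Z.relIndex C = (center (G ⧸ N)).relIndex (C.map q) := by
      rw [inf_relIndex_right, relIndex_comap]
    have hle : N ≤ commutator G := commutator_mono le_top le_top
    rw [h4, ← h1, ← h3, relIndex, ← Nat.card_congr (subgroupOfEquivOfLe hle).toEquiv,
      index_mul_card]
  · intro a ha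
    calc Z.relIndex C ≤ (centralizer {a} ⊓ C).relIndex C :=
          relIndex_le_of_le_left (hA a ha) index_ne_zero_of_finite
      _ = (centralizer {a}).relIndex C := inf_relIndex_right _ _
      _ ≤ (centralizer {a}).relIndex ⊤ := relIndex_le_of_le_right le_top index_ne_zero_of_finite
      _ = _ := relIndex_top_right _
  · intro g hg hgZ
    have hle : centralizer {g} ≤ C := by
      intro a ha
      by_contra haC
      exact hgZ (hA a haC ⟨mem_centralizer_singleton_iff.mpr
        (mem_centralizer_singleton_iff.mp ha).symm, hg⟩)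
    rw [← relIndex_mul_index hle]
    have h1 : 1 < C.index := one_lt_index_of_ne_top hC.1
    have h2 : 0 < (centralizer {g}).relIndex C := Nat.pos_of_ne_zero index_ne_zero_of_finite
    nlinarith

variable {p : ℕ} [hp : Fact p.Prime]

theorem exists_hom [Finite G] (hG : IsPGroup p G) {M : Subgroup G} (hM : IsCoatom M) {y : G}
    (hy : y ∉ M) : ∃ f : G → ZMod p, (∀ a b, f (a * b) = f a + f b) ∧ (∀ a, f a = 0 ↔ a ∈ M) ∧
      f y = 1 := by
  haveI := normal_of_isCoatom hG hM
  have hc : Nat.card (G ⧸ M) = p := index_of_isCoatom hG hM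
  have hc' : Nat.card (Multiplicative (ZMod p)) = p := by simp
  let e := mulEquivOfPrimeCardEq hc hc'
  let f0 : G → ZMod p := fun g => Multiplicative.toAdd (e (g : G ⧸ M))
  have h0 : ∀ a, f0 a = 0 ↔ a ∈ M := by
    intro a
    show Multiplicative.toAdd (e (a : G ⧸ M)) = 0 ↔ _
    rw [toAdd_eq_zero, EmbeddingLike.map_eq_one_iff, QuotientGroup.eq_one_iff]
  have hu : f0 y ≠ 0 := fun h => hy ((h0 y).mp h)
  refine ⟨fun g => (f0 y)⁻¹ * f0 g, ?_, ?_, inv_mul_cancel₀ hu⟩
  · intro a b
    have : f0 (a * b) = f0 a + f0 b := by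
      show Multiplicative.toAdd (e ((a * b : G) : G ⧸ M)) = _
      rw [QuotientGroup.mk_mul, map_mul, toAdd_mul]
    simp only [this, mul_add]
  · intro a
    rw [mul_eq_zero, ← h0]
    simp [hu]

theorem third [Finite G] (hG : IsPGroup p G) {M1 M2 : Subgroup G} (h1 : IsCoatom M1)
    (h2 : IsCoatom M2) (hne : M1 ≠ M2) :
    ∃ C : Subgroup G, IsCoatom C ∧ ¬ C ≤ M1 ∧ (∀ g ∈ C, g ∈ M1 ↔ g ∈ M2) ∧
      (p ≠ 2 → ∃ a, a ∉ M1 ∧ a ∉ M2 ∧ a ∉ C) := by
  obtain ⟨x, hx1, hx2⟩ := SetLike.not_le_iff_exists.mp (show ¬ M1 ≤ M2 from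
    fun h => hne ((h1.le_iff.mp h).resolve_left h2.1).symm)
  obtain ⟨y, hy2, hy1⟩ := SetLike.not_le_iff_exists.mp (show ¬ M2 ≤ M1 from
    fun h => hne ((h2.le_iff.mp h).resolve_left h1.1))
  obtain ⟨f1, a1, k1, e1⟩ := exists_hom hG h1 hy1
  obtain ⟨f2, a2, k2, e2⟩ := exists_hom hG h2 hx2
  have e3 : f1 x = 0 := (k1 x).mpr hx1
  have e4 : f2 y = 0 := (k2 y).mpr hy2
  let F : G →* Multiplicative (ZMod p) := MonoidHom.mk' (fun g => Multiplicative.ofAdd (f1 g - f2 g))
    (by intro a b; rw [← ofAdd_add, a1, a2]; congr 1; ring)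
  have hF : ∀ g, g ∈ F.ker ↔ f1 g = f2 g := by
    intro g
    show Multiplicative.ofAdd (f1 g - f2 g) = 1 ↔ _
    rw [ofAdd_eq_one, sub_eq_zero]
  have hidx : F.ker.index = p := by
    rw [index_ker]
    have hd : Nat.card F.range ∣ p := by
      have := card_subgroup_dvd_card F.range
      simpa using this
    rcases (Nat.dvd_prime hp.out).mp hd with h | h
    · exfalso
      rw [card_eq_one, MonoidHom.range_eq_bot_iff] at h
      have : y ∈ F.ker := by rw [h]; simp
      rw [hF, e1, e4] at this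
      exact one_ne_zero this
    · exact h
  refine ⟨F.ker, isCoatom_of_index_prime hp.out hidx, ?_, ?_, ?_⟩
  · intro h
    have : x * y ∈ F.ker := by rw [hF, a1, a2, e1, e2, e3, e4]; ring
    have := (k1 _).mpr (h this)
    rw [a1, e1, e3] at this
    simp at this
  · intro g hg
    rw [← k1, ← k2, (hF g).mp hg]
  · intro hp2
    have h2' : (2 : ZMod p) ≠ 0 := by
      intro h
      have : ((2 : ℕ) : ZMod p) = 0 := by exact_mod_cast h
      rw [ZMod.natCast_eq_zero_iff] at this
      exact hp2 ((Nat.prime_dvd_prime_iff_eq hp.out Nat.prime_two).mp this)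
    refine ⟨x * (y * y), ?_, ?_, ?_⟩
    · rw [← k1, a1, a1, e1, e3]
      intro h; apply h2'; linear_combination h
    · rw [← k2, a2, a2, e2, e4]; simp
    · rw [hF, a1, a1, a2, a2, e1, e2, e3, e4]
      intro h
      have : (1 : ZMod p) = 0 := by linear_combination h
      exact one_ne_zero this

/-- the inductive statement -/
def VL (p : ℕ) (G : Type u) [Group G] : Prop :=
  ∀ (n : ℕ) (H1 H2 : Subgroup G), H1 ≠ ⊤ → (H2 ≤ H1 ∨ 2 < H2.index) →
    (∀ g : G, g ∉ H1 → g ∉ H2 → (centralizer {g}).index < p ^ n) →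
    Nat.card (commutator G) ≤ p ^ n.choose 2

theorem card_comm_sub (C : Subgroup G) :
    Nat.card (commutator C) = Nat.card (⁅C, C⁆ : Subgroup G) := by
  have : (commutator C).map C.subtype = ⁅C, C⁆ := by
    rw [commutator_def, map_commutator, ← MonoidHom.range_eq_map, range_subtype]
  rw [← this, card_map_of_injective C.subtype_injective]

theorem index_cen_sub (C : Subgroup G) (g : C) :
    (centralizer {g}).index = (centralizer {(g : G)}).relIndex C := by
  rw [relIndex]
  congr 1
  ext x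
  rw [mem_subgroupOf, mem_centralizer_singleton_iff, mem_centralizer_singleton_iff, Subtype.ext_iff]
  rfl

omit hp in
theorem VL.rel {C : Subgroup G} (h : VL p C) (n : ℕ) (H1 H2 : Subgroup G) (h1 : ¬ C ≤ H1)
    (h2 : H2 ≤ H1 ∨ 2 < H2.relIndex C)
    (hb : ∀ g ∈ C, g ∉ H1 → g ∉ H2 → (centralizer {g}).relIndex C < p ^ n) :
    Nat.card (⁅C, C⁆ : Subgroup G) ≤ p ^ n.choose 2 := by
  rw [← card_comm_sub]
  apply h n (H1.subgroupOf C) (H2.subgroupOf C)
  · rwa [Ne, subgroupOf_eq_top]
  · rcases h2 with h2 | h2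
    · exact Or.inl (fun x hx => h2 hx)
    · exact Or.inr h2
  · intro g a b
    rw [index_cen_sub]
    exact hb g g.2 a b

theorem le_of_lt_succ [Finite G] (hG : IsPGroup p G) {H : Subgroup G} {k : ℕ}
    (h : H.index < p ^ (k + 1)) : H.index ≤ p ^ k := by
  obtain ⟨j, hj⟩ := hG.index H
  rw [hj] at h ⊢
  have := (Nat.pow_lt_pow_iff_right hp.out.one_lt).mp h
  exact Nat.pow_le_pow_right hp.out.pos (by omega)

theorem choose_succ (k : ℕ) : (k + 1).choose 2 = k.choose 2 + k := by
  rw [Nat.choose_succ_succ, Nat.choose_one_right, add_comm]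

theorem rel_le [Finite G] (H C : Subgroup G) : H.relIndex C ≤ H.index :=
  (relIndex_le_of_le_right le_top index_ne_zero_of_finite).trans (relIndex_top_right _).le

theorem stepB [Finite G] (hG : IsPGroup p G) (IH : ∀ E : Subgroup G, E ≠ ⊤ → VL p E)
    {D Z : Subgroup G} (hD : IsCoatom D) (hZ : IsCoatom Z) (hne : D ≠ Z) (m : ℕ)
    (h1 : ∀ g : G, g ∉ D → (centralizer {g}).index ≤ p ^ (m + 1))
    (h2 : ∀ g : G, g ∉ D → g ∉ Z → (centralizer {g}).index < p ^ (m + 1)) :
    Nat.card (commutator G) < p ^ (m + 2).choose 2 := by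
  obtain ⟨E, hE, hED, hiff, -⟩ := third hG hD hZ hne
  haveI := normal_of_isCoatom hG hE
  obtain ⟨z, hz1, hz2⟩ := SetLike.not_le_iff_exists.mp (show ¬ Z ≤ D from
    fun h => hne ((hZ.le_iff.mp h).resolve_left hD.1))
  have hzE : z ∉ E := fun h => hz2 ((hiff z h).mpr hz1)
  obtain ⟨R, hRE, hcard, hA2, hA3⟩ := keyA hE
  have b1 : R.relIndex E ≤ p ^ (m + 1) := (hA2 z hzE).trans (h1 z hz2)
  have b2 : Nat.card (⁅E, E⁆ : Subgroup G) ≤ p ^ (m + 1).choose 2 := by
    apply (IH E hE.1).rel _ D D hED (Or.inl le_rfl)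
    intro g hg hgD _
    exact (rel_le _ _).trans_lt (h2 g hgD (fun h => hgD ((hiff g hg).mpr h)))
  by_contra hcon
  push Not at hcon
  rw [hcard, choose_succ, pow_add] at hcon
  have pos1 : 0 < p ^ (m + 1) := pow_pos hp.out.pos _
  have pos2 : 0 < p ^ (m + 1).choose 2 := pow_pos hp.out.pos _
  have c1 : p ^ (m + 1) ≤ R.relIndex E := by
    by_contra h; push Not at h
    nlinarith
  have c2 : p ^ (m + 1).choose 2 ≤ Nat.card (⁅E, E⁆ : Subgroup G) := by
    by_contra h; push Not at h
    nlinarith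
  have c3 : ∀ e ∈ E, e ∉ D → e ∉ R → (centralizer {e}).relIndex E < p ^ m := by
    intro e he heD heR
    exact (hA3 e he heR).trans_le
      (le_of_lt_succ hG (h2 e heD (fun h => heD ((hiff e he).mpr h))))
  have p2 := hp.out.two_le
  rcases Nat.eq_zero_or_pos m with rfl | hm
  · have hER : ¬ E ≤ R := by
      intro h
      rw [relIndex_eq_one.mpr h] at c1
      simp at c1
      omega
    obtain ⟨e, he, heD, heR⟩ := exists_notMem_two hED hER
    have := c3 e he heD heR
    have h0 : (centralizer {e}).relIndex E ≠ 0 := index_ne_zero_of_finite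
    simp at this
    exact h0 this
  · have c4 : 2 < R.relIndex E := by
      refine lt_of_lt_of_le ?_ c1
      calc 2 < 2 ^ 2 := by norm_num
        _ ≤ p ^ 2 := Nat.pow_le_pow_left p2 2
        _ ≤ p ^ (m + 1) := Nat.pow_le_pow_right hp.out.pos (by omega)
    have := (IH E hE.1).rel m D R hED (Or.inr c4) c3
    have h3 := (Nat.pow_le_pow_iff_right hp.out.one_lt).mp (c2.trans this)
    rw [choose_succ] at h3
    omega

theorem setup [Finite G] (hG : IsPGroup p G) (hcomm : commutator G ≠ ⊥) {H1 H2 : Subgroup G}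
    (h1 : H1 ≠ ⊤) (h2 : H2 ≤ H1 ∨ 2 < H2.index) :
    ∃ (D C : Subgroup G) (a : G), IsCoatom D ∧ IsCoatom C ∧ ¬ C ≤ D ∧ a ∉ C ∧ a ∉ H1 ∧ a ∉ H2 ∧
      ∀ g ∈ C, g ∉ D → g ∉ H1 ∧ g ∉ H2 := by
  obtain ⟨M1, hM1, hle1⟩ := (eq_top_or_exists_le_coatom H1).resolve_left h1
  by_cases hc : H2 ≤ M1
  · obtain ⟨y, -, hy⟩ := SetLike.not_le_iff_exists.mp (show ¬ (⊤ : Subgroup G) ≤ M1 from
      fun h => hM1.1 (top_le_iff.mp h))
    have hz : zpowers y ≠ ⊤ := by
      intro h
      apply hcomm
      rw [eq_bot_iff, commutator_def, commutator_le]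
      intro a _ b _
      obtain ⟨i, rfl⟩ := mem_zpowers_iff.mp (h ▸ mem_top a : a ∈ zpowers y)
      obtain ⟨j, rfl⟩ := mem_zpowers_iff.mp (h ▸ mem_top b : b ∈ zpowers y)
      rw [mem_bot, commutatorElement_eq_one_iff_commute]
      exact Commute.zpow_zpow_self y i j
    obtain ⟨M2, hM2, hle2⟩ := (eq_top_or_exists_le_coatom _).resolve_left hz
    have hy2 : y ∈ M2 := hle2 (mem_zpowers y)
    have hne : M1 ≠ M2 := fun h => hy (h ▸ hy2)
    obtain ⟨C, hC, hCD, hiff, -⟩ := third hG hM1 hM2 hne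
    exact ⟨M1, C, y, hM1, hC, hCD, fun h => hy ((hiff y h).mpr hy2), fun h => hy (hle1 h),
      fun h => hy (hc h), fun g _ hg => ⟨fun h => hg (hle1 h), fun h => hg (hc h)⟩⟩
  · have h2' : 2 < H2.index := h2.resolve_left (fun h => hc (h.trans hle1))
    have hH2 : H2 ≠ ⊤ := by
      rintro rfl
      simp at h2'
    obtain ⟨M2, hM2, hle2⟩ := (eq_top_or_exists_le_coatom H2).resolve_left hH2
    have hne : M1 ≠ M2 := fun h => hc (h ▸ hle2)
    obtain ⟨C, hC, hCD, hiff, hodd⟩ := third hG hM1 hM2 hne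
    have hlast : ∀ g ∈ C, g ∉ M1 → g ∉ H1 ∧ g ∉ H2 := fun g hg hg' =>
      ⟨fun h => hg' (hle1 h), fun h => hg' ((hiff g hg).mpr (hle2 h))⟩
    by_cases he : M2 ≤ H2
    · have : H2 = M2 := le_antisymm hle2 he
      subst this
      rw [index_of_isCoatom hG hM2] at h2'
      obtain ⟨a, a1, a2, a3⟩ := hodd (by omega)
      exact ⟨M1, C, a, hM1, hC, hCD, a3, fun h => a1 (hle1 h), a2, hlast⟩
    · have h21 : ¬ M2 ≤ M1 := fun h => hne ((hM2.le_iff.mp h).resolve_left hM1.1)
      obtain ⟨a, a0, a1, a2⟩ := exists_notMem_two h21 he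
      exact ⟨M1, C, a, hM1, hC, hCD, fun h => a1 ((hiff a h).mpr a0), fun h => a1 (hle1 h), a2, hlast⟩

theorem step [Finite G] (hG : IsPGroup p G)
    (IH : ∀ (K : Type u) [Group K] [Finite K], IsPGroup p K → Nat.card K < Nat.card G → VL p K) :
    VL p G := by
  intro n H1 H2 h1 h2 hb
  by_contra hcon
  push Not at hcon
  have hcomm : commutator G ≠ ⊥ := by
    intro h
    rw [h, card_bot] at hcon
    exact absurd hcon (not_lt.mpr (Nat.one_le_pow _ _ hp.out.pos))
  obtain ⟨D, C, a, hD, hC, hCD, haC, ha1, ha2, hlast⟩ := setup hG hcomm h1 h2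
  haveI := normal_of_isCoatom hG hC
  haveI := normal_of_isCoatom hG hD
  have hlt : ∀ (L : Type u) [Group L] [Finite L] (E : Subgroup L), E ≠ ⊤ → Nat.card E < Nat.card L := by
    intro L _ _ E hE
    have := E.card_mul_index
    have h1 : 1 < E.index := one_lt_index_of_ne_top hE
    have h2 : 0 < Nat.card E := Nat.card_pos
    nlinarith
  have hCG := hlt G C hC.1
  have hVC : VL p C := IH C (hG.to_subgroup C) hCG
  have ha := hb a ha1 ha2
  obtain ⟨k, rfl⟩ : ∃ k, n = k + 1 := by
    rcases n with _ | k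
    · have h0 : (centralizer {a}).index ≠ 0 := index_ne_zero_of_finite
      simp at ha
      exact absurd ha h0
    · exact ⟨k, rfl⟩
  obtain ⟨Z, hZC, hcard, hA2, hA3⟩ := keyA hC
  have b0 : ∀ g ∈ C, g ∉ D → (centralizer {g}).index ≤ p ^ k := fun g hg hgD =>
    le_of_lt_succ hG (hb g (hlast g hg hgD).1 (hlast g hg hgD).2)
  have b1 : Z.relIndex C ≤ p ^ k := (hA2 a haC).trans (le_of_lt_succ hG ha)
  have pos1 : 0 < p ^ k := pow_pos hp.out.pos _
  have b2 : p ^ k.choose 2 < Nat.card (⁅C, C⁆ : Subgroup G) := by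
    by_contra h; push Not at h
    rw [hcard, choose_succ, pow_add] at hcon
    nlinarith [Nat.mul_le_mul b1 h]
  have b3 : ∀ g ∈ C, g ∉ D → g ∉ Z → (centralizer {g}).relIndex C < p ^ k := fun g hg hgD hgZ =>
    (hA3 g hg hgZ).trans_le (b0 g hg hgD)
  have b4 : ¬ (Z ≤ D ∨ 2 < Z.relIndex C) := fun h =>
    absurd (hVC.rel k D Z hCD h b3) (not_le.mpr b2)
  push Not at b4
  have b5 : Nat.card (⁅C, C⁆ : Subgroup G) ≤ p ^ (k + 1).choose 2 := by
    apply hVC.rel _ D D hCD (Or.inl le_rfl)
    intro g hg hgD _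
    exact (rel_le _ _).trans_lt (hb g (hlast g hg hgD).1 (hlast g hg hgD).2)
  have b6 : Z.relIndex C = 2 := by
    have h0 : Z.relIndex C ≠ 0 := index_ne_zero_of_finite
    have h1 : Z.relIndex C ≠ 1 := by
      intro h
      rw [hcard, h, one_mul] at hcon
      omega
    omega
  have hp2 : p = 2 := by
    obtain ⟨j, hj⟩ := (hG.to_subgroup C).index (Z.subgroupOf C)
    have : p ^ j = 2 := by rw [← hj]; exact b6
    exact ((Nat.Prime.pow_eq_iff Nat.prime_two).mp this).1
  obtain ⟨m, rfl⟩ : ∃ m, k = m + 1 := by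
    rcases k with _ | m
    · rw [b6] at b1; simp at b1
    · exact ⟨m, rfl⟩
  have hDc : IsCoatom (D.subgroupOf C) := by
    apply isCoatom_of_index_prime hp.out
    have hd := relIndex_dvd_index_of_normal D C
    rw [index_of_isCoatom hG hD] at hd
    rcases (Nat.dvd_prime hp.out).mp hd with h | h
    · exact absurd (relIndex_eq_one.mp h) hCD
    · exact h
  have hZc : IsCoatom (Z.subgroupOf C) := isCoatom_of_index_prime hp.out (hp2 ▸ b6)
  have hne : D.subgroupOf C ≠ Z.subgroupOf C := by
    intro h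
    apply b4.1
    intro z hz
    have : (⟨z, hZC hz⟩ : C) ∈ D.subgroupOf C := by rw [h]; exact hz
    exact this
  have b7 := stepB (hG.to_subgroup C)
    (fun E hE => IH E ((hG.to_subgroup C).to_subgroup E) ((hlt C E hE).trans hCG)) hDc hZc hne m
    (fun g hg => by
      rw [index_cen_sub]; exact (rel_le _ _).trans (b0 g g.2 hg))
    (fun g hg hg' => by
      rw [index_cen_sub]; exact b3 g g.2 hg hg')
  rw [card_comm_sub] at b7
  obtain ⟨j, hj⟩ := IsPGroup.iff_card.mp (hG.to_subgroup ⁅C, C⁆)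
  rw [hcard, b6, hj] at hcon
  rw [hj] at b7
  have e1 := (Nat.pow_lt_pow_iff_right hp.out.one_lt).mp b7
  have e2 : p ^ (m + 1 + 1).choose 2 < p ^ (j + 1) := by
    rw [pow_succ, mul_comm]
    calc _ < 2 * p ^ j := hcon
      _ = _ := by rw [hp2]
  have e3 := (Nat.pow_lt_pow_iff_right hp.out.one_lt).mp e2
  have : m + 1 + 1 = m + 2 := rfl
  rw [this] at e3
  omega

theorem vl_all (n : ℕ) : ∀ (G : Type u) [Group G] [Finite G], IsPGroup p G → Nat.card G = n → VL p G := by
  induction n using Nat.strong_induction_on with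
  | _ n ih =>
    intro G _ _ hG hn
    exact step hG (fun K _ _ hK hlt => ih _ (hn ▸ hlt) K hK rfl)

theorem vaughanLee [Finite G] (hG : IsPGroup p G) (b : ℕ)
    (hb : ∀ x : G, (centralizer ({x} : Set G)).index ≤ p ^ b) :
    Nat.card (commutator G) ≤ p ^ (b * (b + 1) / 2) := by
  by_cases h : (⊥ : Subgroup G) = ⊤
  · have : commutator G = ⊥ := le_bot_iff.mp (h ▸ le_top)
    rw [this, card_bot]
    exact Nat.one_le_pow _ _ hp.out.pos
  · have := vl_all _ G hG rfl (b + 1) ⊥ ⊥ h (Or.inl le_rfl) (fun g _ _ =>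
      (hb g).trans_lt (Nat.pow_lt_pow_right hp.out.one_lt (by omega)))
    rwa [Nat.choose_two_right, Nat.add_sub_cancel, mul_comm] at this

end Cfsg.Agent.H3.VLee
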